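/-
A group of class two acting absolutely irreducibly, with an operator acting without fixed points and
semiregularly on the quotient by the scalar part: the degree is less than the order of the operator.
Adapted from `Cfsg.Agent.PrimeFPF.count_aux` to operators of composite order.
-/
import Mathlib
import Cfsg.Agent.PrimeFPF.Count
import Cfsg.Agent.FPFPower.Basic

set_option autoImplicit false

namespace Cfsg.Agent.FPFPower

open Module Finset Subgroup Cfsg.Agent.PrimeFPF

variable {K W : Type*} [Field K] [AddCommGroup W] [Module K W] {P : Type*} [Group P]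

theorem count_semiregular [IsAlgClosed K] [FiniteDimensional K W] [Nontrivial W] [Finite P]
    (ρ : P →* Module.End K W) (R : Subgroup P) [R.Normal] (σ : MulAut P) (T : Module.End K W)
    {r : ℕ} (hr : 1 < r) (hrK : (r : K) ≠ 0) (hPK : (Nat.card P : K) ≠ 0) (hT : T ^ r = 1)
    (hTσ : ∀ x, T * ρ x = ρ (σ x) * T) (hfpf : ∀ v, T v = v → v = 0) (hσr : σ ^ r = 1)
    (hRσ : R.map σ.toMonoidHom = R)
    (hscal : ∀ z ∈ R, ∃ c : K, ρ z = c • 1)
    (h2 : ∀ x y : P, x * y * x⁻¹ * y⁻¹ ∈ R)
    (hcl : ∀ x y g : P, g * (x * y * x⁻¹ * y⁻¹) = x * y * x⁻¹ * y⁻¹ * g)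
    (hsep : ∀ w ∉ R, ∃ s, ρ (s * w * s⁻¹ * w⁻¹) ≠ 1)
    (hσ : ∀ i, 0 < i → i < r → ∀ x, x⁻¹ * (σ ^ i) x ∈ R → x ∈ R)
    (hirr : ∀ b : Module.End K W, (∀ x, Commute b (ρ x)) → ∃ c : K, b = c • 1)
    (hne : R ≠ ⊤) :
    finrank K W ^ 2 = R.index ∧ finrank K W + 1 ≤ r ∧
      r ∣ finrank K W ^ 2 - 1 := by
  classical
  letI := Fintype.ofFinite P
  let Qt := P ⧸ R
  letI : Fintype Qt := Fintype.ofFinite Qt
  let e : Qt → Module.End K W := fun u => ρ (Quotient.out u)
  let S : P → Module.End K W := fun w => ∑ s : P, ρ (s * w * s⁻¹ * w⁻¹)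
  have hSin : ∀ w ∈ R, S w = (Nat.card P : K) • 1 := by
    intro w hw
    have : ∀ s : P, ρ (s * w * s⁻¹ * w⁻¹) = 1 := fun s => by
      obtain ⟨c, hc⟩ := hscal w hw
      rw [map_mul, map_mul, map_mul, hc, mul_smul_comm, mul_one, smul_mul_assoc, ← map_mul, mul_inv_cancel, map_one,
        smul_mul_assoc, one_mul, ← mul_one (ρ w⁻¹), ← mul_smul_comm]
      rw [show (c • 1 : Module.End K W) = ρ w from hc.symm, ← map_mul, inv_mul_cancel, map_one]
    simp only [S]
    rw [Finset.sum_congr rfl fun s _ => this s, Finset.sum_const,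
      Finset.card_univ, Nat.card_eq_fintype_card, Nat.cast_smul_eq_nsmul]
  have hSout : ∀ w ∉ R, S w = 0 := by
    intro w hw
    obtain ⟨s₀, hs₀⟩ := hsep w hw
    obtain ⟨c, hc⟩ := hscal _ (h2 s₀ w)
    have hc1 : c ≠ 1 := by
      rintro rfl
      exact hs₀ (by rw [hc, one_smul])
    have key : c • S w = S w := by
      conv_rhs => rw [show S w = ∑ s : P, ρ ((s₀ * s) * w * (s₀ * s)⁻¹ * w⁻¹) from
        (Fintype.sum_equiv (Equiv.mulLeft s₀) _ _ fun s => rfl).symm]
      rw [Finset.smul_sum]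
      refine Finset.sum_congr rfl fun s _ => ?_
      have e1 : (s₀ * s) * w * (s₀ * s)⁻¹ * w⁻¹
          = (s₀ * w * s₀⁻¹ * w⁻¹) * (s * w * s⁻¹ * w⁻¹) := by
        have h := hcl s w s₀
        calc (s₀ * s) * w * (s₀ * s)⁻¹ * w⁻¹
            = (s₀ * (s * w * s⁻¹ * w⁻¹)) * w * s₀⁻¹ * w⁻¹ := by group
          _ = (s * w * s⁻¹ * w⁻¹) * (s₀ * w * s₀⁻¹ * w⁻¹) := by rw [h]; group
          _ = _ := (hcl s w _).symm
      rw [e1, map_mul ρ (s₀ * w * s₀⁻¹ * w⁻¹), hc, smul_mul_assoc, one_mul]
    have : (c - 1) • S w = 0 := by rw [sub_smul, one_smul, key, sub_self]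
    exact (smul_eq_zero.mp this).resolve_left (sub_ne_zero.mpr hc1)
  let Φ : P → Module.End K W → Module.End K W := fun x f =>
    ∑ s : P, ρ (x * s * x⁻¹ * s⁻¹) * (ρ s * f * ρ s⁻¹)
  have hρρ : ∀ a b (f : Module.End K W), ρ a * (ρ b * f) = ρ (a * b) * f := fun a b f => by
    rw [map_mul, mul_assoc]
  have hΦρ : ∀ x y, Φ x (ρ y) = S (x⁻¹ * y) * ρ y := by
    intro x y
    simp only [Φ, S, Finset.sum_mul, ← map_mul]
    refine Finset.sum_congr rfl fun s _ => congrArg ρ ?_
    have h := hcl s (x⁻¹ * y) x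
    calc x * s * x⁻¹ * s⁻¹ * (s * y * s⁻¹)
        = (x * (s * (x⁻¹ * y) * s⁻¹ * (x⁻¹ * y)⁻¹)) * x⁻¹ * y := by group
      _ = _ := by rw [h]; group
  have hspan : ∀ f : Module.End K W, f ∈ Submodule.span K (Set.range e) := by
    intro f
    have hmem : ∀ x, ρ x ∈ Submodule.span K (Set.range e) := by
      intro x
      obtain ⟨z, hz⟩ : ∃ z ∈ R, x = Quotient.out (x : Qt) * z :=
        ⟨(Quotient.out (x : Qt))⁻¹ * x, by
          rw [← QuotientGroup.eq]; exact QuotientGroup.out_eq' _, by group⟩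
      obtain ⟨c, hc⟩ := hscal z hz.1
      rw [hz.2, map_mul, hc, mul_smul_comm, mul_one]
      exact Submodule.smul_mem _ c (Submodule.subset_span ⟨_, rfl⟩)
    have hΦmem : ∀ x, Φ x f ∈ Submodule.span K (Set.range e) := by
      intro x
      have hcm : ∀ a, Commute (Φ x f * ρ x⁻¹) (ρ a) := by
        intro a
        obtain ⟨c, hc⟩ := hscal _ (h2 a x)
        have hk : ρ a * Φ x f = ρ (a * x * a⁻¹ * x⁻¹) * (Φ x f * ρ a) := by
          simp only [Φ, Finset.mul_sum, Finset.sum_mul]
          refine Fintype.sum_equiv (Equiv.mulLeft a) _ _ fun s => ?_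
          simp only [Equiv.coe_mulLeft]
          have e1 : a * (x * s * x⁻¹ * s⁻¹) * s = (a * x * a⁻¹ * x⁻¹)
              * (x * (a * s) * x⁻¹ * (a * s)⁻¹) * (a * s) := by group
          have e2 : (a * s)⁻¹ * a = s⁻¹ := by group
          calc ρ a * (ρ (x * s * x⁻¹ * s⁻¹) * (ρ s * f * ρ s⁻¹))
              = ρ (a * (x * s * x⁻¹ * s⁻¹) * s) * (f * ρ s⁻¹) := by
                rw [map_mul ρ _ s, map_mul ρ a]; simp only [mul_assoc]
            _ = ρ ((a * x * a⁻¹ * x⁻¹) * (x * (a * s) * x⁻¹ * (a * s)⁻¹) * (a * s))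
                  * (f * ρ ((a * s)⁻¹ * a)) := by rw [e1, e2]
            _ = _ := by
                rw [map_mul ρ _ (a * s), map_mul ρ (a * x * a⁻¹ * x⁻¹), map_mul ρ (a * s)⁻¹]
                simp only [mul_assoc]
        have hz : a * x * a⁻¹ * x⁻¹ * (a * x⁻¹) = x⁻¹ * a := by
          calc a * x * a⁻¹ * x⁻¹ * (a * x⁻¹)
              = x⁻¹ * (x * (a * x * a⁻¹ * x⁻¹)) * (a * x⁻¹) := by group
            _ = x⁻¹ * ((a * x * a⁻¹ * x⁻¹) * x) * (a * x⁻¹) := by rw [hcl a x x]
            _ = x⁻¹ * a := by group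
        refine (?_ : ρ a * (Φ x f * ρ x⁻¹) = Φ x f * ρ x⁻¹ * ρ a).symm
        calc ρ a * (Φ x f * ρ x⁻¹) = Φ x f * (c • ρ (a * x⁻¹)) := by
              rw [← mul_assoc, hk, hc, smul_mul_assoc, one_mul, smul_mul_assoc, mul_assoc, ← map_mul,
                mul_smul_comm]
          _ = Φ x f * ρ (x⁻¹ * a) := by
              rw [← hz, map_mul ρ (a * x * a⁻¹ * x⁻¹), hc, smul_mul_assoc, one_mul]
          _ = _ := by rw [map_mul, mul_assoc]
      obtain ⟨c, hc⟩ := hirr _ hcm
      have : Φ x f = c • ρ x := by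
        calc Φ x f = Φ x f * ρ x⁻¹ * ρ x := by rw [mul_assoc, ← map_mul, inv_mul_cancel, map_one, mul_one]
          _ = c • ρ x := by rw [hc, smul_mul_assoc, one_mul]
      rw [this]
      exact Submodule.smul_mem _ c (hmem x)
    have hsumΦ : ∑ x : P, Φ x f = ((Nat.card P : K) * (Nat.card (R) : K)) • f := by
      simp only [Φ]
      rw [Finset.sum_comm]
      simp only [← Finset.sum_mul]
      have : ∀ s : P, (∑ x : P, ρ (x * s * x⁻¹ * s⁻¹)) * (ρ s * f * ρ s⁻¹)
          = if s ∈ R then (Nat.card P : K) • f else 0 := by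
        intro s
        show S s * _ = _
        split_ifs with hs
        · obtain ⟨c, hc⟩ := hscal s hs
          have h1 : ρ s * f = f * ρ s := by rw [hc]; simp
          rw [h1, mul_assoc, ← map_mul, mul_inv_cancel, map_one, mul_one, hSin s hs,
            smul_mul_assoc, one_mul]
        · rw [hSout s hs, zero_mul]
      rw [Finset.sum_congr rfl fun s _ => this s, ← Finset.sum_filter, Finset.sum_const,
        ← Nat.cast_smul_eq_nsmul K, smul_smul, mul_comm]
      congr 3
      rw [Nat.card_eq_fintype_card, ← Fintype.card_subtype]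
    have hne0 : (Nat.card P : K) * (Nat.card (R) : K) ≠ 0 := by
      refine mul_ne_zero hPK fun h => hPK ?_
      obtain ⟨k, hk⟩ := card_subgroup_dvd_card (R)
      rw [hk, Nat.cast_mul, h, zero_mul]
    have := Submodule.smul_mem (Submodule.span K (Set.range e)) ((Nat.card P : K) * (Nat.card (R) : K))⁻¹
      (Submodule.sum_mem _ (t := (Finset.univ : Finset P)) fun x _ => hΦmem x)
    rwa [hsumΦ, smul_smul, inv_mul_cancel₀ hne0, one_smul] at this
  have hLI : LinearIndependent K e := by
    rw [Fintype.linearIndependent_iff]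
    intro a ha v
    have hlin : Φ (Quotient.out v) (∑ u, a u • e u) = ∑ u, a u • Φ (Quotient.out v) (e u) := by
      simp only [Φ, Finset.mul_sum, Finset.sum_mul, Finset.smul_sum, mul_smul_comm, smul_mul_assoc]
      rw [Finset.sum_comm]
    have h0 : Φ (Quotient.out v) 0 = 0 := by simp [Φ]
    rw [ha, h0, Finset.sum_eq_single v] at hlin
    · rw [hΦρ, inv_mul_cancel, hSin 1 (one_mem _), smul_mul_assoc, one_mul, smul_smul] at hlin
      have hev : e v ≠ 0 := by
        intro h
        have h1 : (1 : Module.End K W) = 0 := by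
          rw [← map_one ρ, ← inv_mul_cancel (Quotient.out v), map_mul]
          exact (congrArg (ρ (Quotient.out v)⁻¹ * ·) h).trans (mul_zero _)
        exact one_ne_zero h1
      exact (mul_eq_zero.mp ((smul_eq_zero.mp hlin.symm).resolve_right hev)).resolve_right hPK
    · intro u _ hu
      rw [hΦρ, hSout, zero_mul, smul_zero]
      intro h
      apply hu
      rw [← QuotientGroup.out_eq' u, ← QuotientGroup.out_eq' v]
      exact (QuotientGroup.eq.mpr h).symm
    · simp
  let B : Basis Qt K (Module.End K W) :=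
    Basis.mk hLI (by intro f _; exact hspan f)
  have hN : finrank K W ^ 2 = Fintype.card Qt := by
    rw [← finrank_eq_card_basis B, finrank_linearMap, sq]
  let πE : Qt ≃* Qt := QuotientGroup.congr (R) (R) σ hRσ
  let π : Equiv.Perm Qt := πE.toEquiv
  have hπmk : ∀ x : P, π (x : Qt) = ((σ x : P) : Qt) := fun x => rfl
  have hπpow : ∀ (i : ℕ) (x : P), (π ^ i) (x : Qt) = (((σ ^ i) x : P) : Qt) := by
    intro i x
    induction i with
    | zero => rfl
    | succ i ih => rw [pow_succ', Equiv.Perm.mul_apply, ih, hπmk, pow_succ', MulAut.mul_apply]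
  have hfix : ∀ u, π u = u → u = 1 := by
    intro u hu
    induction u using QuotientGroup.induction_on with
    | H x =>
      rw [hπmk] at hu
      rw [QuotientGroup.eq_one_iff]
      exact hσ 1 one_pos hr x (by rw [pow_one]; exact QuotientGroup.eq.mp hu.symm)
  have hπ1 : π 1 = 1 := map_one πE
  have hπr : π ^ r = 1 := by
    refine Equiv.ext fun u => ?_
    induction u using QuotientGroup.induction_on with
    | H x => rw [hπpow, hσr]; rfl
  have hne1 : ∃ u : Qt, u ≠ 1 := by
    by_contra h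
    push Not at h
    exact hne (eq_top_iff.mpr fun g _ => (QuotientGroup.eq_one_iff g).mp (h _))
  have hsemi : ∀ i, 0 < i → i < r → ∀ u, (π ^ i) u = u → u = 1 := by
    intro i hi hir u hu
    induction u using QuotientGroup.induction_on with
    | H x =>
      rw [hπpow] at hu
      exact (QuotientGroup.eq_one_iff x).mpr (hσ i hi hir x (QuotientGroup.eq.mp hu.symm))
  let H := zpowers π
  letI : Fintype H := Fintype.ofFinite _
  have hburn := card_orbits_semiregular π 1 (by omega) hπr hπ1 hne1 hsemi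
  rw [← hN] at hburn
  set Ω := Quotient (MulAction.orbitRel H Qt)
  obtain ⟨w, hw⟩ : ∃ w : K, IsPrimitiveRoot w r := by
    haveI : NeZero (r : K) := ⟨hrK⟩
    exact HasEnoughRootsOfUnity.exists_primitiveRoot K r
  let C : Submodule K (Module.End K W) :=
    LinearMap.ker (LinearMap.mulLeft K T - LinearMap.mulRight K T)
  have hC : ∀ f, f ∈ C ↔ T * f = f * T := fun f => by simp [C, sub_eq_zero]
  have hlow := sq_le_centralizer hw hrK hT hfpf C fun f hf => (hC f).mpr hf.eq
  let L : C →ₗ[K] (Ω → K) :=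
    LinearMap.pi fun o => ((Finsupp.lapply (Quotient.out o)) ∘ₗ (B.repr : _ →ₗ[K] _)) ∘ₗ C.subtype
  have hTu : IsUnit T := IsUnit.of_mul_eq_one_right (T ^ (r - 1))
    (by rw [← pow_succ, Nat.sub_add_cancel (show 1 ≤ r by omega), hT])
  have hL : Function.Injective L := by
    rw [← LinearMap.ker_eq_bot, LinearMap.ker_eq_bot']
    rintro ⟨f, hf⟩ hLf
    have hzero : ∀ u, B.repr f u = 0 → B.repr f (π u) = 0 := by
      intro u hu
      have hκ : ∀ x : Qt, ∃ c : K, ρ (σ (Quotient.out x)) = c • e (π x) := by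
        intro x
        have hx : π x = ((σ (Quotient.out x) : P) : Qt) := by
          rw [← hπmk, QuotientGroup.out_eq']
        have hz : (Quotient.out (π x))⁻¹ * σ (Quotient.out x) ∈ R := by
          rw [← QuotientGroup.eq, QuotientGroup.out_eq', hx]
        obtain ⟨c, hc⟩ := hscal _ hz
        refine ⟨c, ?_⟩
        rw [← mul_inv_cancel_left (Quotient.out (π x)) (σ (Quotient.out x)), map_mul, hc,
          mul_smul_comm, mul_one]
      choose κ hκ using hκ
      have h1 : f = ∑ x, B.repr f x • e x := by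
        conv_lhs => rw [← B.sum_repr f]
        simp [B]
      have h2' : T * f = (∑ x, (B.repr f x * κ x) • e (π x)) * T := by
        conv_lhs => rw [h1]
        rw [Finset.mul_sum, Finset.sum_mul]
        refine Finset.sum_congr rfl fun x _ => ?_
        rw [mul_smul_comm, show T * e x = ρ (σ (Quotient.out x)) * T from hTσ _, hκ,
          smul_mul_assoc, smul_smul, smul_mul_assoc]
      have h3 : f = ∑ x, (B.repr f x * κ x) • B (π x) := by
        rw [(hC f).mp hf] at h2'
        simpa [B] using hTu.mul_right_cancel h2'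
      have h4 := congrArg (fun g => B.repr g (π u)) h3
      simp only [map_sum, map_smul, Finsupp.coe_finsetSum, Finset.sum_apply, Finsupp.smul_apply,
        Basis.repr_self] at h4
      rw [h4, Finset.sum_eq_single u]
      · simp [hu]
      · intro x _ hx
        rw [Finsupp.single_eq_of_ne (π.injective.ne hx).symm, smul_zero]
      · simp
    have hall : ∀ (i : ℕ) u, B.repr f u = 0 → B.repr f ((π ^ i) u) = 0 := by
      intro i
      induction i with
      | zero => intro u h; simpa using h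
      | succ i ih => intro u h; rw [pow_succ', Equiv.Perm.mul_apply]; exact hzero _ (ih u h)
    refine Subtype.ext (B.repr.injective ?_)
    show B.repr f = B.repr 0
    rw [map_zero]
    ext u
    have ho : B.repr f (Quotient.out (⟦u⟧ : Ω)) = 0 := congrFun hLf (⟦u⟧ : Ω)
    obtain ⟨⟨g, hg⟩, hgu⟩ : u ∈ MulAction.orbit H (Quotient.out (⟦u⟧ : Ω)) :=
      (MulAction.orbitRel H Qt).symm' (Quotient.mk_out u)
    obtain ⟨i, rfl⟩ := (mem_powers_iff_mem_zpowers.mpr hg)
    rw [← hgu]
    exact hall i _ ho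
  have hup : finrank K C ≤ Fintype.card Ω :=
    (LinearMap.finrank_le_finrank_of_injective hL).trans (finrank_fintype_fun_eq_card K).le
  refine ⟨by rw [hN, Subgroup.index, Nat.card_eq_fintype_card], ?_, ?_⟩
  · obtain ⟨s, rfl⟩ : ∃ s, r = s + 1 := ⟨r - 1, by omega⟩
    simp only [Nat.add_sub_cancel] at hburn hlow
    have h := hlow.trans (Nat.mul_le_mul_left s hup)
    have : finrank K W ^ 2 * (s + 1) ≤ s * (s + finrank K W ^ 2) := by
      calc finrank K W ^ 2 * (s + 1) ≤ s * Fintype.card Ω * (s + 1) := Nat.mul_le_mul_right _ h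
        _ = _ := by rw [mul_assoc, hburn]
    have : finrank K W ≤ s := by nlinarith
    omega
  · refine ⟨Fintype.card Ω - 1, ?_⟩
    rw [Nat.mul_sub, mul_one, mul_comm r]
    rw [hburn]; omega

end Cfsg.Agent.FPFPower
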