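/-
A fixed-point-free automorphism of order `p^(n+1)`, `p` odd, acting compatibly and without fixed
points on a module for a `q`-group: the element of order `p` centralizes the image.
-/
import Mathlib
import Cfsg.Agent.FPFPower.Count
import Cfsg.Agent.PrimeFPF.Linear

set_option autoImplicit false

namespace Cfsg.Agent.FPFPower

open Module Finset
open scoped commutatorElement

variable {K : Type*} [Field K] {W : Type*} [AddCommGroup W] [Module K W] {Q : Type*} [Group Q]

/-- The joint eigenspace for `χ` on a subgroup. -/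
def wt (ρ : Q →* Module.End K W) (Z : Subgroup Q) (χ : Q → K) : Submodule K W :=
  ⨅ z ∈ Z, Module.End.eigenspace (ρ z) (χ z)

theorem mem_wt {ρ : Q →* Module.End K W} {Z : Subgroup Q} {χ : Q → K} {w : W} :
    w ∈ wt ρ Z χ ↔ ∀ z ∈ Z, ρ z w = χ z • w := by simp [wt]

theorem char_mul {ρ : Q →* Module.End K W} {Z : Subgroup Q} {χ : Q → K} {w : W} (hw : w ∈ wt ρ Z χ) (hw0 : w ≠ 0)
    {a b : Q} (ha : a ∈ Z) (hb : b ∈ Z) : χ (a * b) = χ a * χ b := by
  have h := mem_wt.mp hw _ (mul_mem ha hb)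
  rw [map_mul, Module.End.mul_apply, mem_wt.mp hw b hb, map_smul, mem_wt.mp hw a ha, smul_smul] at h
  rw [← smul_left_injective K hw0 h, mul_comm]

theorem char_one {ρ : Q →* Module.End K W} {Z : Subgroup Q} {χ : Q → K} {w : W} (hw : w ∈ wt ρ Z χ) (hw0 : w ≠ 0) :
    χ 1 = 1 := by
  have h := mem_wt.mp hw _ (one_mem Z)
  rw [map_one, Module.End.one_apply] at h
  exact (smul_left_injective K hw0 ((one_smul K w).trans h)).symm

theorem char_pow {ρ : Q →* Module.End K W} {Z : Subgroup Q} {χ : Q → K} {w : W} (hw : w ∈ wt ρ Z χ) (hw0 : w ≠ 0)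
    {a : Q} (ha : a ∈ Z) (i : ℕ) : χ (a ^ i) = χ a ^ i := by
  induction i with
  | zero => simp [char_one hw hw0]
  | succ i ih => rw [pow_succ, pow_succ, char_mul hw hw0 (pow_mem ha i) ha, ih]

/-- A commuting family of semisimple operators has an eigenvector moved by a given nontrivial member. -/
theorem exists_weight [IsAlgClosed K] [FiniteDimensional K W] (ρ : Q →* Module.End K W) (Z : Subgroup Q)
    (U : Submodule K W) (hU : ∀ z ∈ Z, ∀ u ∈ U, ρ z u ∈ U)
    (hc : ∀ a ∈ Z, ∀ b ∈ Z, ∀ u ∈ U, ρ a (ρ b u) = ρ b (ρ a u))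
    {z₀ : Q} (hz₀ : z₀ ∈ Z) {m : ℕ} (hm : z₀ ^ m = 1) (hmK : (m : K) ≠ 0) (hne : ∃ u ∈ U, ρ z₀ u ≠ u) :
    ∃ (χ : Q → K) (w : W), w ∈ U ∧ w ≠ 0 ∧ w ∈ wt ρ Z χ ∧ χ z₀ ≠ 1 := by
  classical
  obtain ⟨u₀, hu₀, hne⟩ := hne
  let U' : Submodule K W := U.map (ρ z₀ - 1)
  have hU'le : ∀ v ∈ U', v ∈ U := by
    rintro _ ⟨u, hu, rfl⟩
    exact sub_mem (hU z₀ hz₀ u hu) hu
  have hU'inv : ∀ z : Z, ∀ v ∈ U', ρ z v ∈ U' := by
    rintro z _ ⟨u, hu, rfl⟩
    refine ⟨ρ z u, hU z z.2 u hu, ?_⟩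
    simp only [LinearMap.sub_apply, Module.End.one_apply, map_sub]
    rw [hc z₀ hz₀ z z.2 u hu]
  haveI : Nontrivial U' := Submodule.nontrivial_iff_ne_bot.mpr ((Submodule.ne_bot_iff _).mpr
    ⟨_, ⟨u₀, hu₀, rfl⟩, by simpa [sub_eq_zero] using hne⟩)
  let ρ' : Z →* Module.End K U' :=
    { toFun := fun z => (ρ z).restrict (hU'inv z)
      map_one' := LinearMap.ext fun v => Subtype.ext (by simp)
      map_mul' := fun y z => LinearMap.ext fun v => Subtype.ext (by simp) }
  obtain ⟨v, hv0, hv⟩ := Cfsg.Agent.PrimeFPF.exists_common_eigen ρ' fun a b =>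
    LinearMap.ext fun v => Subtype.ext (hc a a.2 b b.2 v (hU'le v v.2))
  choose c hcv using hv
  refine ⟨fun y => if h : y ∈ Z then c ⟨y, h⟩ else 1, v, hU'le v v.2, fun h => hv0 (Subtype.ext h),
    mem_wt.mpr fun z hz => ?_, fun h => ?_⟩
  · rw [dif_pos hz]; exact congrArg Subtype.val (hcv ⟨z, hz⟩)
  · simp only [dif_pos hz₀] at h
    obtain ⟨u, hu, huv⟩ := v.2
    have hfix : ρ z₀ (v : W) = v := by
      have := congrArg Subtype.val (hcv ⟨z₀, hz₀⟩)
      rw [h, one_smul] at this; exact this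
    have hi : ∀ i : ℕ, ρ (z₀ ^ i) u = u + (i : K) • (v : W) := by
      intro i
      induction i with
      | zero => simp
      | succ i ih =>
        rw [pow_succ', map_mul, Module.End.mul_apply, ih, map_add, map_smul, hfix, Nat.cast_succ, add_smul, one_smul]
        rw [LinearMap.sub_apply, Module.End.one_apply, sub_eq_iff_eq_add] at huv
        rw [huv]; abel
    have := hi m
    rw [hm, map_one, Module.End.one_apply, left_eq_add, smul_eq_zero] at this
    exact hv0 (Subtype.ext (this.resolve_left hmK))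

/-- Eigenvectors for pairwise distinct characters are independent. -/
theorem eq_zero_of_sum_eq_zero (ρ : Q →* Module.End K W) (Z : Subgroup Q) {ι : Type*} (θ : ι → Q → K)
    (s : Finset ι) (hdist : ∀ i ∈ s, ∀ j ∈ s, i ≠ j → ∃ z ∈ Z, θ i z ≠ θ j z) (v : ι → W)
    (hv : ∀ i ∈ s, v i ∈ wt ρ Z (θ i)) (hsum : ∑ i ∈ s, v i = 0) : ∀ i ∈ s, v i = 0 := by
  classical
  induction s using Finset.induction generalizing v with
  | empty => simp
  | insert a s ha ih =>
    have hs : ∀ i ∈ s, v i = 0 := by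
      intro i hi
      obtain ⟨z, hz, hne⟩ := hdist i (mem_insert_of_mem hi) a (mem_insert_self a s) (fun h => ha (h ▸ hi))
      have h := ih (fun i hi j hj => hdist i (mem_insert_of_mem hi) j (mem_insert_of_mem hj))
        (fun i => (θ i z - θ a z) • v i) (fun i hi => Submodule.smul_mem _ _ (hv i (mem_insert_of_mem hi))) ?_ i hi
      · exact (smul_eq_zero.mp h).resolve_left (sub_ne_zero.mpr hne)
      · have e1 : ∑ i ∈ insert a s, θ i z • v i = 0 := by
          rw [Finset.sum_congr rfl (fun i hi => (mem_wt.mp (hv i hi) z hz).symm), ← map_sum, hsum, map_zero]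
        have e2 : ∑ i ∈ insert a s, θ a z • v i = 0 := by rw [← Finset.smul_sum, hsum, smul_zero]
        rw [sum_insert ha] at e1 e2
        simp only [sub_smul, Finset.sum_sub_distrib]
        rw [sub_eq_zero]
        exact add_left_cancel (e1.trans e2.symm)
    intro i hi
    rcases mem_insert.mp hi with rfl | hi
    · rw [sum_insert ha, Finset.sum_eq_zero hs, add_zero] at hsum; exact hsum
    · exact hs i hi

theorem pow_intertwine' {ρ : Q →* Module.End K W} {α : MulAut Q} {T : Module.End K W}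
    (hTα : ∀ x, T * ρ x = ρ (α x) * T) (i : ℕ) (x : Q) (v : W) :
    (T ^ i) (ρ x v) = ρ ((α ^ i) x) ((T ^ i) v) := by
  rw [← Module.End.mul_apply, Cfsg.Agent.PrimeFPF.pow_intertwine hTα, Module.End.mul_apply]

theorem pow_mem_U {U : Submodule K W} {T : Module.End K W} (hTU : ∀ v ∈ U, T v ∈ U) (i : ℕ) {v : W} (hv : v ∈ U) :
    (T ^ i) v ∈ U := by
  induction i with
  | zero => simpa
  | succ i ih => rw [pow_succ', Module.End.mul_apply]; exact hTU _ ih

/-- A vector whose translates lie in distinct eigenspaces gives a fixed vector. -/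
theorem eq_zero_of_orbit (ρ : Q →* Module.End K W) (α : MulAut Q) (T : Module.End K W)
    (hTα : ∀ x, T * ρ x = ρ (α x) * T) (U : Submodule K W) (hTU : ∀ v ∈ U, T v ∈ U)
    (hfpf : ∀ v ∈ U, T v = v → v = 0) (Z : Subgroup Q) [Finite Z] (hZ : ∀ y ∈ Z, α y ∈ Z) (χ : Q → K) {P : ℕ}
    (hP : 0 < P) (hdist : ∀ i, 0 < i → i < P → ∃ z ∈ Z, χ ((α ^ i) z) ≠ χ z) {w : W} (hwU : w ∈ U)
    (hw : w ∈ wt ρ Z χ) (hPw : (T ^ P) w = w) : w = 0 := by
  classical
  have hsum : (∑ i ∈ range P, (T ^ i) w) = 0 := by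
    refine hfpf _ (sum_mem fun i _ => pow_mem_U hTU i hwU) ?_
    rw [map_sum]
    have e1 := Finset.sum_range_succ (fun i => (T ^ i) w) P
    rw [Finset.sum_range_succ', hPw, pow_zero, Module.End.one_apply] at e1
    rw [← add_right_cancel e1]
    exact Finset.sum_congr rfl fun i _ => by rw [pow_succ', Module.End.mul_apply]
  have h := eq_zero_of_sum_eq_zero ρ Z (fun i y => χ ((α ^ i).symm y)) (range P) ?_ (fun i => (T ^ i) w) ?_ hsum
    0 (mem_range.mpr hP)
  · simpa using h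
  · intro i hi j hj hij
    wlog hlt : i < j generalizing i j
    · obtain ⟨z, hz, hne⟩ := this j hj i hi (Ne.symm hij) (by omega)
      exact ⟨z, hz, Ne.symm hne⟩
    rw [mem_range] at hj
    obtain ⟨z, hz, hne⟩ := hdist (j - i) (by omega) (by omega)
    refine ⟨(α ^ j) z, pow_apply_mem α hZ j hz, ?_⟩
    rw [MulEquiv.symm_apply_apply, show (α ^ j) z = (α ^ i) ((α ^ (j - i)) z) by
      rw [← MulAut.mul_apply, ← pow_add, show i + (j - i) = j by omega], MulEquiv.symm_apply_apply]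
    exact hne
  · intro i _
    refine mem_wt.mpr fun y hy => ?_
    have hy' : (α ^ i).symm y ∈ Z := symm_mem (α ^ i) (fun z hz => pow_apply_mem α hZ i hz) hy
    have h1 := pow_intertwine' hTα i ((α ^ i).symm y) w
    rw [MulEquiv.apply_symm_apply, mem_wt.mp hw _ hy', map_smul] at h1
    exact h1.symm

/-- The least period of a character under an automorphism of order dividing `p^M`. -/
theorem exists_period {p M : ℕ} (hp : p.Prime) (α : MulAut Q) (hα : α ^ p ^ M = 1) (Z : Subgroup Q)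
    (hZ : ∀ y ∈ Z, α y ∈ Z) (χ : Q → K) :
    ∃ j ≤ M, (∀ z ∈ Z, χ ((α ^ p ^ j) z) = χ z) ∧
      ∀ i, 0 < i → i < p ^ j → ∃ z ∈ Z, χ ((α ^ i) z) ≠ χ z := by
  classical
  have hex : ∃ P, 0 < P ∧ ∀ z ∈ Z, χ ((α ^ P) z) = χ z :=
    ⟨p ^ M, pow_pos hp.pos M, fun z _ => by rw [hα]; rfl⟩
  set P := Nat.find hex
  obtain ⟨hP0, hP⟩ := Nat.find_spec hex
  have hPk : ∀ k : ℕ, ∀ z ∈ Z, χ ((α ^ (P * k)) z) = χ z := by
    intro k
    induction k with
    | zero => simp
    | succ k ih =>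
      intro z hz
      rw [Nat.mul_succ, pow_add, MulAut.mul_apply, ih _ (pow_apply_mem α hZ P hz), hP z hz]
  have hdvd : P ∣ p ^ M := by
    rw [Nat.dvd_iff_mod_eq_zero]
    by_contra h
    refine Nat.find_min hex (show p ^ M % P < P from Nat.mod_lt _ hP0) ⟨Nat.pos_of_ne_zero h, fun z hz => ?_⟩
    have h1 : χ ((α ^ (P * (p ^ M / P) + p ^ M % P)) z) = χ z := by rw [Nat.div_add_mod, hα]; rfl
    rw [pow_add, MulAut.mul_apply, hPk _ _ (pow_apply_mem α hZ _ hz)] at h1
    exact h1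
  obtain ⟨j, hj, hPj⟩ := (Nat.dvd_prime_pow hp).mp hdvd
  refine ⟨j, hj, hPj ▸ hP, fun i hi hij => ?_⟩
  have := Nat.find_min hex (show i < P from hPj ▸ hij)
  push Not at this
  exact this hi

end Cfsg.Agent.FPFPower
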