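/-
An `s`-group normalised by an operator of order dividing `2^t`, `t ≥ 2`, which moves vectors only inside a plane:
the involution centralises the image.
-/
import Mathlib
import Cfsg.Agent.FPFPower.Diag
import Cfsg.Agent.FPFPower.Spectral

set_option autoImplicit false
set_option maxHeartbeats 1000000

namespace Cfsg.Agent.FPFPower

open Module Finset
open scoped commutatorElement

universe u v w

variable {K : Type v} [Field K] [IsAlgClosed K] {W : Type*} [AddCommGroup W] [Module K W] [FiniteDimensional K W]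
  {S : Type u} [Group S] [Finite S] {s t : ℕ}

omit [IsAlgClosed K] [FiniteDimensional K W] [Finite S] in
theorem restrictHom_exists (ρ : S →* Module.End K W) (Y : Submodule K W) (hY : ∀ a, ∀ v ∈ Y, ρ a v ∈ Y) :
    ∃ ρY : S →* Module.End K Y, ∀ a (v : Y), ((ρY a v : Y) : W) = ρ a v :=
  ⟨{ toFun := fun a => (ρ a).restrict (hY a)
     map_one' := LinearMap.ext fun v => Subtype.ext (by simp)
     map_mul' := fun a b => LinearMap.ext fun v => Subtype.ext (by simp) }, fun _ _ => rfl⟩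

/-- The commutative case: a moved weight has at least four translates. -/
theorem bireflect_comm (hS : (Nat.card S : K) ≠ 0) (ρ : S →* Module.End K W) (β : MulAut S) (ht : 2 ≤ t)
    (hβ : β ^ 2 ^ t = 1) (T : Module.End K W) (hT : T ^ 2 ^ t = 1) (hTβ : ∀ x, T * ρ x = ρ (β x) * T)
    (P : Submodule K W) (hP : finrank K P ≤ 2) (hTP : ∀ v, T v - v ∈ P) (hc : ∀ a b, Commute (ρ a) (ρ b)) :
    ∀ x, ρ ((β ^ 2 ^ (t - 1)) x) = ρ x := by
  classical
  intro x
  set J := β ^ 2 ^ (t - 1) with hJ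
  suffices h : ρ (x⁻¹ * J x) = 1 by
    calc ρ (J x) = ρ (x * (x⁻¹ * J x)) := by rw [mul_inv_cancel_left]
      _ = ρ x := by rw [map_mul, h, mul_one]
  by_contra hne
  obtain ⟨v, hv⟩ : ∃ v, ρ (x⁻¹ * J x) v ≠ v := by
    by_contra h
    push Not at h
    exact hne (LinearMap.ext h)
  obtain ⟨χ, w, -, hw0, hw, hχ⟩ := exists_weight ρ ⊤ ⊤ (fun _ _ _ _ => trivial)
    (fun a _ b _ u _ => LinearMap.congr_fun (hc a b).eq u) (Subgroup.mem_top (x⁻¹ * J x)) pow_card_eq_one' hS
    ⟨v, trivial, hv⟩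
  obtain ⟨j, hj, hPj, hdist⟩ := exists_period Nat.prime_two β hβ ⊤ (fun _ _ => trivial) χ
  have hjt : j = t := by
    by_contra hjt
    refine hχ ?_
    have hk : ∀ k : ℕ, ∀ z, χ (((β ^ 2 ^ j) ^ k) z) = χ z := by
      intro k
      induction k with
      | zero => simp
      | succ k ih => intro z; rw [pow_succ, MulAut.mul_apply, ih, hPj z trivial]
    have h1 := hk (2 ^ (t - 1 - j)) x
    rw [← pow_mul, ← pow_add, show j + (t - 1 - j) = t - 1 by omega, ← hJ] at h1
    rw [char_mul hw hw0 trivial trivial, h1, ← char_mul hw hw0 trivial trivial, inv_mul_cancel, char_one hw hw0]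
  subst hjt
  have h4 : 4 ≤ 2 ^ j := le_trans (by norm_num) (Nat.pow_le_pow_right (by norm_num : 0 < 2) ht)
  have hTu : IsUnit T := IsUnit.of_pow_eq_one hT (by omega)
  have hind : ∀ c : ℕ → K, ∑ i ∈ range 4, c i • (T ^ i) w = 0 → ∀ i < 4, c i = 0 := by
    intro c hsum i hi
    have h := eq_zero_of_sum_eq_zero ρ ⊤ (fun i y => χ ((β ^ i).symm y)) (range 4) ?_ (fun i => c i • (T ^ i) w) ?_
      hsum i (mem_range.mpr hi)
    · refine (smul_eq_zero.mp h).resolve_right fun h' => hw0 ?_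
      refine ((Module.End.isUnit_iff (T ^ i)).mp (hTu.pow i)).injective (h'.trans (map_zero _).symm)
    · intro a ha b hb hab
      wlog hlt : a < b generalizing a b
      · obtain ⟨z, hz, hne⟩ := this b hb a ha (Ne.symm hab) (by omega)
        exact ⟨z, hz, Ne.symm hne⟩
      rw [mem_range] at hb
      obtain ⟨z, -, hne⟩ := hdist (b - a) (by omega) (by omega)
      refine ⟨(β ^ b) z, trivial, ?_⟩
      rw [MulEquiv.symm_apply_apply, show (β ^ b) z = (β ^ a) ((β ^ (b - a)) z) by
        rw [← MulAut.mul_apply, ← pow_add, show a + (b - a) = b by omega], MulEquiv.symm_apply_apply]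
      exact hne
    · intro a _
      refine Submodule.smul_mem _ _ (mem_wt.mpr fun y _ => ?_)
      have h1 := pow_intertwine' hTβ a ((β ^ a).symm y) w
      rw [MulEquiv.apply_symm_apply, mem_wt.mp hw _ trivial, map_smul] at h1
      exact h1.symm
  let u : Fin 3 → P := fun i => ⟨T ((T ^ (i : ℕ)) w) - (T ^ (i : ℕ)) w, hTP _⟩
  have hu : LinearIndependent K u := by
    rw [Fintype.linearIndependent_iff]
    intro g hg
    have h := congrArg Subtype.val hg
    simp only [u, Fin.sum_univ_three, Submodule.coe_add, Submodule.coe_smul, Fin.val_zero, Fin.val_one, Fin.val_two,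
      ← Module.End.mul_apply, ← pow_succ', zero_add, ZeroMemClass.coe_zero] at h
    let c : ℕ → K := fun i => match i with
      | 0 => -g 0 | 1 => g 0 - g 1 | 2 => g 1 - g 2 | _ => g 2
    have h0 := hind c (by
      simp only [Finset.sum_range_succ, Finset.sum_range_zero, zero_add, c, pow_zero, Module.End.one_apply]
      rw [← h]
      simp only [smul_sub, sub_smul, neg_smul, Nat.reduceAdd, pow_one, pow_zero, Module.End.one_apply]
      abel)
    have e0 := h0 0 (by omega)
    have e1 := h0 1 (by omega)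
    have e2 := h0 3 (by omega)
    simp only [c, neg_eq_zero, sub_eq_zero] at e0 e1 e2
    intro i
    fin_cases i
    · exact e0
    · exact e1.symm.trans e0
    · exact e2
  have := hu.fintype_card_le_finrank
  rw [Fintype.card_fin] at this
  omega

/-- A faithful irreducible group generated by the elements inverted by the involution: impossible. -/
theorem bireflect_irreducible [Fact s.Prime] (hs2 : s ≠ 2) (h2 : (2 : K) ≠ 0) (hsK : (s : K) ≠ 0) (hS : IsPGroup s S)
    [Nontrivial W] (ρ : S →* Module.End K W) (hinj : Function.Injective ρ) (β : MulAut S) (ht : 2 ≤ t)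
    (ht3 : t = 2 → s ≠ 3) (hβ : β ^ 2 ^ t = 1) (T : Module.End K W) (hT : T ^ 2 ^ t = 1)
    (hTβ : ∀ x, T * ρ x = ρ (β x) * T) (P : Submodule K W) (hP : finrank K P ≤ 2) (hTP : ∀ v, T v - v ∈ P)
    (hirr : ∀ b : Module.End K W, (∀ x, Commute b (ρ x)) → ∃ c : K, b = c • 1)
    (hcl : ∀ a b : S, ⁅a, b⁆ ∈ Subgroup.center S) (hgen : Subgroup.closure (Set.range fun y => y⁻¹ * (β ^ 2 ^ (t - 1)) y) = ⊤)
    (hZfix : ∀ z ∈ Subgroup.center S, (β ^ 2 ^ (t - 1)) z = z) (hne : Subgroup.center S ≠ ⊤) : False := by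
  classical
  have hs : s.Prime := Fact.out
  set Z := Subgroup.center S with hZdef
  set J := β ^ 2 ^ (t - 1) with hJ
  have hN4 : 4 ≤ 2 ^ t := le_trans (by norm_num) (Nat.pow_le_pow_right (by norm_num : 0 < 2) ht)
  have hJ2 : ∀ y, J (J y) = y := fun y => by
    rw [hJ, ← MulAut.mul_apply, ← pow_add, ← two_mul, ← pow_succ', Nat.sub_add_cancel (by omega), hβ, MulAut.one_apply]
  have hSK : (Nat.card S : K) ≠ 0 := by
    obtain ⟨k, hk⟩ := IsPGroup.iff_card.mp hS
    rw [hk, Nat.cast_pow]; exact pow_ne_zero _ hsK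
  -- the elements inverted modulo the center
  let A : Subgroup S :=
    { carrier := {a | a * J a ∈ Z}
      one_mem' := by simp
      mul_mem' := fun {a b} (ha : a * J a ∈ Z) (hb : b * J b ∈ Z) => by
        show a * b * J (a * b) ∈ Z
        have h1 := hcl b (J a)
        have e : a * b * J (a * b) = (a * (⁅b, J a⁆ * J a)) * (b * J b) := by
          rw [map_mul, commutatorElement_def]; group
        rw [e, ← Subgroup.mem_center_iff.mp h1 (J a), ← mul_assoc a]
        exact mul_mem (mul_mem ha h1) hb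
      inv_mem' := fun {a} (ha : a * J a ∈ Z) => by
        show a⁻¹ * J a⁻¹ ∈ Z
        have e : a⁻¹ * J a⁻¹ = a⁻¹ * ((a * J a)⁻¹ * a) := by rw [map_inv]; group
        rw [e, ← Subgroup.mem_center_iff.mp (inv_mem ha) a, inv_mul_cancel_left]
        exact inv_mem ha }
  have hA : ∀ a : S, a * J a ∈ Z := by
    have : Subgroup.closure (Set.range fun y => y⁻¹ * J y) ≤ A := (Subgroup.closure_le _).mpr (by
      rintro _ ⟨y, rfl⟩
      show y⁻¹ * J y * J (y⁻¹ * J y) ∈ Z
      rw [map_mul, map_inv, hJ2, show y⁻¹ * J y * ((J y)⁻¹ * y) = 1 by group]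
      exact one_mem Z)
    exact fun a => this (hgen.ge (Subgroup.mem_top a))
  have hodd : Odd (Nat.card S) := by
    obtain ⟨k, hk⟩ := IsPGroup.iff_card.mp hS
    rw [hk]; exact (hs.odd_of_ne_two hs2).pow
  have hsqc : ∀ a : S, a * a ∈ Z → a ∈ Z := by
    intro a ha
    obtain ⟨l, hl⟩ := hodd
    have : a = (a * a) ^ (l + 1) := by
      rw [← pow_two, ← pow_mul, show 2 * (l + 1) = Nat.card S + 1 by omega, pow_succ, pow_card_eq_one', one_mul]
    rw [this]
    exact pow_mem ha _
  have hZβ : ∀ z ∈ Z, β z ∈ Z := by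
    intro y hy
    refine Subgroup.mem_center_iff.mpr fun g => ?_
    obtain ⟨g', rfl⟩ := β.surjective g
    rw [← map_mul, ← map_mul, Subgroup.mem_center_iff.mp hy g']
  have hσ : ∀ i, 0 < i → i < 2 ^ t → ∀ x, x⁻¹ * (β ^ i) x ∈ Z → x ∈ Z := by
    intro i hi0 hi x hx
    have hi' : ¬ 2 ^ (t - 1 + 1) ∣ i := by
      rw [Nat.sub_add_cancel (by omega)]
      exact fun hd => absurd (Nat.le_of_dvd hi0 hd) (by omega)
    obtain ⟨c, hc⟩ := exists_pow_eq_pow Nat.prime_two (g := β) (by rw [Nat.sub_add_cancel (by omega), hβ]) hi'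
    have hk : ∀ k, x⁻¹ * ((β ^ i) ^ k) x ∈ Z := by
      intro k
      induction k with
      | zero => simp
      | succ k ih =>
        rw [pow_succ', MulAut.mul_apply, show x⁻¹ * (β ^ i) (((β ^ i) ^ k) x) =
          (x⁻¹ * (β ^ i) x) * (β ^ i) (x⁻¹ * ((β ^ i) ^ k) x) by rw [map_mul, map_inv]; group]
        exact mul_mem hx (pow_apply_mem β hZβ i ih)
    have h1 := hk c
    rw [← hc, ← hJ] at h1
    refine hsqc x ?_
    have h3 : J (x⁻¹ * J x) = x⁻¹ * J x := hZfix _ h1
    rw [map_mul, map_inv, hJ2] at h3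
    have h4 : (x⁻¹ * J x) * (x⁻¹ * J x) = 1 := by
      nth_rw 1 [← h3]; group
    rw [show x * x = (x * J x) * (x⁻¹ * J x)⁻¹ by group]
    exact mul_mem (hA x) (inv_mem h1)
  have hscal : ∀ z ∈ Z, ∃ c : K, ρ z = c • 1 := fun z hz =>
    hirr _ fun g => show ρ z * ρ g = ρ g * ρ z by rw [← map_mul, ← map_mul, Subgroup.mem_center_iff.mp hz g]
  have hsep : ∀ w ∉ Z, ∃ a, ρ (a * w * a⁻¹ * w⁻¹) ≠ 1 := by
    intro w hw
    by_contra h
    push Not at h
    refine hw (Subgroup.mem_center_iff.mpr fun g => commutatorElement_eq_one_iff_mul_comm.mp ?_)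
    exact hinj ((h g).trans (map_one ρ).symm)
  obtain ⟨hd2, hC⟩ := centralizer_le_semiregular ρ Z β T (r := 2 ^ t) (by omega) hSK hT hTβ hβ
    (Subgroup.eq_of_le_of_card_ge (by rintro _ ⟨y, hy, rfl⟩; exact hZβ y hy)
      (by rw [Subgroup.card_map_of_injective β.injective]))
    hscal hcl (fun x y g => Subgroup.mem_center_iff.mp (hcl x y) g) hsep hσ hirr hne
  set d := finrank K W with hd
  have hd1 : d ≠ 1 := fun h => hne (Subgroup.index_eq_one.mp (by rw [← hd2, h, one_pow]))
  obtain ⟨k, -, hk⟩ : ∃ k, True ∧ d ^ 2 = s ^ k := by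
    obtain ⟨m, hm⟩ := IsPGroup.iff_card.mp hS
    obtain ⟨k, -, hk⟩ := (Nat.dvd_prime_pow hs).mp (hm ▸ Subgroup.index_dvd_card Z)
    exact ⟨k, trivial, hd2.trans hk⟩
  have hdodd : Odd d := by
    have h : Odd (d ^ 2) := hk ▸ (hs.odd_of_ne_two hs2).pow
    exact (Nat.odd_pow_iff two_ne_zero).mp h
  have hsd : s ∣ d := by
    refine hs.dvd_of_dvd_pow (n := 2) ?_
    rw [hk]
    refine dvd_pow_self s fun h0 => hd1 ?_
    rw [h0, pow_zero] at hk
    exact (Nat.pow_eq_one.mp hk).resolve_right two_ne_zero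
  have hd3 : 3 ≤ d := by
    have h0 : 0 < d := Module.finrank_pos
    obtain ⟨l, hl⟩ := hdodd
    omega
  have hNK : ((2 ^ t : ℕ) : K) ≠ 0 := by rw [Nat.cast_pow]; exact pow_ne_zero _ (by exact_mod_cast h2)
  have hC1 := finrank_le_centEnd hNK hT
  have hker : d ≤ finrank K (LinearMap.ker (T - 1)) + 2 := by
    have h1 := LinearMap.finrank_range_add_finrank_ker (T - 1)
    have h2 : finrank K (LinearMap.range (T - 1)) ≤ finrank K P :=
      Submodule.finrank_mono (by rintro _ ⟨v, rfl⟩; exact hTP v)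
    omega
  have hC2 := sq_fixed_le_centEnd hNK hT
  by_cases h5 : 5 ≤ d
  · have h6 : (d - 2) ^ 2 ≤ finrank K (centEnd T) :=
      (Nat.pow_le_pow_left (by omega) 2).trans hC2
    obtain ⟨e, he⟩ : ∃ e, d = e + 5 := ⟨d - 5, by omega⟩
    rw [he, show e + 5 - 2 = e + 3 by omega] at h6
    rw [he] at hC
    have h7 := Nat.mul_le_mul h6 (le_refl (2 ^ t))
    obtain ⟨N, hN⟩ : ∃ N, 2 ^ t = N + 4 := ⟨2 ^ t - 4, by omega⟩
    rw [hN] at hC h7
    have h8 : N + 4 - 1 = N + 3 := by omega
    rw [h8] at hC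
    nlinarith
  · have hd3' : d = 3 := by obtain ⟨l, hl⟩ := hdodd; omega
    have hs3 : s = 3 := (Nat.prime_dvd_prime_iff_eq hs Nat.prime_three).mp (hd3' ▸ hsd)
    refine ht3 ?_ hs3
    by_contra ht2
    have h8 : 8 ≤ 2 ^ t := le_trans (by norm_num) (Nat.pow_le_pow_right (by norm_num : 0 < 2) (show 3 ≤ t by omega))
    have h7 := Nat.mul_le_mul hC1 (le_refl (2 ^ t))
    simp only [← hd] at h7
    rw [hd3'] at hC h7
    omega

/-- The involution centralises the image. -/
theorem bireflect [Fact s.Prime] (hs2 : s ≠ 2) (h2 : (2 : K) ≠ 0) (hsK : (s : K) ≠ 0) (ht : 2 ≤ t)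
    (ht3 : t = 2 → s ≠ 3) : ∀ (m : ℕ) (S : Type u) [Group S] [Finite S] (W : Type w) [AddCommGroup W] [Module K W]
      [FiniteDimensional K W], Nat.card S = m → IsPGroup s S → ∀ (ρ : S →* Module.End K W) (β : MulAut S),
      β ^ 2 ^ t = 1 → ∀ T : Module.End K W, T ^ 2 ^ t = 1 → (∀ x, T * ρ x = ρ (β x) * T) →
      ∀ P : Submodule K W, finrank K P ≤ 2 → (∀ v, T v - v ∈ P) → ∀ x, ρ ((β ^ 2 ^ (t - 1)) x) = ρ x := by
  intro m
  induction m using Nat.strong_induction_on with
  | _ m ih =>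
  intro S _ _ W _ _ _ hm hS ρ β hβ T hT hTβ P hP hTP x
  classical
  have hs : s.Prime := Fact.out
  set J := β ^ 2 ^ (t - 1) with hJ
  have hJ2 : ∀ y, J (J y) = y := fun y => by
    rw [hJ, ← MulAut.mul_apply, ← pow_add, ← two_mul, ← pow_succ', Nat.sub_add_cancel (by omega), hβ, MulAut.one_apply]
  have hSK : (Nat.card S : K) ≠ 0 := by
    obtain ⟨k, hk⟩ := IsPGroup.iff_card.mp hS
    rw [hk, Nat.cast_pow]; exact pow_ne_zero _ hsK
  have hodd : Odd (Nat.card S) := by
    obtain ⟨k, hk⟩ := IsPGroup.iff_card.mp hS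
    rw [hk]; exact (hs.odd_of_ne_two hs2).pow
  have hTu : IsUnit T := IsUnit.of_pow_eq_one hT (pow_pos two_pos t).ne'
  -- a kernel
  by_cases hinj : Function.Injective ρ
  swap
  · have hkerβ : ∀ y ∈ ρ.ker, β y ∈ ρ.ker := fun y hy => by
      rw [MonoidHom.mem_ker] at hy ⊢
      refine hTu.mul_right_cancel ?_
      rw [← hTβ, hy, mul_one, one_mul]
    have hker : ρ.ker.map β.toMonoidHom = ρ.ker := Subgroup.eq_of_le_of_card_ge
      (by rintro _ ⟨y, hy, rfl⟩; exact hkerβ y hy) (by rw [Subgroup.card_map_of_injective β.injective])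
    let γ : MulAut (S ⧸ ρ.ker) := QuotientGroup.congr ρ.ker ρ.ker β hker
    have hγ : ∀ (k : ℕ) (y : S), (γ ^ k) (y : S ⧸ ρ.ker) = (((β ^ k) y : S) : S ⧸ ρ.ker) := by
      intro k y
      induction k with
      | zero => rfl
      | succ k ih => rw [pow_succ', MulAut.mul_apply, ih, pow_succ', MulAut.mul_apply]; rfl
    have hγ1 : γ ^ 2 ^ t = 1 := by
      refine MulEquiv.ext fun u => ?_
      induction u using QuotientGroup.induction_on with
      | H y => rw [hγ, hβ, MulAut.one_apply, MulAut.one_apply]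
    have hlt : Nat.card (S ⧸ ρ.ker) < m := by
      rw [← hm, Subgroup.card_eq_card_quotient_mul_card_subgroup ρ.ker]
      refine lt_mul_of_one_lt_right Nat.card_pos (ρ.ker.one_lt_card_iff_ne_bot.mpr fun h => hinj fun a b hab => ?_)
      have h1 : a⁻¹ * b ∈ ρ.ker := by rw [MonoidHom.mem_ker, map_mul, ← hab, ← map_mul, inv_mul_cancel, map_one]
      rw [h, Subgroup.mem_bot, inv_mul_eq_one] at h1
      exact h1
    have h := ih _ hlt (S ⧸ ρ.ker) W rfl (hS.to_quotient ρ.ker) (QuotientGroup.lift ρ.ker ρ le_rfl) γ hγ1 T hT ?_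
      P hP hTP (x : S ⧸ ρ.ker)
    · rwa [hγ] at h
    · intro u
      induction u using QuotientGroup.induction_on with
      | H y =>
        have h1 := hγ 1 y
        rw [pow_one, pow_one] at h1
        rw [h1]
        exact hTβ y
  -- proper invariant subgroups are fixed
  have hsub : ∀ L : Subgroup S, L ≠ ⊤ → (∀ y ∈ L, β y ∈ L) → ∀ y ∈ L, J y = y := by
    intro L hL hLβ y hy
    let γ : MulAut L := MulEquiv.ofBijective ((β.toMonoidHom.comp L.subtype).codRestrict L fun z => hLβ z z.2)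
      (Finite.injective_iff_bijective.mp fun a b h => Subtype.ext (β.injective (congrArg Subtype.val h)))
    have hγ : ∀ (k : ℕ) (z : L), (((γ ^ k) z : L) : S) = (β ^ k) z := by
      intro k z
      induction k with
      | zero => rfl
      | succ k ih => rw [pow_succ', MulAut.mul_apply, pow_succ', MulAut.mul_apply, ← ih]; rfl
    have hlt : Nat.card L < m := by
      rw [← hm]
      exact lt_of_le_of_ne (Subgroup.card_le_card_group L) fun h => hL (Subgroup.eq_top_of_card_eq L h)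
    have h := ih _ hlt L W rfl (hS.to_subgroup L) (ρ.comp L.subtype) γ (MulEquiv.ext fun z => Subtype.ext (by
      rw [hγ, hβ]; rfl)) T hT (fun z => hTβ z) P hP hTP ⟨y, hy⟩
    refine hinj ?_
    simp only [MonoidHom.comp_apply, Subgroup.coe_subtype] at h
    rw [hγ] at h
    exact h
  set D := Subgroup.closure (Set.range fun y => y⁻¹ * J y) with hD
  have hJβ : ∀ y, J (β y) = β (J y) := fun y => by
    rw [hJ, ← MulAut.mul_apply, ← pow_succ, pow_succ', MulAut.mul_apply]
  have hDβ : ∀ y ∈ D, β y ∈ D := by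
    intro y hy
    have hle : D ≤ D.comap β.toMonoidHom := (Subgroup.closure_le _).mpr (by
      rintro _ ⟨g, rfl⟩
      show β (g⁻¹ * J g) ∈ D
      rw [map_mul, map_inv, ← hJβ]
      exact Subgroup.subset_closure ⟨_, rfl⟩)
    exact hle hy
  by_cases hgen : D = ⊤
  swap
  · have h : J (x⁻¹ * J x) = x⁻¹ * J x := hsub D hgen hDβ _ (Subgroup.subset_closure ⟨x, rfl⟩)
    rw [map_mul, map_inv, hJ2] at h
    have h2 : (x⁻¹ * J x) ^ 2 = 1 := by rw [pow_two]; nth_rw 1 [← h]; group
    obtain ⟨l, hl⟩ := hodd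
    have h3 : x⁻¹ * J x = 1 := by
      have := pow_card_eq_one' (x := x⁻¹ * J x)
      rwa [hl, pow_succ, pow_mul, h2, one_pow, one_mul] at this
    rw [inv_mul_eq_one] at h3
    rw [← h3]
  -- the commutators are central
  by_cases hc : ∀ a b, Commute (ρ a) (ρ b)
  · exact bireflect_comm hSK ρ β ht hβ T hT hTβ P hP hTP hc x
  exfalso
  haveI : Group.IsNilpotent S := hS.isNilpotent
  haveI : Nontrivial S := by
    by_contra h
    rw [not_nontrivial_iff_subsingleton] at h
    exact hc fun a b => by rw [Subsingleton.elim a b]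
  have hcomne : commutator S ≠ ⊤ := (Group.IsSolvable.commutator_lt_top_of_nontrivial S).ne
  have hcomfix : ∀ z ∈ commutator S, J z = z :=
    hsub _ hcomne fun y hy => (Subgroup.characteristic_iff_le_comap.mp (inferInstance : (commutator S).Characteristic) β) hy
  have hcl : ∀ a b : S, ⁅a, b⁆ ∈ Subgroup.center S := by
    intro a b
    refine Subgroup.mem_center_iff.mpr fun g => ?_
    have hle : D ≤ Subgroup.centralizer {⁅a, b⁆} := (Subgroup.closure_le _).mpr (by
      rintro _ ⟨y, rfl⟩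
      refine Subgroup.mem_centralizer_singleton_iff.mpr ?_
      have hmem : y * ⁅a, b⁆ * y⁻¹ ∈ commutator S :=
        (inferInstance : (commutator S).Normal).conj_mem _ (Subgroup.commutator_mem_commutator trivial trivial) y
      have h1 := hcomfix _ hmem
      rw [map_mul, map_mul, map_inv, hcomfix _ (Subgroup.commutator_mem_commutator trivial trivial)] at h1
      calc y⁻¹ * J y * ⁅a, b⁆ = y⁻¹ * (J y * ⁅a, b⁆ * (J y)⁻¹) * J y := by group
        _ = ⁅a, b⁆ * (y⁻¹ * J y) := by rw [h1]; group)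
    exact Subgroup.mem_centralizer_singleton_iff.mp (hle (hgen.ge (Subgroup.mem_top g)))
  set Z := Subgroup.center S with hZdef
  have hZne : Z ≠ ⊤ := fun h => hc fun a b => show ρ a * ρ b = ρ b * ρ a by
    rw [← map_mul, ← map_mul, Subgroup.mem_center_iff.mp (h.ge (Subgroup.mem_top b)) a]
  have hZfix : ∀ z ∈ Z, J z = z :=
    hsub Z hZne fun y hy => (Subgroup.characteristic_iff_le_comap.mp (inferInstance : Z.Characteristic) β) hy
  -- a commutator acting nontrivially
  obtain ⟨a, b, hab⟩ : ∃ a b, ρ ⁅a, b⁆ ≠ 1 := by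
    by_contra h
    push Not at h
    refine hc fun a b => show ρ a * ρ b = ρ b * ρ a from ?_
    rw [← map_mul, ← map_mul, commutatorElement_eq_one_iff_mul_comm.mp (hinj ((h a b).trans (map_one ρ).symm))]
  obtain ⟨v, hv⟩ : ∃ v, ρ ⁅a, b⁆ v ≠ v := by
    by_contra h
    push Not at h
    exact hab (LinearMap.ext h)
  obtain ⟨χ, w, -, hw0, hw, hχ⟩ := exists_weight ρ Z ⊤ (fun _ _ _ _ => trivial)
    (fun a ha b _ u _ => by
      rw [← Module.End.mul_apply, ← Module.End.mul_apply, ← map_mul, ← map_mul, Subgroup.mem_center_iff.mp ha b])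
    (hcl a b) pow_card_eq_one' hSK ⟨v, trivial, hv⟩
  set U := wt ρ Z χ with hU
  have hUS : ∀ g, ∀ u ∈ U, ρ g u ∈ U := by
    intro g u hu
    refine mem_wt.mpr fun z hz => ?_
    rw [← Module.End.mul_apply, ← map_mul, ← Subgroup.mem_center_iff.mp hz g, map_mul, Module.End.mul_apply,
      mem_wt.mp hu z hz, map_smul]
  -- an irreducible subspace of `U`
  obtain ⟨Y, hYU, hY0, hYS, hYmin⟩ : ∃ Y : Submodule K W, Y ≤ U ∧ Y ≠ ⊥ ∧ (∀ g, ∀ u ∈ Y, ρ g u ∈ Y) ∧
      ∀ V : Submodule K W, V ≤ Y → V ≠ ⊥ → (∀ g, ∀ u ∈ V, ρ g u ∈ V) → V = Y := by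
    have hex : ∃ d, ∃ V : Submodule K W, finrank K V = d ∧ V ≤ U ∧ V ≠ ⊥ ∧ ∀ g, ∀ u ∈ V, ρ g u ∈ V :=
      ⟨_, U, rfl, le_rfl, (Submodule.ne_bot_iff _).mpr ⟨w, hw, hw0⟩, hUS⟩
    obtain ⟨V, hV, h1, h2, h3⟩ := Nat.find_spec hex
    exact ⟨V, h1, h2, h3, fun V' h5 h6 h7 => Submodule.eq_of_le_of_finrank_le h5
      (hV ▸ Nat.find_min' hex ⟨V', rfl, h5.trans h1, h6, h7⟩)⟩
  obtain ⟨ρY, hρY⟩ := restrictHom_exists ρ Y hYS
  haveI : Nontrivial Y := Submodule.nontrivial_iff_ne_bot.mpr hY0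
  have hρYab : ρY ⁅a, b⁆ = χ ⁅a, b⁆ • 1 := LinearMap.ext fun u => Subtype.ext (by
    rw [hρY, mem_wt.mp (hYU u.2) _ (hcl a b)]; rfl)
  have hdim : 3 ≤ finrank K Y := by
    have h1 : LinearMap.det (ρY ⁅a, b⁆) = 1 := by
      have hu : IsUnit (LinearMap.det (ρY a)) :=
        ((Group.isUnit a).map ρY).map LinearMap.det
      have hu' : IsUnit (LinearMap.det (ρY b)) := ((Group.isUnit b).map ρY).map LinearMap.det
      refine (hu'.mul hu).mul_right_cancel ?_
      rw [one_mul, ← map_mul, ← map_mul, ← map_mul, ← map_mul,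
        show ⁅a, b⁆ * (b * a) = a * b by rw [commutatorElement_def]; group, map_mul, map_mul, map_mul, map_mul, mul_comm]
    rw [hρYab, LinearMap.det_smul, map_one, mul_one] at h1
    have h2 : χ ⁅a, b⁆ ^ Nat.card S = 1 := by
      rw [← char_pow hw hw0 (hcl a b), pow_card_eq_one', char_one hw hw0]
    obtain ⟨k, hk⟩ := IsPGroup.iff_card.mp hS
    have h3 : orderOf (χ ⁅a, b⁆) ∣ s ^ k := hk ▸ orderOf_dvd_of_pow_eq_one h2
    obtain ⟨i, -, hi⟩ := (Nat.dvd_prime_pow hs).mp h3
    have hi0 : i ≠ 0 := fun h => hχ (orderOf_eq_one_iff.mp (by rw [hi, h, pow_zero]))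
    have h5 : s ∣ finrank K Y := by
      refine dvd_trans ?_ (orderOf_dvd_of_pow_eq_one h1)
      rw [hi]; exact dvd_pow_self s hi0
    have := hs.two_le
    have h0 : 0 < finrank K Y := Module.finrank_pos
    exact le_trans (by omega) (Nat.le_of_dvd h0 h5)
  -- it is invariant under the operator
  have hTY : ∀ u ∈ Y, T u ∈ Y := by
    set TY := Y.map T with hTYdef
    have hTYS : ∀ g, ∀ u ∈ TY, ρ g u ∈ TY := by
      rintro g _ ⟨u, hu, rfl⟩
      obtain ⟨g', rfl⟩ := β.surjective g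
      exact ⟨ρ g' u, hYS g' u hu, LinearMap.congr_fun (hTβ g') u⟩
    have hne : Y ⊓ LinearMap.ker (T - 1) ≠ ⊥ := by
      intro h
      have h1 := Submodule.finrank_sup_add_finrank_inf_eq Y (LinearMap.ker (T - 1))
      rw [h, finrank_bot, add_zero] at h1
      have h2 := Submodule.finrank_le (Y ⊔ LinearMap.ker (T - 1))
      have h3 := LinearMap.finrank_range_add_finrank_ker (T - 1)
      have h4 : finrank K (LinearMap.range (T - 1)) ≤ finrank K P :=
        Submodule.finrank_mono (by rintro _ ⟨u, rfl⟩; exact hTP u)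
      omega
    have hint : Y ⊓ TY ≠ ⊥ := by
      obtain ⟨u, hu, hu0⟩ := Submodule.exists_mem_ne_zero_of_ne_bot hne
      refine (Submodule.ne_bot_iff _).mpr ⟨u, ⟨hu.1, u, hu.1, ?_⟩, hu0⟩
      exact sub_eq_zero.mp (LinearMap.mem_ker.mp hu.2)
    have h1 : Y ⊓ TY = Y := hYmin _ inf_le_left hint fun g u hu => ⟨hYS g u hu.1, hTYS g u hu.2⟩
    have h2 : TY = Y := (Submodule.eq_of_le_of_finrank_le (inf_eq_left.mp h1) (Submodule.finrank_map_le T Y)).symm
    exact fun u hu => h2.le ⟨u, hu, rfl⟩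
  let TY' : Module.End K Y := T.restrict hTY
  have hTY' : TY' ^ 2 ^ t = 1 := LinearMap.ext fun u => Subtype.ext (by
    rw [show TY' ^ 2 ^ t = _ from Module.End.pow_restrict (2 ^ t) hTY]
    exact LinearMap.congr_fun hT (u : W))
  have hTYβ : ∀ y, TY' * ρY y = ρY (β y) * TY' := fun y => LinearMap.ext fun u => Subtype.ext (by
    show T (ρY y u : W) = (ρY (β y) (TY' u) : W)
    rw [hρY, hρY]
    exact LinearMap.congr_fun (hTβ y) (u : W))
  let PY : Submodule K Y := P.comap Y.subtype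
  have hPY : finrank K PY ≤ 2 := by
    refine le_trans ?_ hP
    rw [← Submodule.finrank_map_subtype_eq Y PY]
    exact Submodule.finrank_mono (Submodule.map_comap_le _ _)
  have hTPY : ∀ u, TY' u - u ∈ PY := fun u => hTP (u : W)
  by_cases hYinj : Function.Injective ρY
  · refine bireflect_irreducible (t := t) hs2 h2 hsK hS ρY hYinj β ht ht3 hβ TY' hTY' hTYβ PY hPY hTPY ?_ hcl hgen hZfix hZne
    intro f hf
    obtain ⟨c, hc⟩ := Module.End.exists_eigenvalue f
    refine ⟨c, LinearMap.ext fun u => ?_⟩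
    have htop : (f.eigenspace c).map Y.subtype = Y := by
      refine hYmin _ (Submodule.map_subtype_le _ _) ?_ ?_
      · rw [← Submodule.map_bot Y.subtype]
        exact (Submodule.map_injective_of_injective Y.injective_subtype).ne hc
      · rintro g _ ⟨e, he, rfl⟩
        refine ⟨ρY g e, ?_, hρY g e⟩
        rw [SetLike.mem_coe, Module.End.mem_eigenspace_iff] at he ⊢
        rw [← Module.End.mul_apply, (hf g).eq, Module.End.mul_apply, he, map_smul]
    obtain ⟨e, he, he'⟩ := htop.ge u.2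
    rw [← Subtype.ext he']
    exact Module.End.mem_eigenspace_iff.mp he
  · -- the kernel contains the generators
    have hlt : ∀ y, ρY (J y) = ρY y := by
      have hkerβ : ∀ y ∈ ρY.ker, β y ∈ ρY.ker := fun y hy => by
        rw [MonoidHom.mem_ker] at hy ⊢
        refine (IsUnit.of_pow_eq_one hTY' (pow_pos two_pos t).ne').mul_right_cancel ?_
        rw [← hTYβ, hy, mul_one, one_mul]
      have hker : ρY.ker.map β.toMonoidHom = ρY.ker := Subgroup.eq_of_le_of_card_ge
        (by rintro _ ⟨y, hy, rfl⟩; exact hkerβ y hy) (by rw [Subgroup.card_map_of_injective β.injective])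
      let γ : MulAut (S ⧸ ρY.ker) := QuotientGroup.congr ρY.ker ρY.ker β hker
      have hγ : ∀ (k : ℕ) (y : S), (γ ^ k) (y : S ⧸ ρY.ker) = (((β ^ k) y : S) : S ⧸ ρY.ker) := by
        intro k y
        induction k with
        | zero => rfl
        | succ k ih => rw [pow_succ', MulAut.mul_apply, ih, pow_succ', MulAut.mul_apply]; rfl
      have hγ1 : γ ^ 2 ^ t = 1 := by
        refine MulEquiv.ext fun u => ?_
        induction u using QuotientGroup.induction_on with
        | H y => rw [hγ, hβ, MulAut.one_apply, MulAut.one_apply]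
      have hlt : Nat.card (S ⧸ ρY.ker) < m := by
        rw [← hm, Subgroup.card_eq_card_quotient_mul_card_subgroup ρY.ker]
        refine lt_mul_of_one_lt_right Nat.card_pos (ρY.ker.one_lt_card_iff_ne_bot.mpr fun h => hYinj fun a b hab => ?_)
        have h1 : a⁻¹ * b ∈ ρY.ker := by rw [MonoidHom.mem_ker, map_mul, ← hab, ← map_mul, inv_mul_cancel, map_one]
        rw [h, Subgroup.mem_bot, inv_mul_eq_one] at h1
        exact h1
      intro y
      have h := ih _ hlt (S ⧸ ρY.ker) Y rfl (hS.to_quotient ρY.ker) (QuotientGroup.lift ρY.ker ρY le_rfl) γ hγ1 TY'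
        hTY' ?_ PY hPY hTPY (y : S ⧸ ρY.ker)
      · rwa [hγ] at h
      · intro u
        induction u using QuotientGroup.induction_on with
        | H y =>
          have h1 := hγ 1 y
          rw [pow_one, pow_one] at h1
          rw [h1]
          exact hTYβ y
    have htop : ρY.ker = ⊤ := by
      refine eq_top_iff.mpr (hgen.ge.trans ((Subgroup.closure_le _).mpr ?_))
      rintro _ ⟨y, rfl⟩
      rw [SetLike.mem_coe, MonoidHom.mem_ker, map_mul, hlt, ← map_mul, inv_mul_cancel, map_one]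
    have h1 : ρY ⁅a, b⁆ = 1 := MonoidHom.mem_ker.mp (htop.ge (Subgroup.mem_top _))
    rw [hρYab] at h1
    obtain ⟨u, hu⟩ := exists_ne (0 : Y)
    exact hχ (smul_left_injective K hu ((LinearMap.congr_fun h1 u).trans (one_smul K u).symm))

end Cfsg.Agent.FPFPower
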