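/-
A fixed-point-free automorphism of order dividing `p^(n+1)`, `p` odd, of a `q`-group, compatible with an
operator without fixed points on a faithful module: the element of order `p` is trivial.
-/
import Mathlib
import Cfsg.Agent.FPFPower.Spectral

set_option autoImplicit false
set_option maxHeartbeats 1000000

namespace Cfsg.Agent.FPFPower

open Module Finset
open scoped commutatorElement

variable {K : Type*} [Field K] {W : Type*} [AddCommGroup W] [Module K W] {Q : Type*} [Group Q]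

theorem commutator_mul_of_central {a b c : Q} (h : ⁅b, c⁆ ∈ Subgroup.center Q) : ⁅a * b, c⁆ = ⁅a, c⁆ * ⁅b, c⁆ := by
  have h' := Subgroup.mem_center_iff.mp h
  calc ⁅a * b, c⁆ = a * ⁅b, c⁆ * (c * a⁻¹ * c⁻¹) := by simp only [commutatorElement_def]; group
    _ = a * (⁅b, c⁆ * (c * a⁻¹ * c⁻¹)) := mul_assoc _ _ _
    _ = a * ((c * a⁻¹ * c⁻¹) * ⁅b, c⁆) := by rw [h' (c * a⁻¹ * c⁻¹)]
    _ = ⁅a, c⁆ * ⁅b, c⁆ := by simp only [commutatorElement_def]; group

theorem fixed_eq_of_minimal [IsAlgClosed K] [FiniteDimensional K W] [Finite Q] {p q n : ℕ} [Fact p.Prime]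
    [Fact q.Prime] (hp2 : p ≠ 2) (hpq : p ≠ q) (hqK : (q : K) ≠ 0) (hpK : (p : K) ≠ 0) (hQ : IsPGroup q Q)
    (ρ : Q →* Module.End K W) (hinj : Function.Injective ρ) (α : MulAut Q) (hα : α ^ p ^ (n + 1) = 1)
    (hαfpf : ∀ a, α a = a → a = 1) (T : Module.End K W) (hT : T ^ p ^ (n + 1) = 1)
    (hTα : ∀ x, T * ρ x = ρ (α x) * T) (hfpf : ∀ v, T v = v → v = 0)
    (hsub : ∀ H : Subgroup Q, H ≠ ⊤ → (∀ y ∈ H, α y ∈ H) → ∀ y ∈ H, (α ^ p ^ n) y = y) :
    ∀ x, (α ^ p ^ n) x = x := by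
  classical
  letI := Fintype.ofFinite Q
  have hp : p.Prime := Fact.out
  have hq : q.Prime := Fact.out
  intro x
  by_contra hx
  have hcop : ∀ H : Subgroup Q, ¬ p ∣ Nat.card H := by
    intro H hd
    obtain ⟨k, hk⟩ := IsPGroup.iff_card.mp (hQ.to_subgroup H)
    rw [hk] at hd
    exact hpq ((Nat.prime_dvd_prime_iff_eq hp hq).mp (hp.dvd_of_dvd_pow hd))
  have hQK : (Nat.card Q : K) ≠ 0 := by
    obtain ⟨k, hk⟩ := IsPGroup.iff_card.mp hQ
    rw [hk, Nat.cast_pow]
    exact pow_ne_zero _ hqK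
  set α0 := α ^ p ^ n with hα0
  have hα0p : α0 ^ p ^ 1 = 1 := by rw [pow_one, hα0, ← pow_mul, ← pow_succ, hα]
  have hcomm : ∀ y, α0 (α y) = α (α0 y) := fun y => by
    rw [hα0, ← MulAut.mul_apply, ← pow_succ, pow_succ', MulAut.mul_apply]
  -- `Q = [Q, α0]`
  set M := Subgroup.closure (Set.range fun y => y⁻¹ * α0 y) with hMdef
  have hMtop : M = ⊤ := by
    by_contra hM
    have hMα : ∀ y ∈ M, α y ∈ M := by
      intro y hy
      have : M.map α.toMonoidHom ≤ M := by
        rw [hMdef, MonoidHom.map_closure, Subgroup.closure_le]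
        rintro _ ⟨_, ⟨z, rfl⟩, rfl⟩
        refine Subgroup.subset_closure ⟨α z, ?_⟩
        show (α z)⁻¹ * α0 (α z) = α (z⁻¹ * α0 z)
        rw [map_mul, map_inv, hcomm]
      exact this ⟨y, hy, rfl⟩
    set c := x⁻¹ * α0 x
    have hc : α0 c = c := hsub M hM hMα _ (Subgroup.subset_closure ⟨x, rfl⟩)
    have hi : ∀ i : ℕ, (α0 ^ i) x = x * c ^ i := by
      intro i
      induction i with
      | zero => simp
      | succ i ih =>
        rw [pow_succ', MulAut.mul_apply, ih, map_mul, map_pow, hc, pow_succ', ← mul_assoc]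
        congr 1
        simp only [c]; group
    have hcp := hi p
    rw [← pow_one p, hα0p, pow_one, MulAut.one_apply, eq_comm, mul_eq_left] at hcp
    obtain ⟨k, hk⟩ := hQ c
    have hd : orderOf c ∣ Nat.gcd p (q ^ k) :=
      Nat.dvd_gcd (orderOf_dvd_of_pow_eq_one hcp) (orderOf_dvd_of_pow_eq_one hk)
    rw [Nat.Coprime.pow_right k ((Nat.coprime_primes hp hq).mpr hpq), Nat.dvd_one, orderOf_eq_one_iff] at hd
    exact hx (inv_mul_eq_one.mp hd).symm
  have hcentral : ∀ H : Subgroup Q, H.Normal → (∀ y ∈ H, α0 y = y) → H ≤ Subgroup.center Q := by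
    intro H hH hfix y hy
    have hle : M ≤ Subgroup.centralizer {y} := by
      rw [hMdef, Subgroup.closure_le]
      rintro _ ⟨z, rfl⟩
      refine Subgroup.mem_centralizer_singleton_iff.mpr ?_
      have h1 := hfix _ (hH.conj_mem y hy z)
      rw [map_mul, map_mul, map_inv, hfix y hy] at h1
      show z⁻¹ * α0 z * y = y * (z⁻¹ * α0 z)
      calc z⁻¹ * α0 z * y = z⁻¹ * (α0 z * y * (α0 z)⁻¹) * α0 z := by group
        _ = y * (z⁻¹ * α0 z) := by rw [h1]; group
    rw [hMtop] at hle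
    exact Subgroup.mem_center_iff.mpr fun g =>
      (Subgroup.mem_centralizer_singleton_iff.mp (hle (Subgroup.mem_top g)))
  have hcenα : ∀ y ∈ Subgroup.center Q, α y ∈ Subgroup.center Q := by
    intro y hy
    refine Subgroup.mem_center_iff.mpr fun g => ?_
    obtain ⟨g', rfl⟩ := α.surjective g
    rw [← map_mul, ← map_mul, Subgroup.mem_center_iff.mp hy g']
  set Z := Subgroup.center Q with hZdef
  have hUtop : ∀ z ∈ Z, ∀ u ∈ (⊤ : Submodule K W), ρ z u ∈ (⊤ : Submodule K W) := fun _ _ _ _ => trivial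
  have hZc : ∀ a ∈ Z, ∀ b ∈ Z, ∀ u ∈ (⊤ : Submodule K W), ρ a (ρ b u) = ρ b (ρ a u) := fun a _ b hb u _ => by
    rw [← Module.End.mul_apply, ← map_mul, Subgroup.mem_center_iff.mp hb a, map_mul, Module.End.mul_apply]
  by_cases hab : Z = ⊤
  · -- the abelian case
    have hz₀ : x⁻¹ * α0 x ≠ 1 := fun h => hx (inv_mul_eq_one.mp h).symm
    obtain ⟨u, hu⟩ : ∃ u, ρ (x⁻¹ * α0 x) u ≠ u := by
      by_contra h
      push Not at h
      exact hz₀ (hinj (LinearMap.ext fun u => by rw [h, map_one, Module.End.one_apply]))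
    obtain ⟨χ, w, -, hw0, hw, hχ⟩ := exists_weight ρ Z ⊤ hUtop hZc (hab ▸ Subgroup.mem_top _)
      (pow_card_eq_one' (x := x⁻¹ * α0 x)) hQK ⟨u, trivial, hu⟩
    obtain ⟨j, hj, hPj, hdist⟩ := exists_period hp α hα Z hcenα χ
    rcases Nat.lt_or_ge n j with hlt | hle
    · have hjn : j = n + 1 := by omega
      refine hw0 (eq_zero_of_orbit ρ α T hTα ⊤ (fun _ _ => trivial) (fun v _ => hfpf v) Z hcenα χ
        (pow_pos hp.pos j) hdist trivial hw ?_)
      rw [hjn, hT, Module.End.one_apply]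
    · apply hχ
      have h1 : ∀ k : ℕ, ∀ z ∈ Z, χ (((α ^ p ^ j) ^ k) z) = χ z := by
        intro k
        induction k with
        | zero => simp
        | succ k ih => intro z hz; rw [pow_succ, MulAut.mul_apply, ih _ (pow_apply_mem α hcenα _ hz), hPj z hz]
      have h2 : χ (α0 x) = χ x := by
        have := h1 (p ^ (n - j)) x (hab ▸ Subgroup.mem_top _)
        rwa [← pow_mul, ← pow_add, show j + (n - j) = n by omega] at this
      rw [char_mul hw hw0 (hab ▸ Subgroup.mem_top _) (hab ▸ Subgroup.mem_top _), h2,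
        ← char_mul hw hw0 (hab ▸ Subgroup.mem_top _) (hab ▸ Subgroup.mem_top _), inv_mul_cancel, char_one hw hw0]
  -- the non-abelian case
  haveI : Nontrivial Q := ⟨⟨α0 x, x, hx⟩⟩
  haveI : Group.IsNilpotent Q := hQ.isNilpotent
  have hder : ∀ y ∈ commutator Q, α0 y = y := by
    refine hsub _ (ne_of_lt (IsSolvable.commutator_lt_top_of_nontrivial (G := Q))) fun y hy => ?_
    rw [← (inferInstance : (commutator Q).Characteristic).fixed α] at hy
    exact hy
  have hcl : ∀ a b : Q, ⁅a, b⁆ ∈ Z := fun a b => hcentral (commutator Q) inferInstance hder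
    (Subgroup.commutator_mem_commutator (Subgroup.mem_top a) (Subgroup.mem_top b))
  let X : Subgroup Q :=
    { carrier := {y | α0 y = y}
      one_mem' := map_one α0
      mul_mem' := fun {a b} (ha : α0 a = a) (hb : α0 b = b) => show α0 (a * b) = a * b by rw [map_mul, ha, hb]
      inv_mem' := fun {a} (ha : α0 a = a) => show α0 a⁻¹ = a⁻¹ by rw [map_inv, ha] }
  haveI hXn : X.Normal := ⟨fun y hy g => by
    rw [show g * y * g⁻¹ = ⁅g, y⁆ * y by simp only [commutatorElement_def]; group]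
    exact mul_mem (hder _ (Subgroup.commutator_mem_commutator (Subgroup.mem_top g) (Subgroup.mem_top y))) hy⟩
  have hfixZ : ∀ y, α0 y = y → y ∈ Z := fun y hy => hcentral X hXn (fun _ h => h) hy
  have hZfix : ∀ z ∈ Z, α0 z = z := hsub Z hab hcenα
  -- a coset fixed by a nontrivial power of `α` lies in the subgroup
  have hsemi : ∀ H : Subgroup Q, Z ≤ H → ∀ i, ¬ p ^ (n + 1) ∣ i → (∀ y ∈ H, (α ^ i) y ∈ H) →
      ∀ a, a⁻¹ * (α ^ i) a ∈ H → a ∈ H := by
    intro H hZH i hi hH a ha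
    obtain ⟨c, hc⟩ := exists_pow_eq_pow hp hα hi
    rw [← hα0] at hc
    have hk : ∀ k, a⁻¹ * ((α ^ i) ^ k) a ∈ H := by
      intro k
      induction k with
      | zero => simp
      | succ k ih =>
        rw [pow_succ', MulAut.mul_apply, show a⁻¹ * (α ^ i) (((α ^ i) ^ k) a) =
          (a⁻¹ * (α ^ i) a) * (α ^ i) (a⁻¹ * ((α ^ i) ^ k) a) by rw [map_mul, map_inv]; group]
        exact mul_mem ha (hH _ ih)
    obtain ⟨r, hr, hfix⟩ := exists_fixed_in_coset α0 hα0p H
      (fun y hy => by rw [hc]; exact pow_apply_mem _ hH c hy) (hcop H) (a := a) (by rw [hc]; exact hk c)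
    have := mul_mem (hZH (hfixZ _ hfix)) (inv_mem hr)
    rwa [mul_inv_cancel_right] at this
  obtain ⟨a₀, b₀, hab₀⟩ : ∃ a b : Q, ⁅a, b⁆ ≠ 1 := by
    by_contra h
    push Not at h
    exact hab (eq_top_iff.mpr fun a _ => Subgroup.mem_center_iff.mpr fun g => commutatorElement_eq_one_iff_mul_comm.mp (h g a))
  obtain ⟨u, hu⟩ : ∃ u, ρ ⁅a₀, b₀⁆ u ≠ u := by
    by_contra h
    push Not at h
    exact hab₀ (hinj (LinearMap.ext fun u => by rw [h, map_one, Module.End.one_apply]))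
  obtain ⟨χ, w, -, hw0, hw, hχ⟩ := exists_weight ρ Z ⊤ hUtop hZc (hcl a₀ b₀)
    (pow_card_eq_one' (x := ⁅a₀, b₀⁆)) hQK ⟨u, trivial, hu⟩
  set U := wt ρ Z χ with hUdef
  have hUQ : ∀ g, ∀ v ∈ U, ρ g v ∈ U := fun g v hv => mem_wt.mpr fun z hz => by
    rw [← Module.End.mul_apply, ← map_mul, ← Subgroup.mem_center_iff.mp hz g, map_mul, Module.End.mul_apply,
      mem_wt.mp hv z hz, map_smul]
  have hUcomm : ∀ a b : Q, ∀ v ∈ U, ρ a (ρ b v) = χ ⁅a, b⁆ • ρ b (ρ a v) := fun a b v hv => by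
    rw [← mem_wt.mp (hUQ b _ (hUQ a v hv)) _ (hcl a b), ← Module.End.mul_apply, ← Module.End.mul_apply,
      ← Module.End.mul_apply, ← map_mul, ← map_mul, ← map_mul]
    congr 2
    simp only [commutatorElement_def]; group
  obtain ⟨j, hj, hPj, hdist⟩ := exists_period hp α hα Z hcenα χ
  have hjn : j ≤ n := by
    by_contra h
    obtain ⟨z, hz, hne⟩ := hdist (p ^ n) (pow_pos hp.pos n) (Nat.pow_lt_pow_right hp.one_lt (by omega))
    exact hne (by rw [← hα0, hZfix z hz])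
  set α1 := α ^ p ^ j with hα1
  set T1 := T ^ p ^ j with hT1
  have hT1α : ∀ y, T1 * ρ y = ρ (α1 y) * T1 := fun y => Cfsg.Agent.PrimeFPF.pow_intertwine hTα _ y
  have hT1U : ∀ v ∈ U, T1 v ∈ U := fun v hv => mem_wt.mpr fun z hz => by
    have hz' : α1.symm z ∈ Z := symm_mem α1 (fun y hy => pow_apply_mem α hcenα _ hy) hz
    have h1 := LinearMap.congr_fun (hT1α (α1.symm z)) v
    rw [Module.End.mul_apply, Module.End.mul_apply, MulEquiv.apply_symm_apply, mem_wt.mp hv _ hz', map_smul] at h1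
    have h2 : χ (α1.symm z) = χ z := by
      have := hPj (α1.symm z) hz'
      rw [MulEquiv.apply_symm_apply] at this
      exact this.symm
    rw [← h1, h2]
  have hT1fpf : ∀ v ∈ U, T1 v = v → v = 0 := fun v hv hvT => eq_zero_of_orbit ρ α T hTα ⊤ (fun _ _ => trivial)
    (fun v _ => hfpf v) Z hcenα χ (pow_pos hp.pos j) hdist trivial hv hvT
  -- the radical of the commutator form of `χ`
  have hχmul : ∀ {a b : Q}, a ∈ Z → b ∈ Z → χ (a * b) = χ a * χ b := fun ha hb => char_mul hw hw0 ha hb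
  have hχ1 : χ 1 = 1 := char_one hw hw0
  have hbil : ∀ a b c : Q, χ ⁅a * b, c⁆ = χ ⁅a, c⁆ * χ ⁅b, c⁆ := fun a b c => by
    rw [commutator_mul_of_central (hcl b c), hχmul (hcl a c) (hcl b c)]
  have hswap : ∀ a b : Q, χ ⁅a, b⁆ = 1 → χ ⁅b, a⁆ = 1 := fun a b h => by
    have := hχmul (hcl a b) (hcl b a)
    rw [← commutatorElement_inv a b, mul_inv_cancel, hχ1, h, one_mul, commutatorElement_inv] at this
    exact this.symm
  let R : Subgroup Q :=
    { carrier := {a | ∀ b, χ ⁅a, b⁆ = 1}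
      one_mem' := fun b => by rw [commutatorElement_one_left, hχ1]
      mul_mem' := fun {a b} (ha : ∀ c, χ ⁅a, c⁆ = 1) (hb : ∀ c, χ ⁅b, c⁆ = 1) c => by rw [hbil, ha, hb, mul_one]
      inv_mem' := fun {a} (ha : ∀ c, χ ⁅a, c⁆ = 1) c => by
        have := hbil a⁻¹ a c
        rw [inv_mul_cancel, commutatorElement_one_left, hχ1, ha, mul_one] at this
        exact this.symm }
  have hZR : Z ≤ R := fun z hz b => by
    rw [commutatorElement_eq_one_iff_mul_comm.mpr (Subgroup.mem_center_iff.mp hz b).symm, hχ1]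
  haveI : R.Normal := ⟨fun y hy g => by
    rw [show g * y * g⁻¹ = ⁅g, y⁆ * y by simp only [commutatorElement_def]; group]
    exact mul_mem (hZR (hcl g y)) hy⟩
  have hRtop : R ≠ ⊤ := fun h => hχ ((h ▸ Subgroup.mem_top a₀ : a₀ ∈ R) b₀)
  have hRα1 : ∀ y ∈ R, α1 y ∈ R := by
    intro y hy b
    obtain ⟨b', rfl⟩ := α1.surjective b
    rw [show ⁅α1 y, α1 b'⁆ = α1 ⁅y, b'⁆ from (map_commutatorElement α1.toMonoidHom y b').symm]
    exact (hPj _ (hcl y b')).trans (hy b')
  obtain ⟨u', hu'U, hu'⟩ : ∃ v ∈ U, ρ ⁅a₀, b₀⁆ v ≠ v := ⟨w, hw, fun h => hχ (by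
    rw [mem_wt.mp hw _ (hcl a₀ b₀)] at h
    exact smul_left_injective K hw0 (h.trans (one_smul K w).symm))⟩
  obtain ⟨ψ, w2, hw2U, hw20, hw2, -⟩ := exists_weight ρ R U (fun g _ => hUQ g)
    (fun a ha b _ v hv => by rw [hUcomm a b v hv, ha b, one_smul]) (hZR (hcl a₀ b₀))
    (pow_card_eq_one' (x := ⁅a₀, b₀⁆)) hQK ⟨u', hu'U, hu'⟩
  have hα1M : α1 ^ p ^ (n + 1 - j) = 1 := by
    rw [hα1, ← pow_mul, ← pow_add, show j + (n + 1 - j) = n + 1 by omega, hα]
  have hT1M : T1 ^ p ^ (n + 1 - j) = 1 := by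
    rw [hT1, ← pow_mul, ← pow_add, show j + (n + 1 - j) = n + 1 by omega, hT]
  obtain ⟨i, hi, hPi, hdisti⟩ := exists_period hp α1 hα1M R hRα1 ψ
  have hilt : i < n + 1 - j := by
    refine lt_of_le_of_ne hi fun h => hw20 ?_
    exact eq_zero_of_orbit ρ α1 T1 hT1α U hT1U hT1fpf R hRα1 ψ (pow_pos hp.pos i) hdisti hw2U hw2
      (by rw [h, hT1M, Module.End.one_apply])
  set N := p ^ (n + 1 - (j + i)) with hN
  have hN1 : 1 < N := Nat.one_lt_pow (by omega) hp.one_lt
  set α' := α1 ^ p ^ i with hα'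
  set T' := T1 ^ p ^ i with hT'
  have hT'α : ∀ y, T' * ρ y = ρ (α' y) * T' := fun y => Cfsg.Agent.PrimeFPF.pow_intertwine hT1α _ y
  have hα'N : α' ^ N = 1 := by
    rw [hα', ← pow_mul, hN, ← pow_add, show i + (n + 1 - (j + i)) = n + 1 - j by omega, hα1M]
  have hT'N : T' ^ N = 1 := by
    rw [hT', ← pow_mul, hN, ← pow_add, show i + (n + 1 - (j + i)) = n + 1 - j by omega, hT1M]
  have hRα' : ∀ y ∈ R, α' y ∈ R := fun y hy => pow_apply_mem α1 hRα1 _ hy
  set U2 := U ⊓ wt ρ R ψ with hU2def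
  have hU2Q : ∀ g, ∀ v ∈ U2, ρ g v ∈ U2 := fun g v hv => ⟨hUQ g v hv.1, mem_wt.mpr fun a ha => by
    rw [hUcomm a g v hv.1, ha g, one_smul, mem_wt.mp hv.2 a ha, map_smul]⟩
  have hU2T : ∀ v ∈ U2, T' v ∈ U2 := fun v hv => ⟨pow_mem_U hT1U _ hv.1, mem_wt.mpr fun a ha => by
    have ha' : α'.symm a ∈ R := symm_mem α' hRα' ha
    have h1 := LinearMap.congr_fun (hT'α (α'.symm a)) v
    rw [Module.End.mul_apply, Module.End.mul_apply, MulEquiv.apply_symm_apply, mem_wt.mp hv.2 _ ha', map_smul] at h1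
    have h2 : ψ (α'.symm a) = ψ a := by
      have := hPi (α'.symm a) ha'
      rw [MulEquiv.apply_symm_apply] at this
      exact this.symm
    rw [← h1, h2]⟩
  have hT'fpf : ∀ v ∈ U2, T' v = v → v = 0 := fun v hv hvT =>
    eq_zero_of_orbit ρ α1 T1 hT1α U hT1U hT1fpf R hRα1 ψ (pow_pos hp.pos i) hdisti hv.1 hv.2 hvT
  -- a minimal invariant subspace
  obtain ⟨U3, hU3le, hU30, hU3Q, hU3T, hU3min⟩ : ∃ U3 : Submodule K W, U3 ≤ U2 ∧ U3 ≠ ⊥ ∧
      (∀ g, ∀ v ∈ U3, ρ g v ∈ U3) ∧ (∀ v ∈ U3, T' v ∈ U3) ∧ ∀ V : Submodule K W, V ≤ U3 → V ≠ ⊥ →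
        (∀ g, ∀ v ∈ V, ρ g v ∈ V) → (∀ v ∈ V, T' v ∈ V) → V = U3 := by
    have hex : ∃ d, ∃ V : Submodule K W, finrank K V = d ∧ V ≤ U2 ∧ V ≠ ⊥ ∧ (∀ g, ∀ v ∈ V, ρ g v ∈ V) ∧
        ∀ v ∈ V, T' v ∈ V :=
      ⟨_, U2, rfl, le_rfl, (Submodule.ne_bot_iff _).mpr ⟨w2, ⟨hw2U, hw2⟩, hw20⟩, hU2Q, hU2T⟩
    obtain ⟨V, hV, h1, h2, h3, h4⟩ := Nat.find_spec hex
    exact ⟨V, h1, h2, h3, h4, fun V' h5 h6 h7 h8 => Submodule.eq_of_le_of_finrank_le h5
      (hV ▸ Nat.find_le ⟨V', rfl, h5.trans h1, h6, h7, h8⟩)⟩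
  haveI : Nontrivial U3 := Submodule.nontrivial_iff_ne_bot.mpr hU30
  let ρ3 : Q →* Module.End K U3 :=
    { toFun := fun y => (ρ y).restrict (hU3Q y)
      map_one' := LinearMap.ext fun v => Subtype.ext (by simp)
      map_mul' := fun y z => LinearMap.ext fun v => Subtype.ext (by simp) }
  let T3 : Module.End K U3 := T'.restrict hU3T
  have hT3N : T3 ^ N = 1 := LinearMap.ext fun v => Subtype.ext (by
    rw [show T3 ^ N = _ from Module.End.pow_restrict N hU3T]
    exact LinearMap.congr_fun hT'N (v : W))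
  have hT3α : ∀ y, T3 * ρ3 y = ρ3 (α' y) * T3 := fun y => LinearMap.ext fun v =>
    Subtype.ext (LinearMap.congr_fun (hT'α y) (v : W))
  have hT3fpf : ∀ v, T3 v = v → v = 0 := fun v hv =>
    Subtype.ext (hT'fpf v (hU3le v.2) (congrArg Subtype.val hv))
  have hρ3R : ∀ a ∈ R, ρ3 a = ψ a • (1 : Module.End K U3) := fun a ha => LinearMap.ext fun v =>
    Subtype.ext (mem_wt.mp (hU3le v.2).2 a ha)
  have hρ3c : ∀ a b : Q, ρ3 ⁅a, b⁆ = χ ⁅a, b⁆ • (1 : Module.End K U3) := fun a b => LinearMap.ext fun v =>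
    Subtype.ext (mem_wt.mp (hU3le v.2).1 _ (hcl a b))
  have hψmul : ∀ {a b : Q}, a ∈ R → b ∈ R → ψ (a * b) = ψ a * ψ b := fun ha hb => char_mul hw2 hw20 ha hb
  have hconj : ∀ a b : Q, ρ3 a * ρ3 b * ρ3 a⁻¹ = χ ⁅a, b⁆ • ρ3 b := fun a b => by
    calc ρ3 a * ρ3 b * ρ3 a⁻¹ = ρ3 (⁅a, b⁆ * b) := by
          rw [← map_mul, ← map_mul]; congr 1; simp only [commutatorElement_def]; group
      _ = _ := by rw [map_mul, hρ3c, smul_mul_assoc, one_mul]
  -- averaging `T'` gives an element inducing it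
  let S : Module.End K U3 := ∑ a : Q, ρ3 (a * α' a⁻¹)
  let C : Module.End K U3 := ∑ a : Q, ρ3 a * T3 * ρ3 a⁻¹
  have hCS : C = S * T3 := by
    simp only [C, S, Finset.sum_mul]
    refine Finset.sum_congr rfl fun a _ => ?_
    rw [mul_assoc, hT3α, ← mul_assoc, ← map_mul]
  have hCρ : ∀ b, Commute C (ρ3 b) := by
    intro b
    refine (?_ : ρ3 b * C = C * ρ3 b).symm
    simp only [C, Finset.mul_sum, Finset.sum_mul]
    refine Fintype.sum_equiv (Equiv.mulLeft b) _ _ fun a => ?_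
    show _ = ρ3 (b * a) * T3 * ρ3 (b * a)⁻¹ * ρ3 b
    rw [mul_assoc _ (ρ3 (b * a)⁻¹), ← map_mul ρ3 (b * a)⁻¹, mul_inv_rev, inv_mul_cancel_right, map_mul ρ3 b]
    simp only [mul_assoc]
  have hCT : T3 * C = C * T3 := by
    simp only [C, Finset.mul_sum, Finset.sum_mul]
    refine Fintype.sum_equiv α'.toEquiv _ _ fun a => ?_
    show _ = ρ3 (α' a) * T3 * ρ3 (α' a)⁻¹ * T3
    rw [← map_inv, mul_assoc _ (ρ3 (α' a⁻¹)), ← hT3α a⁻¹, ← mul_assoc, ← mul_assoc, hT3α a]
    simp only [mul_assoc]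
  have hT3u : IsUnit T3 := IsUnit.of_pow_eq_one hT3N (by omega)
  have hS0 : S ≠ 0 := by
    intro hS
    have hmem : ∀ a, a * α' a⁻¹ ∈ R ↔ a ∈ R := by
      intro a
      refine ⟨fun h => ?_, fun ha => mul_mem ha (hRα' _ (inv_mem ha))⟩
      refine hsemi R hZR (p ^ (j + i)) (fun hd => ?_) (fun y hy => ?_) a ?_
      · exact absurd ((Nat.pow_dvd_pow_iff_le_right hp.one_lt).mp hd) (by omega)
      · have := hRα' y hy; rwa [hα', hα1, ← pow_mul, ← pow_add] at this
      · have h2 : a⁻¹ * α' a ∈ R := (inferInstance : R.Normal).mem_comm (by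
          have := inv_mem h; rwa [mul_inv_rev, ← map_inv, inv_inv] at this)
        rwa [hα', hα1, ← pow_mul, ← pow_add] at h2
    have hE : ∀ w, (∑ b : Q, ρ3 b * ρ3 w * ρ3 b⁻¹) = if w ∈ R then (Nat.card Q : K) • ρ3 w else 0 := by
      intro w
      simp only [hconj, ← Finset.sum_smul]
      split_ifs with hw
      · congr 1
        rw [Finset.sum_congr rfl fun b _ => hswap _ _ (hw b), Finset.sum_const, Finset.card_univ,
          nsmul_one, Nat.card_eq_fintype_card]
      · obtain ⟨b, hb⟩ : ∃ b, χ ⁅w, b⁆ ≠ 1 := by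
          by_contra h; push Not at h; exact hw h
        rw [Cfsg.Agent.PrimeFPF.sum_hom_eq_zero (fun b => χ ⁅b, w⁆) (fun a b => hbil a b w)
          (a := b) (fun h => hb (hswap _ _ h)), zero_smul]
    have h0 : ∑ b : Q, ρ3 b * S * ρ3 b⁻¹ = 0 := by simp [hS]
    simp only [S, Finset.mul_sum, Finset.sum_mul] at h0
    rw [Finset.sum_comm, Finset.sum_congr rfl fun a _ => hE (a * α' a⁻¹)] at h0
    have hR1 : ∀ a : Q, (if a * α' a⁻¹ ∈ R then (Nat.card Q : K) • ρ3 (a * α' a⁻¹) else 0) =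
        if a ∈ R then (Nat.card Q : K) • (1 : Module.End K U3) else 0 := by
      intro a
      by_cases ha : a ∈ R
      · rw [if_pos ha, if_pos ((hmem a).mpr ha), hρ3R _ ((hmem a).mpr ha)]
        have h1 : ψ (a * α' a⁻¹) = 1 := by
          rw [hψmul ha (hRα' _ (inv_mem ha)), hPi _ (inv_mem ha), ← hψmul ha (inv_mem ha), mul_inv_cancel,
            char_one hw2 hw20]
        rw [h1, one_smul]
      · rw [if_neg ha, if_neg fun h => ha ((hmem a).mp h)]
    rw [Finset.sum_congr rfl fun a _ => hR1 a, ← Finset.sum_filter, Finset.sum_const,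
      ← Nat.cast_smul_eq_nsmul K, smul_smul, smul_eq_zero] at h0
    refine h0.elim (fun h => ?_) (fun h => one_ne_zero h)
    refine mul_ne_zero ?_ hQK h
    rw [show (Finset.univ.filter (· ∈ R)).card = Nat.card R by
      rw [Nat.card_eq_fintype_card, ← Fintype.card_subtype]]
    intro h'
    apply hQK
    obtain ⟨k, hk⟩ := Subgroup.card_subgroup_dvd_card R
    rw [hk, Nat.cast_mul, h', zero_mul]
  obtain ⟨c, hc⟩ := Module.End.exists_eigenvalue C
  have hCc : C = c • 1 := by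
    set E := Module.End.eigenspace C c
    have hEinv : ∀ f : Module.End K U3, Commute C f → ∀ v ∈ E, f v ∈ E := fun f hf v hv => by
      rw [Module.End.mem_eigenspace_iff] at hv ⊢
      rw [← Module.End.mul_apply, hf.eq, Module.End.mul_apply, hv, map_smul]
    have hmap := hU3min (E.map U3.subtype) (Submodule.map_subtype_le U3 E)
      (fun h => hc (Submodule.map_injective_of_injective U3.injective_subtype (h.trans (Submodule.map_bot _).symm)))
      (fun g => by rintro _ ⟨v, hv, rfl⟩; exact ⟨ρ3 g v, hEinv _ (hCρ g) v hv, rfl⟩)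
      (by rintro _ ⟨v, hv, rfl⟩; exact ⟨T3 v, hEinv _ hCT.symm v hv, rfl⟩)
    refine LinearMap.ext fun v => ?_
    have hv : (v : W) ∈ E.map U3.subtype := hmap.symm ▸ v.2
    obtain ⟨v', hv', h⟩ := hv
    rw [← (Subtype.ext h : v' = v), Module.End.mem_eigenspace_iff.mp hv']
    rfl
  have hc0 : c ≠ 0 := by
    rintro rfl
    rw [zero_smul, hCS] at hCc
    exact hS0 (hT3u.mul_left_eq_zero.mp hCc)
  have hirrQ : ∀ V : Submodule K U3, (∀ g, ∀ v ∈ V, ρ3 g v ∈ V) → V = ⊥ ∨ V = ⊤ := by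
    intro V hV
    refine or_iff_not_imp_left.mpr fun hV0 => ?_
    have hSV : ∀ v ∈ V, S v ∈ V := fun v hv => by
      simp only [S, LinearMap.sum_apply]; exact sum_mem fun a _ => hV _ v hv
    have hTS : T3 * S = c • 1 := by
      have h1 : (c⁻¹ • S) * T3 = 1 := by rw [smul_mul_assoc, ← hCS, hCc, smul_smul, inv_mul_cancel₀ hc0, one_smul]
      have h2 := mul_eq_one_comm.mp h1
      rw [mul_smul_comm] at h2
      calc T3 * S = c • (c⁻¹ • (T3 * S)) := by rw [smul_smul, mul_inv_cancel₀ hc0, one_smul]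
        _ = _ := by rw [h2]
    have hsurj : Function.Surjective (S.restrict hSV) := by
      refine LinearMap.surjective_of_injective fun u v h => Subtype.ext ?_
      have h' : T3 (S u) = T3 (S v) := congrArg T3 (congrArg Subtype.val h)
      rw [← Module.End.mul_apply, ← Module.End.mul_apply, hTS] at h'
      exact smul_right_injective U3 hc0 h'
    have hmap := hU3min (V.map U3.subtype) (Submodule.map_subtype_le U3 V)
      (fun h => hV0 (Submodule.map_injective_of_injective U3.injective_subtype (h.trans (Submodule.map_bot _).symm)))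
      (fun g => by rintro _ ⟨v, hv, rfl⟩; exact ⟨ρ3 g v, hV g v hv, rfl⟩)
      (by
        rintro _ ⟨v, hv, rfl⟩
        obtain ⟨u, hu⟩ := hsurj ⟨v, hv⟩
        refine ⟨T3 v, ?_, rfl⟩
        rw [← show S u = v from congrArg Subtype.val hu, ← Module.End.mul_apply, hTS]
        exact V.smul_mem c u.2)
    refine eq_top_iff.mpr fun v _ => ?_
    have hv : (v : W) ∈ V.map U3.subtype := hmap.symm ▸ v.2
    obtain ⟨v', hv', h⟩ := hv
    exact (Subtype.ext h : v' = v) ▸ hv'
  have hschur : ∀ b : Module.End K U3, (∀ y, Commute b (ρ3 y)) → ∃ t : K, b = t • 1 := by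
    intro b hb
    obtain ⟨t, ht⟩ := Module.End.exists_eigenvalue b
    refine ⟨t, ?_⟩
    rcases hirrQ (Module.End.eigenspace b t) (fun g v hv => by
      rw [Module.End.mem_eigenspace_iff] at hv ⊢
      rw [← Module.End.mul_apply, (hb g).eq, Module.End.mul_apply, hv, map_smul]) with h | h
    · exact absurd h ht
    · refine LinearMap.ext fun v => ?_
      rw [Module.End.mem_eigenspace_iff.mp (h ▸ Submodule.mem_top : v ∈ Module.End.eigenspace b t)]
      rfl
  -- the count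
  have hαadd : ∀ k, α' ^ k = α ^ (p ^ (j + i) * k) := fun k => by
    rw [hα', hα1, ← pow_mul, ← pow_mul, ← mul_assoc, ← pow_add]
  obtain ⟨hd2, hdN, hdvd⟩ := count_semiregular ρ3 R α' T3 hN1 (by rw [hN, Nat.cast_pow]; exact pow_ne_zero _ hpK)
    hQK hT3N hT3α hT3fpf hα'N
    (Subgroup.eq_of_le_of_card_ge (by rintro _ ⟨y, hy, rfl⟩; exact hRα' y hy)
      (by rw [Subgroup.card_map_of_injective α'.injective]))
    (fun a ha => ⟨_, hρ3R a ha⟩)
    (fun a b => hZR (hcl a b))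
    (fun a b g => (Subgroup.mem_center_iff.mp (hcl a b) g))
    (fun a ha => by
      obtain ⟨b, hb⟩ : ∃ b, χ ⁅a, b⁆ ≠ 1 := by by_contra h; push Not at h; exact ha h
      refine ⟨b, fun h => hb (hswap _ _ ?_)⟩
      rw [show b * a * b⁻¹ * a⁻¹ = ⁅b, a⁆ from (commutatorElement_def b a).symm, hρ3c] at h
      refine smul_left_injective K (one_ne_zero (α := Module.End K U3)) ?_
      exact h.trans (one_smul K (1 : Module.End K U3)).symm)
    (fun k hk hkN a ha => by
      refine hsemi R hZR (p ^ (j + i) * k) (fun hd => ?_) (fun y hy => ?_) a (hαadd k ▸ ha)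
      · rw [show n + 1 = (j + i) + (n + 1 - (j + i)) by omega, pow_add, Nat.mul_dvd_mul_iff_left (pow_pos hp.pos _)] at hd
        exact absurd (Nat.le_of_dvd hk hd) (by omega)
      · exact hαadd k ▸ pow_apply_mem α' hRα' k hy)
    hschur hRtop
  set d := finrank K U3 with hd
  have hd0 : 0 < d := Module.finrank_pos
  have hd1 : d ≠ 1 := fun h => hRtop (Subgroup.index_eq_one.mp (by rw [← hd2, h, one_pow]))
  have hNodd : Odd N := (hp.odd_of_ne_two hp2).pow
  have hdN' : d + 1 = N := by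
    rw [← one_pow 2, Nat.sq_sub_sq, hN] at hdvd
    by_cases h : p ∣ d + 1
    · have h' : ¬ p ∣ d - 1 := fun h2 => hp2 ((Nat.prime_dvd_prime_iff_eq hp Nat.prime_two).mp (by
        have := Nat.dvd_sub h h2; rwa [show d + 1 - (d - 1) = 2 by omega] at this))
      have h3 := ((hp.coprime_iff_not_dvd.mpr h').pow_left (n + 1 - (j + i))).dvd_of_dvd_mul_right hdvd
      rw [← hN] at h3
      have := Nat.le_of_dvd (by omega) h3
      omega
    · have h3 := ((hp.coprime_iff_not_dvd.mpr h).pow_left (n + 1 - (j + i))).dvd_of_dvd_mul_left hdvd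
      rw [← hN] at h3
      have := Nat.le_of_dvd (by omega) h3
      omega
  obtain ⟨c', hc'⟩ := hQ.index R
  have hq2 : q = 2 := by
    obtain ⟨k, hk⟩ := hNodd
    have h2 : 2 ∣ q ^ c' := by rw [← hc', ← hd2]; exact Dvd.dvd.pow ⟨k, by omega⟩ two_ne_zero
    exact ((Nat.prime_dvd_prime_iff_eq Nat.prime_two hq).mp (Nat.prime_two.dvd_of_dvd_pow h2)).symm
  subst hq2
  obtain ⟨a, -, ha⟩ := (Nat.dvd_prime_pow Nat.prime_two).mp (show d ∣ 2 ^ c' by
    rw [← hc', ← hd2]; exact dvd_pow_self d two_ne_zero)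
  have ha0 : 0 < a := by
    rcases Nat.eq_zero_or_pos a with h | h
    · rw [h] at ha; simp at ha; omega
    · exact h
  have hRidx : R.index = 2 ^ (2 * a) := by rw [← hd2, ha, ← pow_mul, mul_comm]
  -- the intersection of the conjugates of `R`
  let Rk : ℕ → Subgroup Q := fun k => R.comap (α ^ k).toMonoidHom
  have hRk : ∀ k a, a ∈ Rk k ↔ ∀ b, χ ((α ^ k) ⁅a, b⁆) = 1 := fun k a => by
    refine ⟨fun h b => ?_, fun h b => ?_⟩
    · rw [show (α ^ k) ⁅a, b⁆ = ⁅(α ^ k) a, (α ^ k) b⁆ from map_commutatorElement (α ^ k).toMonoidHom a b]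
      exact h _
    · obtain ⟨b', rfl⟩ := (α ^ k).surjective b
      show χ ⁅(α ^ k) a, (α ^ k) b'⁆ = 1
      rw [← show (α ^ k) ⁅a, b'⁆ = ⁅(α ^ k) a, (α ^ k) b'⁆ from map_commutatorElement (α ^ k).toMonoidHom a b']
      exact h b'
  have hper : ∀ k, ∀ z ∈ Z, χ ((α ^ k) z) = χ ((α ^ (k % p ^ j)) z) := by
    intro k z hz
    have h1 : ∀ m, ∀ y ∈ Z, χ ((α1 ^ m) y) = χ y := by
      intro m
      induction m with
      | zero => simp
      | succ m ih => intro y hy; rw [pow_succ, MulAut.mul_apply, ih _ (pow_apply_mem α hcenα _ hy), hPj y hy]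
    conv_lhs => rw [← Nat.div_add_mod k (p ^ j), pow_add, MulAut.mul_apply, pow_mul]
    rw [← hα1, h1 _ _ (pow_apply_mem α hcenα _ hz)]
  let I : Finset ℕ := (range (p ^ j)).erase 0
  have hR0 : (⨅ k : I, Rk k) ≤ ⨅ k : ℕ, Rk k := by
    intro y hy
    rw [Subgroup.mem_iInf] at hy ⊢
    have h0 : y ∈ Rk 0 := (hRk 0 y).mpr fun b => by
      set z := ⁅y, b⁆
      have hz : z ∈ Z := hcl y b
      obtain ⟨k, hk⟩ : ∃ k, z ^ 2 ^ k = 1 := hQ z
      have hprod : ∀ m, ∃ t ∈ Z, χ t = ∏ l ∈ range m, χ ((α ^ l) z) ∧ α t * z = t * (α ^ m) z := by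
        intro m
        induction m with
        | zero => exact ⟨1, one_mem Z, by simp [hχ1], by simp⟩
        | succ m ih =>
          obtain ⟨t, ht, ht1, ht2⟩ := ih
          have hzm := pow_apply_mem α hcenα m hz
          refine ⟨t * (α ^ m) z, mul_mem ht hzm, by rw [hχmul ht hzm, ht1, Finset.prod_range_succ], ?_⟩
          rw [map_mul, mul_assoc, Subgroup.mem_center_iff.mp hz, ← mul_assoc, ht2, pow_succ', MulAut.mul_apply]
      obtain ⟨t, ht, ht1, ht2⟩ := hprod (p ^ (n + 1))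
      rw [hα, MulAut.one_apply] at ht2
      rw [hαfpf t (mul_right_cancel ht2), hχ1] at ht1
      have hblock : ∀ r, ∏ l ∈ range (p ^ j * r), χ ((α ^ l) z) = (χ z) ^ r := by
        intro r
        induction r with
        | zero => simp
        | succ r ihr =>
          rw [Nat.mul_succ, Finset.prod_range_add, ihr, pow_succ, Finset.prod_eq_single 0]
          · rw [add_zero, hper _ z hz, Nat.mul_mod_right, pow_zero, MulAut.one_apply]
          · intro l hl hl0
            rw [hper _ z hz, Nat.mul_add_mod, Nat.mod_eq_of_lt (mem_range.mp hl)]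
            exact (hRk l y).mp (hy ⟨l, mem_erase.mpr ⟨hl0, hl⟩⟩) b
          · intro h; exact absurd (mem_range.mpr (pow_pos hp.pos j)) h
      have h1 := hblock (p ^ (n + 1 - j))
      rw [← pow_add, show j + (n + 1 - j) = n + 1 by omega, ← ht1] at h1
      have h2 : χ z ^ 2 ^ k = 1 := by rw [← char_pow hw hw0 hz, hk, hχ1]
      rw [pow_zero, MulAut.one_apply]
      have h3 := pow_gcd_eq_one.mpr ⟨h1.symm, h2⟩
      rwa [Nat.Coprime.pow _ _ ((Nat.coprime_primes hp Nat.prime_two).mpr hpq), pow_one] at h3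
    intro k
    refine (hRk k y).mpr fun b => ?_
    rw [hper k _ (hcl y b)]
    by_cases h : k % p ^ j = 0
    · rw [h]; exact (hRk 0 y).mp h0 b
    · exact (hRk _ y).mp (hy ⟨k % p ^ j, mem_erase.mpr ⟨h, mem_range.mpr (Nat.mod_lt _ (pow_pos hp.pos j))⟩⟩) b
  set Rs : Subgroup Q := ⨅ k : ℕ, Rk k with hRs
  have hRsα : ∀ y ∈ Rs, α y ∈ Rs := by
    intro y hy
    rw [hRs, Subgroup.mem_iInf] at hy ⊢
    intro k
    show (α ^ k) (α y) ∈ R
    rw [← MulAut.mul_apply, ← pow_succ]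
    exact hy (k + 1)
  have hRstop : Rs ≠ ⊤ := fun h => hRtop (eq_top_iff.mpr fun y _ => by
    have h1 : y ∈ Rk 0 := (Subgroup.mem_iInf.mp (h.symm ▸ Subgroup.mem_top y : y ∈ Rs)) 0
    simpa [Rk] using h1)
  have hRsZ : Rs = Z := by
    refine le_antisymm (fun y hy => hfixZ y (hsub Rs hRstop hRsα y hy)) ?_
    rw [hRs, le_iInf_iff]
    intro k y hy
    exact hZR (pow_apply_mem α hcenα k hy)
  have hbound : Z.index ≤ (2 ^ (2 * a)) ^ (p ^ j - 1) := by
    calc Z.index ≤ (⨅ k : I, Rk k).index :=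
          Nat.le_of_dvd (Nat.pos_of_ne_zero Subgroup.index_ne_zero_of_finite)
            (Subgroup.index_dvd_of_le (hRsZ ▸ hR0)) |>.trans le_rfl
      _ ≤ ∏ k : I, (Rk k).index := Subgroup.index_iInf_le _
      _ = _ := by
        rw [Finset.prod_congr rfl fun (k : I) _ => (show (Rk k).index = 2 ^ (2 * a) by
          rw [Subgroup.index_comap_of_surjective R (α ^ (k : ℕ)).surjective, hRidx]), Finset.prod_const,
          Finset.card_univ, Fintype.card_coe, Finset.card_erase_of_mem (mem_range.mpr (pow_pos hp.pos j)), card_range]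
  obtain ⟨D, hD⟩ := hQ.index Z
  have hD0 : 0 < D := by
    rcases Nat.eq_zero_or_pos D with h | h
    · exact absurd (Subgroup.index_eq_one.mp (by rw [hD, h, pow_zero])) hab
    · exact h
  have hpdvd : p ^ (n + 1) ∣ 2 ^ D - 1 := by
    let Qt := Q ⧸ Z
    letI : Fintype Qt := Fintype.ofFinite Qt
    have hZmap : Z.map α.toMonoidHom = Z := Subgroup.eq_of_le_of_card_ge
      (by rintro _ ⟨y, hy, rfl⟩; exact hcenα y hy) (by rw [Subgroup.card_map_of_injective α.injective])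
    let π : Equiv.Perm Qt := (QuotientGroup.congr Z Z α hZmap).toEquiv
    have hπpow : ∀ (k : ℕ) (y : Q), (π ^ k) (y : Qt) = (((α ^ k) y : Q) : Qt) := by
      intro k y
      induction k with
      | zero => rfl
      | succ k ih => rw [pow_succ', Equiv.Perm.mul_apply, ih, pow_succ', MulAut.mul_apply]; rfl
    have h := card_orbits_semiregular π 1 (pow_pos hp.pos (n + 1))
      (Equiv.ext fun u => by
        induction u using QuotientGroup.induction_on with
        | H y => rw [hπpow, hα]; rfl)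
      (map_one (QuotientGroup.congr Z Z α hZmap))
      (by
        by_contra h
        push Not at h
        exact hab (eq_top_iff.mpr fun g _ => (QuotientGroup.eq_one_iff g).mp (h _)))
      (fun k hk hkN u hu => by
        induction u using QuotientGroup.induction_on with
        | H y =>
          rw [hπpow] at hu
          exact (QuotientGroup.eq_one_iff y).mpr (hsemi Z le_rfl k (fun hd => absurd (Nat.le_of_dvd hk hd) (by omega))
            (fun z hz => pow_apply_mem α hcenα k hz) y (QuotientGroup.eq.mp hu.symm)))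
    rw [show Fintype.card Qt = 2 ^ D by rw [← Nat.card_eq_fintype_card, ← hD]; rfl] at h
    generalize Fintype.card (Quotient (MulAction.orbitRel (Subgroup.zpowers π) Qt)) = o at h
    refine ⟨o - 1, ?_⟩
    have := Nat.one_le_two_pow (n := D)
    rw [Nat.mul_sub, mul_one, mul_comm (p ^ (n + 1)), h]
    have := pow_pos hp.pos (n + 1)
    omega
  have hfinal := Nat.le_of_dvd hD0 (two_mul_dvd_of_dvd hp hp2 (show 0 < n + 1 - (j + i) by omega) ha0
    (by rw [← hN, ← hdN', ha]) hD0 hpdvd (show n + 1 - (j + i) + j ≤ n + 1 by omega))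
  rw [hD, ← pow_mul] at hbound
  have h1 := (Nat.pow_le_pow_iff_right (by norm_num : 1 < 2)).mp hbound
  have hpj := pow_pos hp.pos j
  have h2 : 2 * a * (p ^ j - 1) + 2 * a = 2 * a * p ^ j := by
    conv_rhs => rw [show p ^ j = (p ^ j - 1) + 1 by omega, mul_add, mul_one]
  omega

end Cfsg.Agent.FPFPower
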