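/-
A fixed-point-free automorphism of order dividing `p^(n+1)`, `p` odd, of a `q`-group acting compatibly on a
module without fixed points: the element of order `p` acts trivially on the image.
-/
import Mathlib
import Cfsg.Agent.FPFPower.Core
import Cfsg.Agent.PrimeFPF.Group

set_option autoImplicit false
set_option maxHeartbeats 400000

namespace Cfsg.Agent.FPFPower

open Module

/-- A fixed-point-free automorphism of `p`-power order induces one on a coprime quotient. -/
theorem fpf_quotient {G : Type*} [Group G] {p k : ℕ} [Fact p.Prime] (σ : MulAut G) (hσ : σ ^ p ^ k = 1)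
    (hfpf : ∀ g, σ g = g → g = 1) (N : Subgroup G) [N.Normal] [Finite N] (hN : ∀ y ∈ N, σ y ∈ N)
    (hcop : ¬ p ∣ Nat.card N) (τ : MulAut (G ⧸ N)) (hτ : ∀ g : G, τ (g : G ⧸ N) = ((σ g : G) : G ⧸ N)) :
    ∀ x, τ x = x → x = 1 := by
  intro x hx
  induction x using QuotientGroup.induction_on with
  | H g =>
    rw [hτ, eq_comm, QuotientGroup.eq] at hx
    obtain ⟨r, hr, hfix⟩ := exists_fixed_in_coset σ hσ N hN hcop hx
    rw [QuotientGroup.eq_one_iff]
    have := hfpf _ hfix
    rw [mul_eq_one_iff_eq_inv] at this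
    exact this ▸ inv_mem hr

section Closed

variable {K : Type*} [Field K] [IsAlgClosed K] {W : Type*} [AddCommGroup W] [Module K W] [FiniteDimensional K W]

theorem pow_fixed_of_injective {Q : Type*} [Group Q] [Finite Q] {p q n : ℕ} [Fact p.Prime] [Fact q.Prime]
    (hp2 : p ≠ 2) (hpq : p ≠ q) (hqK : (q : K) ≠ 0) (hpK : (p : K) ≠ 0) (hQ : IsPGroup q Q)
    (ρ : Q →* Module.End K W) (hinj : Function.Injective ρ) (α : MulAut Q) (hα : α ^ p ^ (n + 1) = 1)
    (hαfpf : ∀ a, α a = a → a = 1) (T : Module.End K W) (hT : T ^ p ^ (n + 1) = 1)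
    (hTα : ∀ x, T * ρ x = ρ (α x) * T) (hfpf : ∀ v, T v = v → v = 0) :
    ∀ x, (α ^ p ^ n) x = x := by
  classical
  by_contra hne
  push Not at hne
  obtain ⟨x, hx⟩ := hne
  have hex : ∃ m, ∃ H : Subgroup Q, Nat.card H = m ∧ (∀ y ∈ H, α y ∈ H) ∧ ∃ y ∈ H, (α ^ p ^ n) y ≠ y :=
    ⟨_, ⊤, rfl, fun _ _ => trivial, x, trivial, hx⟩
  obtain ⟨H, hH, hHα, y, hy, hyne⟩ := Nat.find_spec hex
  let β : MulAut H := MulEquiv.ofBijective
    ((α.toMonoidHom.comp H.subtype).codRestrict H fun z => hHα z z.2)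
    (Finite.injective_iff_bijective.mp fun a b h => Subtype.ext (α.injective (congrArg Subtype.val h)))
  have hβ : ∀ (k : ℕ) (z : H), (((β ^ k) z : H) : Q) = (α ^ k) z := by
    intro k z
    induction k with
    | zero => rfl
    | succ k ih => rw [pow_succ', MulAut.mul_apply, pow_succ', MulAut.mul_apply, ← ih]; rfl
  refine hyne ?_
  have := fixed_eq_of_minimal (n := n) hp2 hpq hqK hpK (hQ.to_subgroup H) (ρ.comp H.subtype)
    (hinj.comp Subtype.val_injective) β (MulEquiv.ext fun z => Subtype.ext (by rw [hβ, hα]; rfl))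
    (fun z hz => Subtype.ext (hαfpf z (congrArg Subtype.val hz))) T hT (fun z => hTα z) hfpf ?_ ⟨y, hy⟩
  · have h := congrArg Subtype.val this
    rwa [hβ] at h
  intro L hL hLβ z hz
  by_contra hzne
  have hlt : Nat.card (L.map H.subtype) < Nat.find hex := by
    rw [← hH, Subgroup.card_map_of_injective H.subtype_injective]
    exact lt_of_le_of_ne (Subgroup.card_le_card_group L) (fun h => hL (Subgroup.eq_top_of_card_eq L h))
  refine Nat.find_min hex hlt ⟨_, rfl, ?_, z, ⟨z, hz, rfl⟩, fun h => hzne (Subtype.ext (by rw [hβ]; exact h))⟩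
  rintro _ ⟨w, hw, rfl⟩
  exact ⟨β w, hLβ w hw, rfl⟩

/-- The element of order `p` acts trivially on the image. -/
theorem rho_pow_fixed {Q : Type*} [Group Q] [Finite Q] {p q n : ℕ} [Fact p.Prime] [Fact q.Prime]
    (hp2 : p ≠ 2) (hpq : p ≠ q) (hqK : (q : K) ≠ 0) (hpK : (p : K) ≠ 0) (hQ : IsPGroup q Q)
    (ρ : Q →* Module.End K W) (α : MulAut Q) (hα : α ^ p ^ (n + 1) = 1)
    (hαfpf : ∀ a, α a = a → a = 1) (T : Module.End K W) (hT : T ^ p ^ (n + 1) = 1)
    (hTα : ∀ x, T * ρ x = ρ (α x) * T) (hfpf : ∀ v, T v = v → v = 0) :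
    ∀ x, ρ ((α ^ p ^ n) x) = ρ x := by
  have hp : p.Prime := Fact.out
  have hTu : IsUnit T := IsUnit.of_pow_eq_one hT (pow_pos hp.pos _).ne'
  have hkerα : ∀ y ∈ ρ.ker, α y ∈ ρ.ker := fun y hy => by
    rw [MonoidHom.mem_ker] at hy ⊢
    refine hTu.mul_right_cancel ?_
    rw [← hTα, hy, mul_one, one_mul]
  have hker : ρ.ker.map α.toMonoidHom = ρ.ker := Subgroup.eq_of_le_of_card_ge
    (by rintro _ ⟨y, hy, rfl⟩; exact hkerα y hy) (by rw [Subgroup.card_map_of_injective α.injective])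
  let β : MulAut (Q ⧸ ρ.ker) := QuotientGroup.congr ρ.ker ρ.ker α hker
  have hβ : ∀ (k : ℕ) (y : Q), (β ^ k) (y : Q ⧸ ρ.ker) = (((α ^ k) y : Q) : Q ⧸ ρ.ker) := by
    intro k y
    induction k with
    | zero => rfl
    | succ k ih => rw [pow_succ', MulAut.mul_apply, ih, pow_succ', MulAut.mul_apply]; rfl
  have hβ1 : β ^ p ^ (n + 1) = 1 := by
    refine MulEquiv.ext fun u => ?_
    induction u using QuotientGroup.induction_on with
    | H y => rw [hβ, hα, MulAut.one_apply, MulAut.one_apply]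
  have hβ0 : ∀ y : Q, β (y : Q ⧸ ρ.ker) = ((α y : Q) : Q ⧸ ρ.ker) := fun y => by
    have := hβ 1 y
    rwa [pow_one, pow_one] at this
  have hcop : ¬ p ∣ Nat.card ρ.ker := fun hd => by
    obtain ⟨k, hk⟩ := IsPGroup.iff_card.mp (hQ.to_subgroup ρ.ker)
    rw [hk] at hd
    exact hpq ((Nat.prime_dvd_prime_iff_eq hp Fact.out).mp (hp.dvd_of_dvd_pow hd))
  have hβfpf : ∀ u, β u = u → u = 1 := by
    intro u hu
    induction u using QuotientGroup.induction_on with
    | H g =>
      rw [hβ0, eq_comm, QuotientGroup.eq] at hu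
      obtain ⟨r, hr, hfix⟩ := exists_fixed_in_coset (p := p) (k := n + 1) α hα ρ.ker hkerα hcop hu
      rw [QuotientGroup.eq_one_iff, eq_inv_of_mul_eq_one_left (hαfpf _ hfix)]
      exact ρ.ker.inv_mem hr
  have hlift : ∀ y : Q, (QuotientGroup.lift ρ.ker ρ le_rfl) (y : Q ⧸ ρ.ker) = ρ y := fun y => QuotientGroup.lift_mk ρ.ker le_rfl y
  have hTβ : ∀ u, T * (QuotientGroup.lift ρ.ker ρ le_rfl) u = (QuotientGroup.lift ρ.ker ρ le_rfl) (β u) * T := by
    intro u
    induction u using QuotientGroup.induction_on with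
    | H y => rw [hβ0, hlift, hlift, hTα]
  have hinj : Function.Injective (QuotientGroup.lift ρ.ker ρ le_rfl) := by
    intro u v
    induction u using QuotientGroup.induction_on with
    | H a =>
      induction v using QuotientGroup.induction_on with
      | H b =>
        intro h
        rw [hlift, hlift] at h
        rw [QuotientGroup.eq, MonoidHom.mem_ker, map_mul, ← h, ← map_mul, inv_mul_cancel, map_one]
  intro x
  have h := pow_fixed_of_injective (n := n) hp2 hpq hqK hpK (hQ.to_quotient ρ.ker)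
    ((QuotientGroup.lift ρ.ker ρ le_rfl)) hinj β hβ1 hβfpf T hT hTβ hfpf (x : Q ⧸ ρ.ker)
  rw [hβ] at h
  rw [← hlift, h, hlift]

end Closed

/-- The same over an arbitrary field. -/
theorem rho_pow_fixed_field {k : Type*} [Field k] {V : Type*} [AddCommGroup V] [Module k V] [FiniteDimensional k V]
    {Q : Type*} [Group Q] [Finite Q] {p q n : ℕ} [Fact p.Prime] [Fact q.Prime]
    (hp2 : p ≠ 2) (hpq : p ≠ q) (hqk : (q : k) ≠ 0) (hpk : (p : k) ≠ 0) (hQ : IsPGroup q Q)
    (ρ : Q →* Module.End k V) (α : MulAut Q) (hα : α ^ p ^ (n + 1) = 1)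
    (hαfpf : ∀ a, α a = a → a = 1) (T : Module.End k V) (hT : T ^ p ^ (n + 1) = 1)
    (hTα : ∀ x, T * ρ x = ρ (α x) * T) (hfpf : ∀ v, T v = v → v = 0) :
    ∀ x, ρ ((α ^ p ^ n) x) = ρ x := by
  intro x
  let L := AlgebraicClosure k
  let B := Module.End.baseChangeHom k L V
  have hL : ∀ m : ℕ, (m : k) ≠ 0 → (m : L) ≠ 0 := fun m hm h => hm ((algebraMap k L).injective (by simpa using h))
  refine Cfsg.Agent.PrimeFPF.baseChange_inj (L := L) ?_
  refine rho_pow_fixed (K := L) (n := n) hp2 hpq (hL q hqk) (hL p hpk) hQ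
    (B.toRingHom.toMonoidHom.comp ρ) α hα hαfpf (B T) (by rw [← map_pow, hT, map_one])
    (fun y => by
      show B T * B (ρ y) = B (ρ (α y)) * B T
      rw [← map_mul, ← map_mul, hTα]) ?_ x
  intro v hv
  have h0 : LinearMap.ker (T - 1) = ⊥ := by
    rw [LinearMap.ker_eq_bot']
    exact fun u hu => hfpf u (sub_eq_zero.mp hu)
  have hle := Cfsg.Agent.PrimeFPF.finrank_fixed_baseChange_le (L := L) T (r := p ^ (n + 1))
    (by rw [Nat.cast_pow]; exact pow_ne_zero _ (hL p hpk)) hT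
  rw [h0, finrank_bot, Nat.le_zero, Submodule.finrank_eq_zero] at hle
  have : v ∈ LinearMap.ker (B T - 1) := LinearMap.mem_ker.mpr (by
    rw [LinearMap.sub_apply, Module.End.one_apply, hv, sub_self])
  rw [hle] at this
  exact (Submodule.mem_bot L).mp this

end Cfsg.Agent.FPFPower
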