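/-
A solvable group with a fixed-point-free automorphism of order `p^(n+1)`, `p` odd: the commutator with the
element of order `p` is nilpotent, and the group has a nilpotent series of length `n + 1`.
-/
import Mathlib
import Cfsg.Agent.FPFPower.Module
import Cfsg.Agent.Cores.Fitting

set_option autoImplicit false
set_option maxHeartbeats 400000

namespace Cfsg.Agent.FPFPower

open scoped IsMulCommutative commutatorElement

universe u

/-- The commutator of `G` with an automorphism. -/
def commAut {G : Type*} [Group G] (τ : MulAut G) : Subgroup G :=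
  Subgroup.closure (Set.range fun g => g⁻¹ * τ g)

theorem mem_commAut {G : Type*} [Group G] (τ : MulAut G) (g : G) : g⁻¹ * τ g ∈ commAut τ :=
  Subgroup.subset_closure ⟨g, rfl⟩

instance commAut_normal {G : Type*} [Group G] (τ : MulAut G) : (commAut τ).Normal := by
  refine ⟨fun y hy h => ?_⟩
  have hle : commAut τ ≤ (commAut τ).comap (MulAut.conj h).toMonoidHom := by
    refine (Subgroup.closure_le _).mpr ?_
    rintro _ ⟨g, rfl⟩
    show h * (g⁻¹ * τ g) * h⁻¹ ∈ commAut τ
    rw [show h * (g⁻¹ * τ g) * h⁻¹ = ((g * h⁻¹)⁻¹ * τ (g * h⁻¹)) * (h⁻¹⁻¹ * τ h⁻¹)⁻¹ by rw [map_mul]; group]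
    exact mul_mem (mem_commAut τ _) (Subgroup.inv_mem _ (mem_commAut τ _))
  exact hle hy

theorem commAut_invariant {G : Type*} [Group G] (τ σ : MulAut G) (h : ∀ g, τ (σ g) = σ (τ g)) :
    ∀ y ∈ commAut τ, σ y ∈ commAut τ := by
  intro y hy
  have hle : commAut τ ≤ (commAut τ).comap σ.toMonoidHom := by
    refine (Subgroup.closure_le _).mpr ?_
    rintro _ ⟨g, rfl⟩
    show σ (g⁻¹ * τ g) ∈ commAut τ
    rw [map_mul, map_inv, ← h]
    exact mem_commAut τ _
  exact hle hy

theorem not_dvd_card {G : Type*} [Group G] [Finite G] {p k : ℕ} [Fact p.Prime] (σ : MulAut G) (hσ : σ ^ p ^ k = 1)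
    (hfpf : ∀ g, σ g = g → g = 1) : ¬ p ∣ Nat.card G := by
  classical
  intro hd
  haveI := Fintype.ofFinite G
  have hi : ∀ (i : ℕ) (g : G), ((σ.toEquiv : Equiv.Perm G) ^ i) g = (σ ^ i) g := by
    intro i g
    induction i with
    | zero => rfl
    | succ i ih => rw [pow_succ', Equiv.Perm.mul_apply, ih, pow_succ', MulAut.mul_apply]; rfl
  have hpow : (σ.toEquiv : Equiv.Perm G) ^ p ^ k = 1 := Equiv.ext fun g => by rw [hi, hσ]; rfl
  obtain ⟨g, hg, hg1⟩ := Equiv.Perm.exists_fixed_point_of_prime' (p := p) (by rwa [← Nat.card_eq_fintype_card])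
    hpow (a := (1 : G)) (map_one σ)
  exact hg1 (hfpf g hg)

/-- An automorphism of `p`-power order of a `p'`-subgroup fixes a Sylow subgroup. -/
theorem exists_invariant_sylow {G : Type*} [Group G] [Finite G] {p q k : ℕ} [Fact p.Prime] [Fact q.Prime]
    (σ : MulAut G) (hσ : σ ^ p ^ k = 1) (hcop : ¬ p ∣ Nat.card G) :
    ∃ Q : Sylow q G, ∀ y ∈ (Q : Subgroup G), σ y ∈ (Q : Subgroup G) := by
  classical
  haveI := Fintype.ofFinite (Sylow q G)
  have hn : ¬ p ∣ Fintype.card (Sylow q G) := by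
    rw [← Nat.card_eq_fintype_card]
    obtain ⟨P⟩ := (inferInstance : Nonempty (Sylow q G))
    exact fun h => hcop ((h.trans (Sylow.card_dvd_index P)).trans (Subgroup.index_dvd_card _))
  have hpow : (MulAction.toPerm σ : Equiv.Perm (Sylow q G)) ^ p ^ k = 1 := by
    rw [← MulAction.toPermHom_apply, ← map_pow, hσ, map_one]
  obtain ⟨Q, hQ⟩ := Equiv.Perm.exists_fixed_point_of_prime hn hpow
  refine ⟨Q, fun y hy => ?_⟩
  have h := congrArg (fun P : Sylow q G => (P : Subgroup G)) hQ
  simp only [MulAction.toPerm_apply, Sylow.pointwise_smul_def] at h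
  rw [← h]
  exact Subgroup.smul_mem_pointwise_smul y σ _ hy

theorem exists_module {G : Type u} [Group G] [Finite G] [Group.IsSolvable G] [Nontrivial G] :
    ∃ (r : ℕ) (V : Subgroup G), r.Prime ∧ V.Characteristic ∧ V ≠ ⊥ ∧ IsMulCommutative V ∧ ∀ v ∈ V, v ^ r = 1 := by
  classical
  obtain ⟨k, hk, hk1⟩ : ∃ k, derivedSeries G k ≠ ⊥ ∧ derivedSeries G (k + 1) = ⊥ := by
    obtain ⟨m, hm⟩ := Group.IsSolvable.solvable (G := G)
    have hex : ∃ m, derivedSeries G m = ⊥ := ⟨m, hm⟩
    refine ⟨Nat.find hex - 1, fun h => ?_, ?_⟩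
    · have h0 : Nat.find hex ≠ 0 := fun h0 => by
        have := Nat.find_spec hex
        rw [h0, derivedSeries_zero] at this
        exact top_ne_bot this
      exact Nat.find_min hex (show Nat.find hex - 1 < Nat.find hex by omega) h
    · have h0 : Nat.find hex ≠ 0 := fun h0 => by
        have := Nat.find_spec hex
        rw [h0, derivedSeries_zero] at this
        exact top_ne_bot this
      rw [Nat.sub_add_cancel (by omega)]
      exact Nat.find_spec hex
  set A := derivedSeries G k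
  have hAc : ∀ a ∈ A, ∀ b ∈ A, a * b = b * a := by
    intro a ha b hb
    have : ⁅a, b⁆ ∈ derivedSeries G (k + 1) := by
      rw [derivedSeries_succ]; exact Subgroup.commutator_mem_commutator ha hb
    rw [hk1, Subgroup.mem_bot] at this
    exact commutatorElement_eq_one_iff_mul_comm.mp this
  obtain ⟨r, hr, hrd⟩ := Nat.exists_prime_and_dvd (n := Nat.card A) (by
    rw [Ne, Subgroup.card_eq_one]; exact hk)
  haveI := Fact.mk hr
  let V : Subgroup G :=
    { carrier := {a | a ∈ A ∧ a ^ r = 1}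
      one_mem' := ⟨one_mem A, one_pow r⟩
      mul_mem' := fun {a b} ha hb => ⟨mul_mem ha.1 hb.1, by
        rw [(show Commute a b from hAc a ha.1 b hb.1).mul_pow, ha.2, hb.2, one_mul]⟩
      inv_mem' := fun {a} ha => ⟨inv_mem ha.1, by rw [inv_pow, ha.2, inv_one]⟩ }
  obtain ⟨a, ha⟩ := exists_prime_orderOf_dvd_card' r hrd
  refine ⟨r, V, hr, ?_, ?_, ⟨⟨fun a b => Subtype.ext (hAc a a.2.1 b b.2.1)⟩⟩, fun v hv => hv.2⟩
  · refine Subgroup.characteristic_iff_le_comap.mpr fun φ v hv => ⟨?_, ?_⟩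
    · have hA : A.Characteristic := derivedSeries_characteristic G k
      exact (Subgroup.characteristic_iff_le_comap.mp hA φ) hv.1
    · show φ v ^ r = 1
      rw [← map_pow, hv.2, map_one]
  · refine (Subgroup.ne_bot_iff_exists_ne_one).mpr ⟨⟨a, a.2, ?_⟩, fun h => ?_⟩
    · rw [← SubmonoidClass.coe_pow, ← ha, pow_orderOf_eq_one, OneMemClass.coe_one]
    · have h1 : a = 1 := Subtype.ext (congrArg Subtype.val h :)
      rw [h1, orderOf_one] at ha
      exact hr.one_lt.ne ha

theorem char_invariant {G : Type*} [Group G] {V : Subgroup G} [hV : V.Characteristic] (σ : MulAut G) :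
    ∀ y ∈ V, σ y ∈ V := fun _ hy => (Subgroup.characteristic_iff_le_comap.mp hV σ) hy

theorem isNilpotent_commAut {p n : ℕ} [Fact p.Prime] (hp2 : p ≠ 2) {G : Type u} [Group G] [Finite G]
    [Group.IsSolvable G] (σ : MulAut G) (hσ : σ ^ p ^ (n + 1) = 1) (hfpf : ∀ g, σ g = g → g = 1) :
    Group.IsNilpotent (commAut (σ ^ p ^ n)) := by
  suffices H : ∀ m : ℕ, ∀ (G : Type u) [Group G] [Finite G] [Group.IsSolvable G] (σ : MulAut G), Nat.card G = m →
      σ ^ p ^ (n + 1) = 1 → (∀ g, σ g = g → g = 1) → Group.IsNilpotent (commAut (σ ^ p ^ n)) from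
    H _ G σ rfl hσ hfpf
  clear hfpf hσ σ
  intro m
  induction m using Nat.strong_induction_on with
  | _ m ih =>
  intro G _ _ _ σ hm hσ hfpf
  classical
  have hp : p.Prime := Fact.out
  have hpG := not_dvd_card σ hσ hfpf
  set τ := σ ^ p ^ n with hτ
  have hτp : τ ^ p ^ 1 = 1 := by rw [pow_one, hτ, ← pow_mul, ← pow_succ, hσ]
  have hτσ : ∀ g, τ (σ g) = σ (τ g) := fun g => by
    rw [hτ, ← MulAut.mul_apply, ← pow_succ, pow_succ', MulAut.mul_apply]
  rcases subsingleton_or_nontrivial G with hG | hG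
  · infer_instance
  obtain ⟨r, V, hr, hVc, hVne, hVcomm, hVexp⟩ := exists_module (G := G)
  haveI := hVc
  haveI := hVcomm
  haveI := Fact.mk hr
  have hVσ : ∀ y ∈ V, σ y ∈ V := char_invariant σ
  have hcopV : ¬ p ∣ Nat.card V := fun h => hpG (h.trans (Subgroup.card_subgroup_dvd_card V))
  -- the quotient by `V`
  have hmap : V.map σ.toMonoidHom = V := Subgroup.eq_of_le_of_card_ge
    (by rintro _ ⟨y, hy, rfl⟩; exact hVσ y hy) (by rw [Subgroup.card_map_of_injective σ.injective])
  let σq : MulAut (G ⧸ V) := QuotientGroup.congr V V σ hmap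
  have hσq : ∀ (i : ℕ) (g : G), (σq ^ i) (g : G ⧸ V) = (((σ ^ i) g : G) : G ⧸ V) := by
    intro i g
    induction i with
    | zero => rfl
    | succ i ih => rw [pow_succ', MulAut.mul_apply, ih, pow_succ', MulAut.mul_apply]; rfl
  have hσq1 : σq ^ p ^ (n + 1) = 1 := by
    refine MulEquiv.ext fun u => ?_
    induction u using QuotientGroup.induction_on with
    | H g => rw [hσq, hσ, MulAut.one_apply, MulAut.one_apply]
  have hlt : Nat.card (G ⧸ V) < m := by
    rw [← hm, Subgroup.card_eq_card_quotient_mul_card_subgroup V]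
    exact lt_mul_of_one_lt_right Nat.card_pos (V.one_lt_card_iff_ne_bot.mpr hVne)
  have hnilq : Group.IsNilpotent (commAut (σq ^ p ^ n)) := ih _ hlt (G ⧸ V) σq rfl hσq1
    (fpf_quotient σ hσ hfpf V hVσ hcopV σq fun g => by simpa using hσq 1 g)
  set D := commAut τ with hD
  have hDσ : ∀ y ∈ D, σ y ∈ D := commAut_invariant τ σ hτσ
  have hDτ : ∀ y ∈ D, τ y ∈ D := fun y hy => pow_apply_mem σ hDσ _ hy
  have hcopD : ¬ p ∣ Nat.card D := fun h => hpG (h.trans (Subgroup.card_subgroup_dvd_card D))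
  -- `D` is generated by its own commutators with `τ`
  have hDgen : D ≤ Subgroup.closure {y | ∃ d ∈ D, y = d⁻¹ * τ d} := by
    rw [hD, commAut, Subgroup.closure_le]
    rintro _ ⟨g, rfl⟩
    obtain ⟨s, hs, hfix⟩ := exists_fixed_in_coset (p := p) (k := 1) τ hτp D hDτ hcopD (a := g) (mem_commAut τ g)
    refine Subgroup.subset_closure ⟨s⁻¹, inv_mem hs, ?_⟩
    rw [map_mul, ← eq_mul_inv_iff_mul_eq] at hfix
    show g⁻¹ * τ g = s⁻¹⁻¹ * τ s⁻¹
    rw [hfix, map_inv]
    group
  -- the image of `D`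
  let f : D →* G ⧸ V := (QuotientGroup.mk' V).comp D.subtype
  have hfrange : f.range = commAut (σq ^ p ^ n) := by
    rw [show f.range = D.map (QuotientGroup.mk' V) by
      rw [MonoidHom.range_comp, Subgroup.range_subtype], hD, commAut, MonoidHom.map_closure, commAut]
    congr 1
    ext u
    constructor
    · rintro ⟨_, ⟨g, rfl⟩, rfl⟩
      exact ⟨(g : G ⧸ V), by dsimp only; rw [hσq]; rfl⟩
    · rintro ⟨u, rfl⟩
      induction u using QuotientGroup.induction_on with
      | H g => exact ⟨_, ⟨g, rfl⟩, by dsimp only; rw [hσq]; rfl⟩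
  haveI hfnil : Group.IsNilpotent f.range := hfrange ▸ hnilq
  have hfker : ∀ y : D, y ∈ f.ker ↔ (y : G) ∈ V := fun y => by
    rw [MonoidHom.mem_ker]; exact QuotientGroup.eq_one_iff _
  have hkerr : IsPGroup r f.ker := fun y => ⟨1, Subtype.ext (Subtype.ext (by
    simpa using hVexp _ ((hfker (y : D)).mp y.2)))⟩
  have hsylow : ∀ (q : ℕ) [Fact q.Prime] (Q : Sylow q D), ((Q : Subgroup D) ⊔ f.ker).Normal := by
    intro q _ Q
    have h1 : ((Q.mapSurjective f.rangeRestrict_surjective : Sylow q f.range) : Subgroup f.range).Normal :=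
      inferInstance
    have h2 : (Q : Subgroup D) ⊔ f.ker = Subgroup.comap f.rangeRestrict (Subgroup.map f.rangeRestrict (Q : Subgroup D)) := by
      rw [Subgroup.comap_map_eq, MonoidHom.ker_rangeRestrict]
    rw [h2]
    exact h1.comap _
  -- the action on `V`
  haveI : Module (ZMod r) (Additive V) := Cfsg.Agent.PrimeFPF.modV (V := V) hVexp
  haveI : Finite (Additive V) := Finite.of_equiv V Additive.ofMul
  obtain ⟨ρV, hρV⟩ := Cfsg.Agent.PrimeFPF.exists_rep (ℓ := r) (V := V)
  have hnorm : ∀ g : G, g ∈ Subgroup.normalizer (V : Set G) := fun g => by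
    rw [Subgroup.normalizer_eq_top_iff.mpr inferInstance]; trivial
  let σV : Module.End (ZMod r) (Additive V) := (AddMonoidHom.mk'
    (fun v => Additive.ofMul (⟨σ ((Additive.toMul v : V) : G), hVσ _ (Additive.toMul v).2⟩ : V))
    (fun a b => congrArg Additive.ofMul (Subtype.ext (map_mul σ _ _)))).toZModLinearMap r
  have hσV : ∀ v : Additive V, ((Additive.toMul (σV v) : V) : G) = σ ((Additive.toMul v : V) : G) := fun _ => rfl
  have hσVi : ∀ (i : ℕ) (v : Additive V),
      ((Additive.toMul ((σV ^ i) v) : V) : G) = (σ ^ i) ((Additive.toMul v : V) : G) := by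
    intro i v
    induction i with
    | zero => rfl
    | succ i ih => rw [pow_succ', Module.End.mul_apply, hσV, ih, pow_succ', MulAut.mul_apply]
  have hT : σV ^ p ^ (n + 1) = 1 := by
    refine LinearMap.ext fun v => Additive.toMul.injective (Subtype.ext ?_)
    rw [hσVi, hσ]; rfl
  have hTfpf : ∀ v, σV v = v → v = 0 := fun v hv =>
    Additive.toMul.injective (Subtype.ext (hfpf _ (by rw [← hσV, hv])))
  set C := Subgroup.centralizer (V : Set G) with hC
  have hCn : C.Normal := by rw [hC]; infer_instance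
  have hCτ : ∀ y ∈ C, τ y ∈ C := by
    intro y hy
    rw [hC, Subgroup.mem_centralizer_iff] at hy ⊢
    intro v hv
    have h1 := hy (τ.symm v) (symm_mem τ (fun z hz => pow_apply_mem σ hVσ _ hz) hv)
    have h2 := congrArg τ h1
    rwa [map_mul, map_mul, MulEquiv.apply_symm_apply] at h2
  -- invariant Sylow subgroups of `D`, and the action of `τ` on them
  let σD : MulAut D := MulEquiv.ofBijective ((σ.toMonoidHom.comp D.subtype).codRestrict D fun z => hDσ z z.2)
    (Finite.injective_iff_bijective.mp fun a b h => Subtype.ext (σ.injective (congrArg Subtype.val h)))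
  have hσDi : ∀ (i : ℕ) (y : D), (((σD ^ i) y : D) : G) = (σ ^ i) y := by
    intro i y
    induction i with
    | zero => rfl
    | succ i ih => rw [pow_succ', MulAut.mul_apply, pow_succ', MulAut.mul_apply, ← ih]; rfl
  have hσD : σD ^ p ^ (n + 1) = 1 := MulEquiv.ext fun y => Subtype.ext (by rw [hσDi, hσ]; rfl)
  have hact : ∀ (q : ℕ) [Fact q.Prime], q ≠ r → p ≠ q → ∀ (Q : Sylow q D),
      (∀ y ∈ (Q : Subgroup D), σD y ∈ (Q : Subgroup D)) → ∀ a ∈ (Q : Subgroup D), (a : G)⁻¹ * τ a ∈ C := by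
    intro q _ hqr hpq Q hQ a ha
    let α : MulAut (Q : Subgroup D) := MulEquiv.ofBijective
      ((σD.toMonoidHom.comp (Q : Subgroup D).subtype).codRestrict _ fun z => hQ z z.2)
      (Finite.injective_iff_bijective.mp fun a b h => Subtype.ext (σD.injective (congrArg Subtype.val h)))
    have hα : ∀ (i : ℕ) (y : (Q : Subgroup D)), ((((α ^ i) y : (Q : Subgroup D)) : D) : G) = (σ ^ i) ((y : D) : G) := by
      intro i y
      induction i with
      | zero => rfl
      | succ i ih => rw [pow_succ', MulAut.mul_apply, pow_succ', MulAut.mul_apply, ← ih]; rfl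
    let inc : (Q : Subgroup D) →* Subgroup.normalizer (V : Set G) :=
      (D.subtype.comp (Q : Subgroup D).subtype).codRestrict _ fun z => hnorm _
    have hne : ∀ t : ℕ, t.Prime → t ≠ r → (t : ZMod r) ≠ 0 := fun t ht hne h =>
      hne ((Nat.prime_dvd_prime_iff_eq hr ht).mp ((ZMod.natCast_eq_zero_iff _ _).mp h)).symm
    have hpr : p ≠ r := by
      rintro rfl
      obtain ⟨v, hv⟩ := (Subgroup.ne_bot_iff_exists_ne_one).mp hVne
      have ho : orderOf (v : G) = p := orderOf_eq_prime (hVexp _ v.2) (fun h => hv (Subtype.ext h))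
      exact hpG (ho ▸ orderOf_dvd_natCard _)
    have h := rho_pow_fixed_field (k := ZMod r) (n := n) hp2 hpq (hne q Fact.out hqr) (hne p hp hpr) Q.isPGroup'
      (ρV.comp inc) α
      (MulEquiv.ext fun y => Subtype.ext (Subtype.ext (by rw [hα, hσ]; rfl)))
      (fun y hy => Subtype.ext (Subtype.ext (hfpf _ (by
        have := hα 1 y
        rw [pow_one, pow_one, hy] at this
        exact this.symm))))
      σV hT
      (fun y => by
        refine LinearMap.ext fun v => Additive.toMul.injective (Subtype.ext ?_)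
        obtain ⟨v, rfl⟩ := Additive.ofMul.surjective v
        rw [Module.End.mul_apply, Module.End.mul_apply, hσV, MonoidHom.comp_apply, MonoidHom.comp_apply, hρV]
        have h2 := hρV (inc (α y)) (Additive.toMul (σV (Additive.ofMul v)))
        rw [ofMul_toMul] at h2
        rw [h2, hσV, map_mul, map_mul, map_inv]
        have h3 := hα 1 y
        rw [pow_one, pow_one] at h3
        show σ ((y : D) : G) * σ (v : G) * (σ ((y : D) : G))⁻¹ = _
        rw [← h3]; rfl)
      hTfpf ⟨a, ha⟩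
    rw [hC, Subgroup.mem_centralizer_iff]
    intro v hv
    have hv' : (a : G) * ((a : G)⁻¹ * τ (a : G) * v * ((a : G)⁻¹ * τ (a : G))⁻¹) * (a : G)⁻¹ = (a : G) * v * (a : G)⁻¹ := by
      have h1 := congrArg (fun F : Module.End (ZMod r) (Additive V) =>
        ((Additive.toMul (F (Additive.ofMul (⟨v, hv⟩ : V))) : V) : G)) h
      simp only [MonoidHom.comp_apply, hρV] at h1
      have h3 := hα (p ^ n) ⟨a, ha⟩
      calc (a : G) * ((a : G)⁻¹ * τ (a : G) * v * ((a : G)⁻¹ * τ (a : G))⁻¹) * (a : G)⁻¹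
          = τ (a : G) * v * (τ (a : G))⁻¹ := by group
        _ = _ := by rw [hτ, ← h3]; exact h1
    rw [mul_left_inj, mul_right_inj, mul_inv_eq_iff_eq_mul] at hv'
    exact hv'.symm
  -- every Sylow subgroup of `D` for a prime other than `r` centralizes `V`
  obtain ⟨R, hR⟩ : ∃ R : Sylow r D, True := ⟨Classical.arbitrary _, trivial⟩
  have hRker : f.ker ≤ (R : Subgroup D) := hkerr.le_sylow_of_normal R
  haveI hRn : (R : Subgroup D).Normal := by
    have := hsylow r R
    rwa [sup_eq_left.mpr hRker] at this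
  let J : Subgroup G := (R : Subgroup D).map D.subtype ⊔ C
  haveI : ((R : Subgroup D).map D.subtype).Normal := by
    haveI := Sylow.characteristic_of_normal R hRn
    infer_instance
  haveI := hCn
  have hE : ∀ y : D, (y : G)⁻¹ * τ y ∈ J := by
    let E : Subgroup G :=
      { carrier := {g | g⁻¹ * τ g ∈ J}
        one_mem' := by simp
        mul_mem' := fun {a b} (ha : a⁻¹ * τ a ∈ J) (hb : b⁻¹ * τ b ∈ J) => by
          show (a * b)⁻¹ * τ (a * b) ∈ J
          rw [map_mul, show (a * b)⁻¹ * (τ a * τ b) = b⁻¹ * (a⁻¹ * τ a) * b⁻¹⁻¹ * (b⁻¹ * τ b) by group]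
          exact mul_mem ((inferInstance : J.Normal).conj_mem _ ha _) hb
        inv_mem' := fun {a} (ha : a⁻¹ * τ a ∈ J) => by
          show a⁻¹⁻¹ * τ a⁻¹ ∈ J
          rw [map_inv, show a⁻¹⁻¹ * (τ a)⁻¹ = a * (a⁻¹ * τ a)⁻¹ * a⁻¹ by group]
          exact (inferInstance : J.Normal).conj_mem _ (inv_mem ha) _ }
    suffices hEtop : E.comap D.subtype = ⊤ from fun y => hEtop.ge (Subgroup.mem_top y)
    refine Cfsg.Agent.Cores.eq_top_of_forall_sylow_le _ fun q hq => ?_
    haveI := Fact.mk hq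
    by_cases hpq : p = q
    · obtain ⟨P⟩ := (inferInstance : Nonempty (Sylow q D))
      refine ⟨P, ?_⟩
      obtain ⟨k, hk⟩ := IsPGroup.iff_card.mp P.isPGroup'
      have hbot : (P : Subgroup D) = ⊥ := by
        rw [← Subgroup.card_eq_one, hk]
        rcases k with _ | k
        · exact pow_zero q
        · exact absurd ((hpq ▸ dvd_pow_self q k.succ_ne_zero : p ∣ q ^ (k + 1)).trans
            (hk ▸ Subgroup.card_subgroup_dvd_card _)) hcopD
      rw [hbot]; exact bot_le
    by_cases hqr : q = r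
    · subst hqr
      refine ⟨R, fun a ha => ?_⟩
      haveI := Sylow.characteristic_of_normal R hRn
      show (a : G)⁻¹ * τ a ∈ J
      refine Subgroup.mem_sup_left ⟨a⁻¹ * (σD ^ p ^ n) a, mul_mem (inv_mem ha) (char_invariant _ _ ha), ?_⟩
      show ((a⁻¹ * (σD ^ p ^ n) a : D) : G) = _
      rw [Subgroup.coe_mul, hσDi]; rfl
    obtain ⟨Q, hQ⟩ := exists_invariant_sylow (q := q) σD hσD hcopD
    exact ⟨Q, fun a ha => Subgroup.mem_sup_right (hact q hqr hpq Q hQ a ha)⟩
  have hDJ : D ≤ J := hDgen.trans ((Subgroup.closure_le _).mpr (by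
    rintro _ ⟨d, hd, rfl⟩; exact hE ⟨d, hd⟩))
  have hcent : ∀ (q : ℕ) [Fact q.Prime], q ≠ r → ∀ (Q : Sylow q D), ∀ a ∈ (Q : Subgroup D), (a : G) ∈ C := by
    intro q _ hqr Q a ha
    obtain ⟨x, hx, c, hc, hxc⟩ := Subgroup.mem_sup_of_normal_right.mp (hDJ a.2)
    obtain ⟨x', hx', rfl⟩ := hx
    obtain ⟨k, hk⟩ := Q.isPGroup' ⟨a, ha⟩
    obtain ⟨l, hl⟩ := R.isPGroup' ⟨x', hx'⟩
    have e1 : ((a : G) : G ⧸ C) = (D.subtype x' : G) := by
      rw [← hxc, QuotientGroup.mk_mul, (QuotientGroup.eq_one_iff c).mpr hc, mul_one]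
    have d1 : orderOf ((a : G) : G ⧸ C) ∣ q ^ k := orderOf_dvd_of_pow_eq_one (by
      rw [← QuotientGroup.mk_pow, show (a : G) ^ q ^ k = 1 from by simpa using congrArg (fun z : (Q : Subgroup D) => ((z : D) : G)) hk]
      rfl)
    have d2 : orderOf ((a : G) : G ⧸ C) ∣ r ^ l := orderOf_dvd_of_pow_eq_one (by
      rw [e1, ← QuotientGroup.mk_pow, show (D.subtype x' : G) ^ r ^ l = 1 from by
        simpa using congrArg (fun z : (R : Subgroup D) => ((z : D) : G)) hl]
      rfl)
    rw [← QuotientGroup.eq_one_iff, ← orderOf_eq_one_iff, ← Nat.dvd_one,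
      ← (Nat.Coprime.pow k l ((Nat.coprime_primes Fact.out hr).mpr hqr) : Nat.gcd (q ^ k) (r ^ l) = 1)]
    exact Nat.dvd_gcd d1 d2
  refine (Group.isNilpotent_of_finite_tfae.out 0 3 rfl rfl).mpr ?_
  intro q hq Q
  by_cases hqr : q = r
  · subst hqr
    have := hsylow q Q
    rwa [sup_eq_left.mpr (hkerr.le_sylow_of_normal Q)] at this
  refine ⟨fun a ha g => ?_⟩
  obtain ⟨b, hb, v, hv, hbv⟩ := Subgroup.mem_sup_of_normal_right.mp
    ((hsylow q Q).conj_mem a (Subgroup.mem_sup_left ha) g)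
  have hcomm : Commute b v := Subtype.ext
    ((Subgroup.mem_centralizer_iff.mp (hcent q hqr Q b hb) v ((hfker v).mp hv)).symm)
  obtain ⟨k, hk⟩ := Q.isPGroup' ⟨a, ha⟩
  obtain ⟨l, hl⟩ := Q.isPGroup' ⟨b, hb⟩
  have e1 : (g * a * g⁻¹) ^ q ^ (k + l) = 1 := by
    rw [conj_pow, pow_add, pow_mul, show a ^ q ^ k = 1 from congrArg Subtype.val hk, one_pow, mul_one, mul_inv_cancel]
  have e2 : b ^ q ^ (k + l) = 1 := by
    rw [pow_add, mul_comm, pow_mul, show b ^ q ^ l = 1 from congrArg Subtype.val hl, one_pow]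
  rw [← hbv, hcomm.mul_pow, e2, one_mul] at e1
  have hv1 : v = 1 := by
    rw [← orderOf_eq_one_iff, ← Nat.dvd_one,
      ← (Nat.Coprime.pow_left (k + l) ((Nat.coprime_primes Fact.out hr).mpr hqr) : Nat.gcd (q ^ (k + l)) r = 1)]
    exact Nat.dvd_gcd (orderOf_dvd_of_pow_eq_one e1)
      (orderOf_dvd_of_pow_eq_one (Subtype.ext (hVexp _ ((hfker v).mp hv))))
  rw [← hbv, hv1, mul_one]
  exact hb

theorem mem_lift_lowerCentralSeries {G H : Type*} [Group G] [Group H] (f : G →* H) (hf : Function.Surjective f)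
    {A B : Subgroup H} {k : ℕ} (h : A.lowerCentralSeries k ≤ B) :
    (A.comap f).lowerCentralSeries k ≤ B.comap f := by
  rw [← Subgroup.map_le_iff_le_comap, Subgroup.map_lowerCentralSeries, Subgroup.map_comap_eq_self_of_surjective hf]
  exact h

/-- A solvable group with a fixed-point-free automorphism of order dividing `p^n`, `p` odd, has Fitting height
at most `n`. -/
theorem exists_series {p : ℕ} [Fact p.Prime] (hp2 : p ≠ 2) :
    ∀ (n : ℕ) (G : Type u) [Group G] [Finite G] [Group.IsSolvable G] (σ : MulAut G), σ ^ p ^ n = 1 →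
      (∀ g, σ g = g → g = 1) →
      ∃ F : Fin (n + 1) → Subgroup G, F 0 = ⊥ ∧ F (Fin.last n) = ⊤ ∧ Monotone F ∧ (∀ i, (F i).Normal) ∧
        ∀ i : Fin n, ∃ k : ℕ, (F i.succ).lowerCentralSeries k ≤ F i.castSucc := by
  intro n
  induction n with
  | zero =>
    intro G _ _ _ σ hσ hfpf
    have hbot : (⊤ : Subgroup G) = ⊥ := by
      refine (Subgroup.eq_bot_iff_forall _).mpr fun g _ => hfpf g ?_
      rw [pow_zero, pow_one] at hσ
      rw [hσ]; rfl
    exact ⟨fun _ => ⊥, rfl, hbot.symm, monotone_const, fun _ => inferInstance, fun i => i.elim0⟩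
  | succ n ih =>
    intro G _ _ _ σ hσ hfpf
    have hnil := isNilpotent_commAut hp2 σ hσ hfpf
    set D := commAut (σ ^ p ^ n) with hD
    have hDσ : ∀ y ∈ D, σ y ∈ D := commAut_invariant _ σ fun g => by
      rw [← MulAut.mul_apply, ← pow_succ, pow_succ', MulAut.mul_apply]
    have hmap : D.map σ.toMonoidHom = D := Subgroup.eq_of_le_of_card_ge
      (by rintro _ ⟨y, hy, rfl⟩; exact hDσ y hy) (by rw [Subgroup.card_map_of_injective σ.injective])
    let σq : MulAut (G ⧸ D) := QuotientGroup.congr D D σ hmap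
    have hσq : ∀ (i : ℕ) (g : G), (σq ^ i) (g : G ⧸ D) = (((σ ^ i) g : G) : G ⧸ D) := by
      intro i g
      induction i with
      | zero => rfl
      | succ i ih' => rw [pow_succ', MulAut.mul_apply, ih', pow_succ', MulAut.mul_apply]; rfl
    have hσq1 : σq ^ p ^ n = 1 := by
      refine MulEquiv.ext fun u => ?_
      induction u using QuotientGroup.induction_on with
      | H g => rw [hσq, MulAut.one_apply, eq_comm, QuotientGroup.eq]; exact mem_commAut _ g
    obtain ⟨F, hF0, hFn, hFm, hFN, hFk⟩ := ih (G ⧸ D) σq hσq1 (fpf_quotient σ hσ hfpf D hDσ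
      (fun h => not_dvd_card σ hσ hfpf (h.trans (Subgroup.card_subgroup_dvd_card D))) σq
      fun g => by simpa using hσq 1 g)
    let f := QuotientGroup.mk' D
    refine ⟨Fin.cons ⊥ fun i => (F i).comap f, rfl, ?_, ?_, ?_, ?_⟩
    · rw [← Fin.succ_last, Fin.cons_succ, hFn, Subgroup.comap_top]
    · intro i j hij
      induction i using Fin.cases with
      | zero => simp
      | succ i =>
        induction j using Fin.cases with
        | zero => simp at hij
        | succ j => simp only [Fin.cons_succ]; exact Subgroup.comap_mono (hFm (Fin.succ_le_succ_iff.mp hij))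
    · intro i
      induction i using Fin.cases with
      | zero => simp
      | succ i => simp only [Fin.cons_succ]; exact (hFN i).comap f
    · intro i
      induction i using Fin.cases with
      | zero =>
        obtain ⟨k, hk⟩ := (Subgroup.isNilpotent_iff_lowerCentralSeries _).mp hnil
        refine ⟨k, ?_⟩
        rw [Fin.cons_succ, Fin.castSucc_zero, Fin.cons_zero, hF0, MonoidHom.comap_bot, QuotientGroup.ker_mk']
        exact hk.le
      | succ i =>
        obtain ⟨k, hk⟩ := hFk i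
        refine ⟨k, ?_⟩
        rw [Fin.cons_succ, Fin.castSucc_succ, Fin.cons_succ]
        exact mem_lift_lowerCentralSeries f (QuotientGroup.mk'_surjective D) hk

end Cfsg.Agent.FPFPower
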