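/-
An irreducible faithful group of class two with a compatible operator of order dividing `2^t`, semiregular on the
central quotient, whose norm vanishes: the degree is `2^t - 1` and the operator is cyclic.
-/
import Mathlib
import Cfsg.Agent.FPFPower.Diag
import Cfsg.Agent.S4282

set_option autoImplicit false
set_option maxHeartbeats 1000000

namespace Cfsg.Agent.FPFPower

open Module Finset
open Cfsg.Agent.PrimeFPF (sq_le_centralizer pow_intertwine)

variable {K W : Type*} [Field K] [AddCommGroup W] [Module K W] {P : Type*} [Group P]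

theorem plane_count [IsAlgClosed K] [FiniteDimensional K W] [Nontrivial W] [Finite P]
    (ρ : P →* Module.End K W) (hinj : Function.Injective ρ) (R : Subgroup P) [R.Normal] (σ : MulAut P)
    (T : Module.End K W) {t : ℕ} (ht : 1 ≤ t) (hPK : (Nat.card P : K) ≠ 0) (hPodd : Odd (Nat.card P))
    (hT : T ^ 2 ^ t = 1) (hTσ : ∀ x, T * ρ x = ρ (σ x) * T) (hsum : ∑ k ∈ range (2 ^ t), T ^ k = 0)
    (hσr : σ ^ 2 ^ t = 1) (hRσ : R.map σ.toMonoidHom = R)
    (hscal : ∀ z ∈ R, ∃ c : K, ρ z = c • 1)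
    (h2 : ∀ x y : P, x * y * x⁻¹ * y⁻¹ ∈ R)
    (hcl : ∀ x y g : P, g * (x * y * x⁻¹ * y⁻¹) = x * y * x⁻¹ * y⁻¹ * g)
    (hsep : ∀ w ∉ R, ∃ s, ρ (s * w * s⁻¹ * w⁻¹) ≠ 1)
    (hσ : ∀ i, 0 < i → i < 2 ^ t → ∀ x, x⁻¹ * (σ ^ i) x ∈ R → x ∈ R)
    (hirr : ∀ b : Module.End K W, (∀ x, Commute b (ρ x)) → ∃ c : K, b = c • 1)
    (hne : R ≠ ⊤) :
    finrank K W ^ 2 = R.index ∧ finrank K W + 1 = 2 ^ t ∧
      ∀ c : ℕ → K, ∑ k ∈ range (finrank K W), c k • T ^ k = 0 → ∀ k < finrank K W, c k = 0 := by
  classical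
  have hN1 : 1 < 2 ^ t := Nat.one_lt_two_pow (by omega)
  obtain ⟨hd2, hC⟩ := centralizer_le_semiregular ρ R σ T hN1 hPK hT hTσ hσr hRσ hscal h2 hcl hsep hσ hirr hne
  refine ⟨hd2, ?_⟩
  set d := finrank K W with hd
  have hd0 : 0 < d := Module.finrank_pos
  have hd1 : d ≠ 1 := fun h => hne (Subgroup.index_eq_one.mp (by rw [← hd2, h, one_pow]))
  by_cases h2K : (2 : K) = 0
  · -- characteristic two
    haveI : CharP K 2 := CharTwo.of_one_ne_zero_of_two_eq_zero one_ne_zero h2K
    haveI : Fact (Nat.Prime 2) := ⟨Nat.prime_two⟩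
    have hTu : IsUnit T := IsUnit.of_pow_eq_one hT (by omega)
    let A := Subgroup.zpowers ((σ, hTu.unit) : MulAut P × (Module.End K W)ˣ)
    haveI : Finite A := by
      refine Nat.finite_of_card_ne_zero ?_
      rw [Nat.card_zpowers]
      refine (IsOfFinOrder.orderOf_pos (isOfFinOrder_iff_pow_eq_one.mpr ⟨2 ^ t, by omega, ?_⟩)).ne'
      rw [Prod.pow_mk, hσr, show hTu.unit ^ 2 ^ t = 1 from Units.ext (by simp [hT])]
      rfl
    let φ : A →* MulAut P := (MonoidHom.fst _ _).comp A.subtype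
    haveI : Finite (P ⋊[φ] A) := Finite.of_equiv (P × A) SemidirectProduct.equivProd.symm
    have hinter : ∀ a : A, ∀ y : P, ((a : MulAut P × (Module.End K W)ˣ).2 : Module.End K W) * ρ y =
        ρ (φ a y) * ((a : MulAut P × (Module.End K W)ˣ).2 : Module.End K W) := by
      rintro ⟨a, ha⟩ y
      have hfin : IsOfFinOrder ((σ, hTu.unit) : MulAut P × (Module.End K W)ˣ) :=
        isOfFinOrder_iff_pow_eq_one.mpr ⟨2 ^ t, by omega, by
          rw [Prod.pow_mk, hσr, show hTu.unit ^ 2 ^ t = 1 from Units.ext (by simp [hT])]; rfl⟩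
      obtain ⟨i, rfl⟩ := hfin.mem_powers_iff_mem_zpowers.mpr ha
      show (((σ, hTu.unit) ^ i : MulAut P × (Module.End K W)ˣ).2 : Module.End K W) * _ = ρ (((σ, hTu.unit) ^ i : MulAut P × (Module.End K W)ˣ).1 y) * _
      rw [Prod.pow_fst, Prod.pow_snd, Units.val_pow_eq_pow_val, IsUnit.unit_spec]
      exact pow_intertwine hTσ i y
    let ρU : P ⋊[φ] A →* (Module.End K W)ˣ := SemidirectProduct.lift ρ.toHomUnits
      ((MonoidHom.snd _ _).comp A.subtype) (fun a => MonoidHom.ext fun y => Units.ext (by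
        simp only [MonoidHom.comp_apply, MulEquiv.coe_toMonoidHom, MulAut.conj_apply, MonoidHom.coe_toHomUnits,
          Units.val_mul]
        rw [Units.eq_mul_inv_iff_mul_eq]
        exact (hinter a y).symm))
    let ρG : P ⋊[φ] A →* Module.End K W := (Units.coeHom _).comp ρU
    let x : P ⋊[φ] A := SemidirectProduct.inr ⟨(σ, hTu.unit), Subgroup.mem_zpowers _⟩
    have hρx : ρG x = T := by
      show ((ρU (SemidirectProduct.inr _) : (Module.End K W)ˣ) : Module.End K W) = T
      rw [SemidirectProduct.lift_inr]; rfl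
    have hρl : ∀ y, ρG (SemidirectProduct.inl y) = ρ y := fun y => by
      show ((ρU (SemidirectProduct.inl y) : (Module.End K W)ˣ) : Module.End K W) = ρ y
      rw [SemidirectProduct.lift_inl]; rfl
    have hxpow : x ^ 2 ^ t = 1 := by
      rw [← map_pow, show (⟨(σ, hTu.unit), Subgroup.mem_zpowers _⟩ : A) ^ 2 ^ t = 1 from Subtype.ext (by
        rw [Subgroup.coe_pow, Prod.pow_mk, hσr, show hTu.unit ^ 2 ^ t = 1 from Units.ext (by simp [hT])]; rfl),
        map_one]
    have hconj : ∀ (i : ℕ) (y : P), x ^ i * SemidirectProduct.inl y * (x ^ i)⁻¹ = SemidirectProduct.inl ((σ ^ i) y) := by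
      intro i y
      rw [← map_pow, ← map_inv, ← SemidirectProduct.inl_aut, map_pow]
      rfl
    let QG : Subgroup (P ⋊[φ] A) := (SemidirectProduct.inl : P →* P ⋊[φ] A).range
    haveI : QG.Normal := by
      show ((SemidirectProduct.inl : P →* P ⋊[φ] A).range).Normal
      rw [SemidirectProduct.range_inl_eq_ker_rightHom]; infer_instance
    have hcop : (Nat.card QG).Coprime 2 := by
      rw [← Nat.card_congr (MonoidHom.ofInjective (SemidirectProduct.inl_injective (φ := φ))).toEquiv]
      exact hPodd.coprime_two_right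
    have hZx : ∀ z ∈ R, σ z = z := fun z hz => by
      obtain ⟨c, hc⟩ := hscal z hz
      refine hinj (hTu.mul_right_cancel ?_)
      rw [← hTσ, hc, mul_smul_comm, mul_one, smul_mul_assoc, one_mul]
    have hfix := Cfsg.Agent.S4282.fixed_eq_scalar_add_trace 2 ρG QG x (2 ^ t) (by omega) hxpow hcop
      (R.map SemidirectProduct.inl)
      (by rintro _ ⟨z, hz, rfl⟩ -; rw [hρl]; exact hscal z hz)
      (by
        rintro _ ⟨z, hz, rfl⟩
        have := hconj 1 z
        rw [pow_one, pow_one] at this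
        rw [this, hZx z hz])
      (by
        rintro _ ⟨a, rfl⟩ haZ i hi hiN hfx
        rw [hconj] at hfx
        refine haZ ⟨a, hσ i hi hiN a ?_, rfl⟩
        rw [SemidirectProduct.inl_injective hfx, inv_mul_cancel]
        exact one_mem R)
      (fun f hf => hirr f fun y => (show Commute f (ρ y) from by
        have := hf _ ⟨y, rfl⟩
        rw [hρl] at this
        exact this.symm))
    rw [hρx] at hfix
    have hnorm : (T - 1) ^ (2 ^ t - 1) = 0 := by
      have hpoly := congrArg (Polynomial.aeval T) (Cfsg.Agent.HH.sub_one_pow_pred (F := K) 2 t)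
      simp only [map_pow, map_sub, Polynomial.aeval_X, map_one, map_sum] at hpoly
      rw [hpoly, hsum]
    rcases Cfsg.Agent.HH.finrank_eq_of_fixed (F := K) (V := W) 2 t hN1 (x := T) (xi := ρG x⁻¹) (N := T - 1)
        (by rw [add_sub_cancel])
        (by rw [← hρx, ← map_mul, mul_inv_cancel, map_one]) (by rw [← hρx, ← map_mul, inv_mul_cancel, map_one])
        hnorm
        (fun f hf => hfix f (by rwa [sub_mul, mul_sub, one_mul, mul_one, sub_left_inj] at hf)) with h0 | ⟨hdim, hne2⟩
    · exfalso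
      rw [sub_eq_zero] at h0
      refine hne (eq_top_iff.mpr fun y _ => hσ 1 one_pos hN1 y ?_)
      have h1 := hTσ y
      rw [h0, one_mul, mul_one] at h1
      rw [pow_one, ← hinj h1, inv_mul_cancel]
      exact one_mem R
    · refine ⟨by omega, fun c hc => ?_⟩
      obtain ⟨e, he⟩ : ∃ e, d = e + 1 := ⟨d - 1, by omega⟩
      rw [he] at hc ⊢
      rw [show 2 ^ t - 2 = e by omega] at hne2
      rw [show 2 ^ t - 1 = e + 1 by omega] at hnorm
      exact pow_independent_of_nilpotent hne2 hnorm c hc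
  · -- odd characteristic
    have hNK : ((2 ^ t : ℕ) : K) ≠ 0 := by rw [Nat.cast_pow]; exact pow_ne_zero _ h2K
    have hfpf : ∀ v, T v = v → v = 0 := fun v hv => by
      have h1 := LinearMap.congr_fun hsum v
      have hi : ∀ i : ℕ, (T ^ i) v = v := fun i => by
        induction i with
        | zero => rfl
        | succ i ih => rw [pow_succ, Module.End.mul_apply, hv, ih]
      simp only [LinearMap.sum_apply, hi, Finset.sum_const, Finset.card_range, LinearMap.zero_apply,
        ← Nat.cast_smul_eq_nsmul K] at h1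
      exact (smul_eq_zero.mp h1).resolve_left hNK
    haveI : NeZero ((2 ^ t : ℕ) : K) := ⟨hNK⟩
    obtain ⟨w, hw⟩ := HasEnoughRootsOfUnity.exists_primitiveRoot K (2 ^ t)
    have hlow := sq_le_centralizer hw hNK hT hfpf (centEnd T) fun f hf => mem_centEnd.mpr hf.eq
    have hlow2 := finrank_le_centEnd hNK hT
    rw [← hd] at hlow hlow2
    obtain ⟨s, hs⟩ : ∃ s, 2 ^ t = s + 1 := ⟨2 ^ t - 1, by omega⟩
    rw [hs] at hC hlow
    simp only [Nat.add_sub_cancel] at hC hlow
    have hle : d ≤ s := by nlinarith [Nat.mul_le_mul_left s hC]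
    have hge : s ≤ d := by
      by_contra hlt
      have h1 : d * (s + 1) ≤ s + d ^ 2 := le_trans (Nat.mul_le_mul_right _ hlow2) hC
      nlinarith [Nat.mul_le_mul (show 1 ≤ d - 1 by omega) (show 1 ≤ s - d by omega),
        Nat.sub_add_cancel (show 1 ≤ d by omega), Nat.sub_add_cancel (show d ≤ s by omega)]
    have hds : d = s := le_antisymm hle hge
    refine ⟨by omega, pow_independent_of_centEnd hNK hT (show finrank K (centEnd T) ≤ d from ?_)⟩
    rw [hds] at hC ⊢
    nlinarith

end Cfsg.Agent.FPFPower
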