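/-
An automorphism of order dividing `2^n` of a `q`-group of class two, with a compatible operator with vanishing
norm on a faithful module: for each central character, the automorphism is trivial outside a plane.
-/
import Mathlib
import Cfsg.Agent.FPFPower.Spectral
import Cfsg.Agent.FPFPower.PlaneCount

set_option autoImplicit false
set_option maxHeartbeats 2000000

namespace Cfsg.Agent.FPFPower

open Module Finset
open scoped commutatorElement
open Cfsg.Agent.PrimeFPF (pow_intertwine)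

variable {K : Type*} [Field K] {W : Type*} [AddCommGroup W] [Module K W]

theorem prime_pow_eq_prime_of_succ {q a t : ℕ} (hq : q.Prime) (hq2 : q ≠ 2) (ha : q ^ a + 1 = 2 ^ t) (ha0 : 0 < a) :
    a = 1 := by
  have hodd : Odd q := hq.odd_of_ne_two hq2
  have h3 : 3 ≤ q := by have := hq.two_le; omega
  rcases Nat.even_or_odd a with ⟨k, hk⟩ | haodd
  · exfalso
    have h4 : q ^ a % 4 = 1 := by
      obtain ⟨l, hl⟩ := hodd.pow (n := k)
      rw [hk, pow_add, hl, show (2 * l + 1) * (2 * l + 1) = 4 * (l * l + l) + 1 by ring]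
      omega
    have h5 : 2 ≤ t := by
      by_contra h
      have : 2 ^ t ≤ 2 ^ 1 := Nat.pow_le_pow_right (by norm_num) (by omega)
      have := Nat.le_self_pow (show a ≠ 0 by omega) q
      omega
    have h6 : 4 ∣ 2 ^ t := by rw [show (4 : ℕ) = 2 ^ 2 by norm_num]; exact Nat.pow_dvd_pow 2 h5
    omega
  · have hgeom : (∑ i ∈ range a, (-(q : ℤ)) ^ i) * (-(q : ℤ) - 1) = (-(q : ℤ)) ^ a - 1 := geom_sum_mul _ _
    rw [haodd.neg_pow] at hgeom
    set G := ∑ i ∈ range a, (-(q : ℤ)) ^ i with hG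
    have hGodd : Odd G := by
      have h1 : ∀ i, (-(q : ℤ)) ^ i % 2 = 1 := fun i =>
        Int.odd_iff.mp ((show Odd (q : ℤ) by exact_mod_cast hodd).neg.pow)
      rw [hG, Int.odd_iff, Finset.sum_int_mod, Finset.sum_congr rfl fun i _ => h1 i, Finset.sum_const,
        Finset.card_range, nsmul_eq_mul, mul_one]
      have := Nat.odd_iff.mp haodd
      omega
    have hmul : G * ((q : ℤ) + 1) = ((2 ^ t : ℕ) : ℤ) := by rw [← ha]; push_cast; linarith
    have habs : G.natAbs ∣ 2 ^ t := by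
      have := Int.natAbs_mul G ((q : ℤ) + 1)
      rw [hmul, Int.natAbs_natCast] at this
      exact Dvd.intro _ this.symm
    obtain ⟨k, -, hk⟩ := (Nat.dvd_prime_pow Nat.prime_two).mp habs
    have hk0 : k = 0 := by
      by_contra h
      have h1 : Even G.natAbs := by rw [hk]; exact (Nat.even_pow.mpr ⟨even_two, h⟩)
      have h2 : Odd G.natAbs := Int.natAbs_odd.mpr hGodd
      exact (Nat.not_even_iff_odd.mpr h2) h1
    rw [hk0, pow_zero] at hk
    have hG1 : G = 1 := by
      rcases Int.natAbs_eq G with h | h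
      · rw [h, hk]; rfl
      · exfalso
        rw [hk] at h
        rw [h] at hmul
        push_cast at hmul
        have : (0 : ℤ) < 2 ^ t := by positivity
        omega
    rw [hG1, one_mul, ← ha] at hmul
    push_cast at hmul
    have hq1 : q ^ 1 = q ^ a := by rw [pow_one]; exact_mod_cast (by linarith : (q : ℤ) = (q : ℤ) ^ a)
    exact (Nat.pow_right_injective hq.two_le hq1).symm

theorem norm_restrict {Q : Type*} [Group Q] (ρ : Q →* Module.End K W) (α : MulAut Q) (T : Module.End K W)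
    (hTα : ∀ x, T * ρ x = ρ (α x) * T) (Z : Subgroup Q) [Finite Z] (hZ : ∀ y ∈ Z, α y ∈ Z) (χ : Q → K) {P M : ℕ}
    (hP : 0 < P) (hdist : ∀ i, 0 < i → i < P → ∃ z ∈ Z, χ ((α ^ i) z) ≠ χ z)
    (hper : ∀ v ∈ wt ρ Z χ, (T ^ P) v ∈ wt ρ Z χ) {w : W} (hw : w ∈ wt ρ Z χ)
    (hsum : ∑ k ∈ range (P * M), (T ^ k) w = 0) : ∑ m ∈ range M, ((T ^ P) ^ m) w = 0 := by
  classical
  set v := ∑ m ∈ range M, ((T ^ P) ^ m) w with hv
  have hPm : ∀ m : ℕ, ((T ^ P) ^ m) w ∈ wt ρ Z χ := fun m => by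
    induction m with
    | zero => simpa
    | succ m ih => rw [pow_succ', Module.End.mul_apply]; exact hper _ ih
  have hvU : v ∈ wt ρ Z χ := Submodule.sum_mem _ fun m _ => hPm m
  have hkey : ∀ M', ∑ k ∈ range (P * M'), (T ^ k) w = ∑ i ∈ range P, (T ^ i) (∑ m ∈ range M', ((T ^ P) ^ m) w) := by
    intro M'
    induction M' with
    | zero => simp
    | succ M' ih =>
      rw [Nat.mul_succ, Finset.sum_range_add, ih, Finset.sum_range_succ]
      simp only [map_add, Finset.sum_add_distrib]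
      congr 1
      refine Finset.sum_congr rfl fun i _ => ?_
      rw [← Module.End.mul_apply, ← pow_mul, ← pow_add, add_comm]
  rw [hkey M] at hsum
  have h := eq_zero_of_sum_eq_zero ρ Z (fun i y => χ ((α ^ i).symm y)) (range P) ?_ (fun i => (T ^ i) v) ?_ hsum
    0 (mem_range.mpr hP)
  · simpa using h
  · intro i hi j hj hij
    wlog hlt : i < j generalizing i j
    · obtain ⟨z, hz, hne⟩ := this j hj i hi (Ne.symm hij) (by omega)
      exact ⟨z, hz, Ne.symm hne⟩
    rw [mem_range] at hj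
    obtain ⟨z, hz, hne⟩ := hdist (j - i) (by omega) (by omega)
    refine ⟨(α ^ j) z, pow_apply_mem α hZ j hz, ?_⟩
    rw [MulEquiv.symm_apply_apply, show (α ^ j) z = (α ^ i) ((α ^ (j - i)) z) by
      rw [← MulAut.mul_apply, ← pow_add, show i + (j - i) = j by omega], MulEquiv.symm_apply_apply]
    exact hne
  · intro i _
    refine mem_wt.mpr fun y hy => ?_
    have hy' : (α ^ i).symm y ∈ Z := symm_mem (α ^ i) (fun z hz => pow_apply_mem α hZ i hz) hy
    have h1 := pow_intertwine' hTα i ((α ^ i).symm y) v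
    rw [MulEquiv.apply_symm_apply, mem_wt.mp hvU _ hy', map_smul] at h1
    exact h1.symm

variable {Q : Type*} [Group Q] [Finite Q] {q n : ℕ}

theorem two_ne_of_weight (hq : q.Prime) (hq2 : q ≠ 2) (hQ : IsPGroup q Q) : ∀ {x : K}, (∃ z : Q, x ^ orderOf z = 1) →
    x * x = 1 → x = 1 := by
  rintro x ⟨z, hz⟩ h2
  haveI := Fact.mk hq
  obtain ⟨k, hk⟩ := hQ z
  obtain ⟨l, hl⟩ : Odd (orderOf z) :=
    ((hq.odd_of_ne_two hq2).pow (n := k)).of_dvd_nat (orderOf_dvd_of_pow_eq_one hk)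
  rwa [hl, pow_succ, pow_mul, pow_two, h2, one_pow, one_mul] at hz

/-- The involution `α ^ 2 ^ (n - 1)` fixes the centre. -/
theorem center_fixed [IsAlgClosed K] [FiniteDimensional K W] (hn : 1 ≤ n) (hQK : (Nat.card Q : K) ≠ 0)
    (ρ : Q →* Module.End K W) (hinj : Function.Injective ρ) (α : MulAut Q) (hα : α ^ 2 ^ n = 1)
    (T : Module.End K W) (hT : T ^ 2 ^ n = 1) (hTα : ∀ x, T * ρ x = ρ (α x) * T)
    (hsum : ∑ k ∈ range (2 ^ n), T ^ k = 0) : ∀ z ∈ Subgroup.center Q, (α ^ 2 ^ (n - 1)) z = z := by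
  classical
  set Z := Subgroup.center Q with hZdef
  have hcenα : ∀ y ∈ Z, α y ∈ Z := by
    intro y hy
    refine Subgroup.mem_center_iff.mpr fun g => ?_
    obtain ⟨g', rfl⟩ := α.surjective g
    rw [← map_mul, ← map_mul, Subgroup.mem_center_iff.mp hy g']
  intro z hz
  by_contra hne
  have hz₀ : z⁻¹ * (α ^ 2 ^ (n - 1)) z ∈ Z := mul_mem (inv_mem hz) (pow_apply_mem α hcenα _ hz)
  obtain ⟨u, hu⟩ : ∃ u, ρ (z⁻¹ * (α ^ 2 ^ (n - 1)) z) u ≠ u := by
    by_contra h
    push Not at h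
    exact hne (inv_mul_eq_one.mp (hinj (LinearMap.ext fun u => by rw [h, map_one, Module.End.one_apply]))).symm
  obtain ⟨χ, w, -, hw0, hw, hχ⟩ := exists_weight ρ Z ⊤ (fun _ _ _ _ => trivial)
    (fun a _ b hb v _ => by
      rw [← Module.End.mul_apply, ← map_mul, Subgroup.mem_center_iff.mp hb a, map_mul, Module.End.mul_apply])
    hz₀ (pow_card_eq_one' (x := z⁻¹ * (α ^ 2 ^ (n - 1)) z)) hQK ⟨u, trivial, hu⟩
  obtain ⟨j, hj, hPj, hdist⟩ := exists_period Nat.prime_two α hα Z hcenα χ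
  rcases Nat.lt_or_ge (n - 1) j with hlt | hle
  · have hjn : j = n := by omega
    subst hjn
    have h := norm_restrict ρ α T hTα Z hcenα χ (P := 2 ^ j) (M := 1) (pow_pos (by norm_num) j) hdist
      (fun v hv => by rw [hT]; exact hv) hw (by
        rw [mul_one]
        have := LinearMap.congr_fun hsum w
        rwa [LinearMap.sum_apply, LinearMap.zero_apply] at this)
    rw [Finset.sum_range_one, pow_zero, Module.End.one_apply] at h
    exact hw0 h
  · apply hχ
    have h1 : ∀ k : ℕ, ∀ y ∈ Z, χ (((α ^ 2 ^ j) ^ k) y) = χ y := by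
      intro k
      induction k with
      | zero => simp
      | succ k ih => intro y hy; rw [pow_succ, MulAut.mul_apply, ih _ (pow_apply_mem α hcenα _ hy), hPj y hy]
    have h2 : χ ((α ^ 2 ^ (n - 1)) z) = χ z := by
      have := h1 (2 ^ (n - 1 - j)) z hz
      rwa [← pow_mul, ← pow_add, show j + (n - 1 - j) = n - 1 by omega] at this
    rw [char_mul hw hw0 (inv_mem hz) (pow_apply_mem α hcenα _ hz), h2, ← char_mul hw hw0 (inv_mem hz) hz,
      inv_mul_cancel, char_one hw hw0]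

/-- The radical of the commutator form of a central character. -/
def radical (ρ : Q →* Module.End K W) (χ : Q → K) (hcl : ∀ a b : Q, ⁅a, b⁆ ∈ Subgroup.center Q) {w : W}
    (hw : w ∈ wt ρ (Subgroup.center Q) χ) (hw0 : w ≠ 0) : Subgroup Q where
  carrier := {a | ∀ b, χ ⁅a, b⁆ = 1}
  one_mem' := fun b => by rw [commutatorElement_one_left, char_one hw hw0]
  mul_mem' := fun {a b} ha hb c => by
    have h' := Subgroup.mem_center_iff.mp (hcl b c) (c * a⁻¹ * c⁻¹)
    have e : ⁅a * b, c⁆ = ⁅a, c⁆ * ⁅b, c⁆ := by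
      calc ⁅a * b, c⁆ = a * (⁅b, c⁆ * (c * a⁻¹ * c⁻¹)) := by simp only [commutatorElement_def]; group
        _ = a * ((c * a⁻¹ * c⁻¹) * ⁅b, c⁆) := by rw [h']
        _ = ⁅a, c⁆ * ⁅b, c⁆ := by simp only [commutatorElement_def]; group
    rw [e, char_mul hw hw0 (hcl a c) (hcl b c), ha c, hb c, mul_one]
  inv_mem' := fun {a} ha c => by
    have h' := Subgroup.mem_center_iff.mp (hcl a c) (c * a * c⁻¹)
    have e : ⁅a⁻¹, c⁆ * ⁅a, c⁆ = 1 := by
      calc ⁅a⁻¹, c⁆ * ⁅a, c⁆ = a⁻¹ * (c * a * c⁻¹) * ⁅a, c⁆ := by simp only [commutatorElement_def]; group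
        _ = a⁻¹ * (⁅a, c⁆ * (c * a * c⁻¹)) := by rw [mul_assoc, h']
        _ = 1 := by simp only [commutatorElement_def]; group
    have h2 := char_mul hw hw0 (hcl a⁻¹ c) (hcl a c)
    rw [e, char_one hw hw0, ha c, mul_one] at h2
    exact h2.symm

theorem mem_radical {ρ : Q →* Module.End K W} {χ : Q → K} {hcl : ∀ a b : Q, ⁅a, b⁆ ∈ Subgroup.center Q} {w : W}
    {hw : w ∈ wt ρ (Subgroup.center Q) χ} {hw0 : w ≠ 0} {a : Q} :
    a ∈ radical ρ χ hcl hw hw0 ↔ ∀ b, χ ⁅a, b⁆ = 1 := Iff.rfl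

/-- Either the involution is trivial on the form of `χ`, or the automorphism is trivial outside a plane. -/
theorem plane [IsAlgClosed K] [FiniteDimensional K W] [Fact q.Prime] (hq2 : q ≠ 2) (hn : 1 ≤ n) (hQ : IsPGroup q Q)
    (hqK : (q : K) ≠ 0) (hcl : ∀ a b : Q, ⁅a, b⁆ ∈ Subgroup.center Q) (ρ : Q →* Module.End K W)
    (hinj : Function.Injective ρ) (α : MulAut Q) (hα : α ^ 2 ^ n = 1) (T : Module.End K W) (hT : T ^ 2 ^ n = 1)
    (hTα : ∀ x, T * ρ x = ρ (α x) * T) (hsum : ∑ k ∈ range (2 ^ n), T ^ k = 0) (χ : Q → K) {w : W}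
    (hw : w ∈ wt ρ (Subgroup.center Q) χ) (hw0 : w ≠ 0) :
    (∀ y, y⁻¹ * (α ^ 2 ^ (n - 1)) y ∈ radical ρ χ hcl hw hw0) ∨
      ∃ j, j + 2 ≤ n ∧ q + 1 = 2 ^ (n - j) ∧
        (∀ z ∈ Subgroup.center Q, χ ((α ^ 2 ^ j) z) = χ z) ∧
        ∃ P : Subgroup Q, radical ρ χ hcl hw hw0 ≤ P ∧ (radical ρ χ hcl hw hw0).relIndex P = q ^ 2 ∧
          ∀ y, y⁻¹ * (α ^ 2 ^ j) y ∈ P := by
  classical
  haveI := Fintype.ofFinite Q
  have hq : q.Prime := Fact.out
  have hqodd : Odd q := hq.odd_of_ne_two hq2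
  have hQodd : Odd (Nat.card Q) := by
    obtain ⟨k, hk⟩ := IsPGroup.iff_card.mp hQ
    rw [hk]; exact hqodd.pow
  have hQK : (Nat.card Q : K) ≠ 0 := by
    obtain ⟨k, hk⟩ := IsPGroup.iff_card.mp hQ
    rw [hk, Nat.cast_pow]; exact pow_ne_zero _ hqK
  set Z := Subgroup.center Q with hZdef
  set R := radical ρ χ hcl hw hw0 with hRdef
  have hZc : ∀ z ∈ Z, ∀ g : Q, g * z = z * g := fun z hz => Subgroup.mem_center_iff.mp hz
  have hZR : Z ≤ R := fun z hz b => by
    rw [commutatorElement_eq_one_iff_mul_comm.mpr (hZc z hz b).symm, char_one hw hw0]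
  have hcenα : ∀ y ∈ Z, α y ∈ Z := by
    intro y hy
    refine Subgroup.mem_center_iff.mpr fun g => ?_
    obtain ⟨g', rfl⟩ := α.surjective g
    rw [← map_mul, ← map_mul, hZc y hy g']
  set J := α ^ 2 ^ (n - 1) with hJdef
  have hJZ : ∀ z ∈ Z, J z = z := center_fixed hn hQK ρ hinj α hα T hT hTα hsum
  have hJ2 : ∀ y, J (J y) = y := fun y => by
    rw [hJdef, ← MulAut.mul_apply, ← pow_add, ← two_mul, ← pow_succ', Nat.sub_add_cancel hn, hα, MulAut.one_apply]
  have hχmul : ∀ {a b : Q}, a ∈ Z → b ∈ Z → χ (a * b) = χ a * χ b := fun ha hb => char_mul hw hw0 ha hb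
  have hχone : ∀ {z : Q}, z ∈ Z → χ z * χ z = 1 → χ z = 1 := fun {z} hz h =>
    two_ne_of_weight hq hq2 hQ ⟨z, by rw [← char_pow hw hw0 hz, pow_orderOf_eq_one, char_one hw hw0]⟩ h
  have hmulL : ∀ a b c : Q, χ ⁅a * b, c⁆ = χ ⁅a, c⁆ * χ ⁅b, c⁆ := by
    intro a b c
    rw [← hχmul (hcl a c) (hcl b c)]
    congr 1
    calc ⁅a * b, c⁆ = a * (⁅b, c⁆ * (c * a⁻¹ * c⁻¹)) := by simp only [commutatorElement_def]; group
      _ = a * ((c * a⁻¹ * c⁻¹) * ⁅b, c⁆) := by rw [hZc _ (hcl b c) (c * a⁻¹ * c⁻¹)]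
      _ = ⁅a, c⁆ * ⁅b, c⁆ := by simp only [commutatorElement_def]; group
  have hswap : ∀ a b : Q, χ ⁅a, b⁆ * χ ⁅b, a⁆ = 1 := fun a b => by
    rw [← hχmul (hcl a b) (hcl b a), ← commutatorElement_inv a b, mul_inv_cancel, char_one hw hw0]
  have hZkill : ∀ z ∈ Z, ∀ b, χ ⁅z, b⁆ = 1 := fun z hz b => (hZR hz) b
  -- the inverted part
  let P0 : Subgroup Q :=
    { carrier := {a | a * J a ∈ Z}
      one_mem' := by simp
      mul_mem' := fun {a b} (ha : a * J a ∈ Z) (hb : b * J b ∈ Z) => by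
        show a * b * J (a * b) ∈ Z
        have h1 := hcl b (J a)
        have e : a * b * J (a * b) = (a * (⁅b, J a⁆ * J a)) * (b * J b) := by
          rw [map_mul, commutatorElement_def]; group
        rw [e, ← hZc _ h1 (J a), ← mul_assoc a]
        exact mul_mem (mul_mem ha h1) hb
      inv_mem' := fun {a} (ha : a * J a ∈ Z) => by
        show a⁻¹ * J a⁻¹ ∈ Z
        have e : a⁻¹ * J a⁻¹ = a⁻¹ * ((a * J a)⁻¹ * a) := by rw [map_inv]; group
        rw [e, hZc _ (inv_mem ha) a⁻¹ |> fun h => (mul_assoc a⁻¹ _ a).symm.trans (by rw [h])]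
        rw [mul_assoc, inv_mul_cancel, mul_one]
        exact inv_mem ha }
  have hP0 : ∀ a, a ∈ P0 ↔ a * J a ∈ Z := fun a => Iff.rfl
  have hP0Z : Z ≤ P0 := fun z hz => by rw [hP0, hJZ z hz]; exact mul_mem hz hz
  have hdiffP0 : ∀ y, y * (J y)⁻¹ ∈ P0 := fun y => by
    rw [hP0, map_mul, map_inv, hJ2, show y * (J y)⁻¹ * (J y * y⁻¹) = 1 by group]
    exact one_mem Z
  have hfixed : ∀ y, (y * J y)⁻¹ * J (y * J y) ∈ Z := fun y => by
    rw [map_mul, hJ2, show (y * J y)⁻¹ * (J y * y) = ⁅(J y)⁻¹, y⁻¹⁆ by simp only [commutatorElement_def]; group]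
    exact hcl _ _
  have horth : ∀ b ∈ P0, ∀ c, c⁻¹ * J c ∈ Z → χ ⁅b, c⁆ = 1 := by
    intro b hb c hc
    refine hχone (hcl b c) ?_
    have h1 : J ⁅b, c⁆ = ⁅b, c⁆ := hJZ _ (hcl b c)
    have h2 : ⁅J b, J c⁆ = ⁅b, c⁆ := (map_commutatorElement J.toMonoidHom b c).symm.trans h1
    have h3 : χ ⁅J b, J c⁆ = χ ⁅b⁻¹, c⁆ := by
      have e1 : J b = b⁻¹ * (b * J b) := by group
      have e2 : J c = c * (c⁻¹ * J c) := by group
      rw [e1, hmulL, hZkill _ hb, mul_one]
      have e3 : ⁅b⁻¹, J c⁆ = ⁅b⁻¹, c⁆ := by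
        have h := hZc _ hc b⁻¹⁻¹
        calc ⁅b⁻¹, J c⁆ = b⁻¹ * c * ((c⁻¹ * J c) * b⁻¹⁻¹) * (c⁻¹ * J c)⁻¹ * c⁻¹ := by
              simp only [commutatorElement_def]; group
          _ = b⁻¹ * c * (b⁻¹⁻¹ * (c⁻¹ * J c)) * (c⁻¹ * J c)⁻¹ * c⁻¹ := by rw [h]
          _ = ⁅b⁻¹, c⁆ := by simp only [commutatorElement_def]; group
      rw [e3]
    have h4 := hmulL b⁻¹ b c
    rw [inv_mul_cancel, commutatorElement_one_left, char_one hw hw0, ← h3, h2] at h4
    exact h4.symm
  have hsq : ∀ y, y * y * ((y * (J y)⁻¹) * (y * J y))⁻¹ ∈ Z := fun y => by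
    rw [show y * y * ((y * (J y)⁻¹) * (y * J y))⁻¹ = y * ⁅y, (J y)⁻¹⁆ * y⁻¹ by
      simp only [commutatorElement_def]; group, hZc _ (hcl _ _) y, mul_inv_cancel_right]
    exact hcl _ _
  have hRhalf : ∀ a, a * a ∈ R → a ∈ R := fun a h b => hχone (hcl a b) (by rw [← hmulL]; exact h b)
  by_cases htriv : P0 ≤ R
  · refine Or.inl fun y => ?_
    have h1 := hdiffP0 y⁻¹
    rw [map_inv, inv_inv] at h1
    exact htriv h1
  -- the period of `χ`
  obtain ⟨j, hj, hPj, hdist⟩ := exists_period Nat.prime_two α hα Z hcenα χ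
  have hjn : j < n := by
    refine lt_of_le_of_ne hj fun h => ?_
    obtain ⟨z, hz, hne⟩ := hdist (2 ^ (n - 1)) (pow_pos (by norm_num) _)
      (Nat.pow_lt_pow_right (by norm_num) (by omega))
    exact hne (by rw [← hJdef, hJZ z hz])
  set t := n - j with htdef
  set α1 := α ^ 2 ^ j with hα1
  set T1 := T ^ 2 ^ j with hT1
  have hT1α : ∀ y, T1 * ρ y = ρ (α1 y) * T1 := fun y => pow_intertwine hTα _ y
  have hα1N : α1 ^ 2 ^ t = 1 := by rw [hα1, ← pow_mul, ← pow_add, show j + t = n by omega, hα]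
  have hT1N : T1 ^ 2 ^ t = 1 := by rw [hT1, ← pow_mul, ← pow_add, show j + t = n by omega, hT]
  have hJpow : J = α1 ^ 2 ^ (t - 1) := by rw [hα1, ← pow_mul, ← pow_add, show j + (t - 1) = n - 1 by omega]
  set U := wt ρ Z χ with hUdef
  have hUQ : ∀ g, ∀ v ∈ U, ρ g v ∈ U := fun g v hv => mem_wt.mpr fun z hz => by
    rw [← Module.End.mul_apply, ← map_mul, ← hZc z hz g, map_mul, Module.End.mul_apply, mem_wt.mp hv z hz, map_smul]
  have hT1U : ∀ v ∈ U, T1 v ∈ U := fun v hv => mem_wt.mpr fun z hz => by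
    have hz' : α1.symm z ∈ Z := symm_mem α1 (fun y hy => pow_apply_mem α hcenα _ hy) hz
    have h1 := LinearMap.congr_fun (hT1α (α1.symm z)) v
    rw [Module.End.mul_apply, Module.End.mul_apply, MulEquiv.apply_symm_apply, mem_wt.mp hv _ hz', map_smul] at h1
    have h2 := hPj (α1.symm z) hz'
    rw [MulEquiv.apply_symm_apply] at h2
    rw [← h1, h2]
  have hsumU : ∀ v ∈ U, ∑ k ∈ range (2 ^ t), (T1 ^ k) v = 0 := fun v hv => by
    refine norm_restrict ρ α T hTα Z hcenα χ (pow_pos (by norm_num) j) hdist hT1U hv ?_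
    rw [← pow_add, show j + t = n by omega]
    have := LinearMap.congr_fun hsum v
    rwa [LinearMap.sum_apply, LinearMap.zero_apply] at this
  have hUcomm : ∀ a b : Q, ∀ v ∈ U, ρ a (ρ b v) = χ ⁅a, b⁆ • ρ b (ρ a v) := fun a b v hv => by
    rw [← mem_wt.mp (hUQ b _ (hUQ a v hv)) _ (hcl a b), ← Module.End.mul_apply, ← Module.End.mul_apply,
      ← Module.End.mul_apply, ← map_mul, ← map_mul, ← map_mul]
    congr 2
    simp only [commutatorElement_def]; group
  have hRJ : ∀ y ∈ R, α1 y ∈ R := by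
    intro y hy b
    obtain ⟨b', rfl⟩ := α1.surjective b
    rw [show ⁅α1 y, α1 b'⁆ = α1 ⁅y, b'⁆ from (map_commutatorElement α1.toMonoidHom y b').symm]
    exact (hPj _ (hcl y b')).trans (hy b')
  -- elements of the radical in the inverted part act by scalars
  have hscalU : ∀ b ∈ P0, b ∈ R → ∃ c : K, ∀ v ∈ U, ρ b v = c • v := by
    intro b hb hbR
    have hJb : ∀ v ∈ U, ρ (J b) v = ρ b v := by
      set z₀ := b⁻¹ * J b with hz₀
      have hz₀R : z₀ ∈ R := by rw [hz₀, hJpow]; exact mul_mem (inv_mem hbR) (pow_apply_mem α1 hRJ _ hbR)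
      suffices h : ∀ v ∈ U, ρ z₀ v = v by
        intro v hv
        rw [show J b = b * z₀ by rw [hz₀]; group, map_mul, Module.End.mul_apply, h v hv]
      by_contra hne
      push Not at hne
      obtain ⟨u₁, hu₁, hne₁⟩ := hne
      obtain ⟨ψ, w', hw'U, hw'0, hw', hψ⟩ := exists_weight ρ R U (fun g _ => hUQ g)
        (fun g hg g' _ v hv => by rw [hUcomm g g' v hv, hg g', one_smul])
        hz₀R (pow_card_eq_one' (x := z₀)) hQK ⟨u₁, hu₁, hne₁⟩
      refine hψ ?_
      obtain ⟨i, hi, hPi, hdisti⟩ := exists_period Nat.prime_two α1 hα1N R hRJ ψ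
      have hit : i < t := by
        refine lt_of_le_of_ne hi fun h => hw'0 ?_
        subst h
        have h1 := norm_restrict ρ α1 T1 hT1α R hRJ ψ (P := 2 ^ t) (M := 1) (pow_pos (by norm_num) t) hdisti
          (fun v hv => by rw [hT1N]; exact hv) hw' (by rw [mul_one]; exact hsumU w' hw'U)
        rw [Finset.sum_range_one, pow_zero, Module.End.one_apply] at h1
        exact h1
      have h1 : ∀ k : ℕ, ∀ y ∈ R, ψ (((α1 ^ 2 ^ i) ^ k) y) = ψ y := by
        intro k
        induction k with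
        | zero => simp
        | succ k ih => intro y hy; rw [pow_succ, MulAut.mul_apply, ih _ (pow_apply_mem α1 hRJ _ hy), hPi y hy]
      have h2 : ψ (J b) = ψ b := by
        have := h1 (2 ^ (t - 1 - i)) b hbR
        rwa [← pow_mul, ← pow_add, show i + (t - 1 - i) = t - 1 by omega, ← hJpow] at this
      rw [hz₀, char_mul hw' hw'0 (inv_mem hbR) (by rw [hJpow]; exact pow_apply_mem α1 hRJ _ hbR), h2,
        ← char_mul hw' hw'0 (inv_mem hbR) hbR, inv_mul_cancel, char_one hw' hw'0]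
    have hsqb : ∀ v ∈ U, ρ (b * b) v = χ (b * J b) • v := fun v hv => by
      rw [← mem_wt.mp hv _ hb, map_mul, map_mul, Module.End.mul_apply, Module.End.mul_apply, hJb v hv]
    obtain ⟨k, hk⟩ := hQ b
    obtain ⟨l, hl⟩ := hqodd.pow (n := k)
    refine ⟨χ (b * J b) ^ (l + 1), fun v hv => ?_⟩
    have hb' : b = (b * b) ^ (l + 1) := by
      rw [← pow_two, ← pow_mul, show 2 * (l + 1) = q ^ k + 1 by omega, pow_succ, hk, one_mul]
    conv_lhs => rw [hb']
    have hpw : ∀ m : ℕ, ρ ((b * b) ^ m) v = χ (b * J b) ^ m • v := fun m => by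
      induction m with
      | zero => simp
      | succ m ih => rw [pow_succ, map_mul, Module.End.mul_apply, hsqb v hv, map_smul, ih, smul_smul, ← pow_succ']
    exact hpw (l + 1)
  -- the restriction
  haveI : Nontrivial U := Submodule.nontrivial_iff_ne_bot.mpr ((Submodule.ne_bot_iff _).mpr ⟨w, hw, hw0⟩)
  let ρU : Q →* Module.End K U :=
    { toFun := fun y => (ρ y).restrict (hUQ y)
      map_one' := LinearMap.ext fun v => Subtype.ext (by simp)
      map_mul' := fun y z => LinearMap.ext fun v => Subtype.ext (by simp) }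
  let TU : Module.End K U := T1.restrict hT1U
  have hTUN : TU ^ 2 ^ t = 1 := LinearMap.ext fun v => Subtype.ext (by
    rw [show TU ^ 2 ^ t = _ from Module.End.pow_restrict (2 ^ t) hT1U]
    exact LinearMap.congr_fun hT1N (v : W))
  have hTUα : ∀ y, TU * ρU y = ρU (α1 y) * TU := fun y => LinearMap.ext fun v =>
    Subtype.ext (LinearMap.congr_fun (hT1α y) (v : W))
  have hTUsum : ∑ k ∈ range (2 ^ t), TU ^ k = 0 := LinearMap.ext fun v => Subtype.ext (by
    simp only [LinearMap.sum_apply, LinearMap.zero_apply, Submodule.coe_sum, Submodule.coe_zero]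
    refine Eq.trans (Finset.sum_congr rfl fun k _ => ?_) (hsumU v v.2)
    rw [show TU ^ k = _ from Module.End.pow_restrict k hT1U]; rfl)
  have hρUc : ∀ a b : Q, ρU ⁅a, b⁆ = χ ⁅a, b⁆ • (1 : Module.End K U) := fun a b => LinearMap.ext fun v =>
    Subtype.ext (mem_wt.mp v.2 _ (hcl a b))
  have hscal' : ∀ b ∈ P0, b ∈ R → ∃ c : K, ρU b = c • 1 := fun b hb hbR => by
    obtain ⟨c, hc⟩ := hscalU b hb hbR
    exact ⟨c, LinearMap.ext fun v => Subtype.ext (hc v v.2)⟩
  have hα1P0 : ∀ a ∈ P0, α1 a ∈ P0 := fun a ha => by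
    rw [hP0] at ha ⊢
    rw [show J (α1 a) = α1 (J a) by
      rw [hJdef, hα1, ← MulAut.mul_apply, ← pow_add, add_comm, pow_add, MulAut.mul_apply], ← map_mul]
    exact pow_apply_mem α hcenα _ ha
  have hnondeg : ∀ b ∈ P0, b ∉ R → ∃ s ∈ P0, χ ⁅s, b⁆ ≠ 1 := by
    intro b hb hbR
    obtain ⟨y, hy⟩ : ∃ y, χ ⁅b, y⁆ ≠ 1 := by by_contra h; push Not at h; exact hbR h
    refine ⟨y * (J y)⁻¹, hdiffP0 y, fun h => hy (hχone (hcl b y) ?_)⟩
    have hy2 : y * y = (y * y * ((y * (J y)⁻¹) * (y * J y))⁻¹) * ((y * (J y)⁻¹) * (y * J y)) := by group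
    have h1 : χ ⁅y, b⁆ * χ ⁅y, b⁆ = 1 := by
      rw [← hmulL, hy2, hmulL, hZkill _ (hsq y), one_mul, hmulL, h, one_mul]
      have := hswap b (y * J y)
      rw [horth b hb _ (hfixed y), one_mul] at this
      exact this
    have h2 := hswap b y
    calc χ ⁅b, y⁆ * χ ⁅b, y⁆ = (χ ⁅b, y⁆ * χ ⁅b, y⁆) * (χ ⁅y, b⁆ * χ ⁅y, b⁆) := by rw [h1, mul_one]
      _ = (χ ⁅b, y⁆ * χ ⁅y, b⁆) * (χ ⁅b, y⁆ * χ ⁅y, b⁆) := by ring
      _ = 1 := by rw [h2, one_mul]
  -- averaging over the inverted part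
  haveI := Fintype.ofFinite P0
  let S : Module.End K U := ∑ a : P0, ρU ((a : Q) * α1 (a : Q)⁻¹)
  let C : Module.End K U := ∑ a : P0, ρU (a : Q) * TU * ρU (a : Q)⁻¹
  let A : Submodule K (Module.End K U) := Submodule.span K (Set.range fun a : P0 => ρU (a : Q))
  have hAmul : ∀ f ∈ A, ∀ g ∈ A, f * g ∈ A := by
    intro f hf g hg
    induction hf using Submodule.span_induction with
    | mem f hf =>
      obtain ⟨a, rfl⟩ := hf
      induction hg using Submodule.span_induction with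
      | mem g hg =>
        obtain ⟨b, rfl⟩ := hg
        exact Submodule.subset_span ⟨a * b, by dsimp only; rw [← map_mul]; rfl⟩
      | zero => simp
      | add g g' _ _ h h' => rw [mul_add]; exact add_mem h h'
      | smul c g _ h => rw [mul_smul_comm]; exact A.smul_mem c h
    | zero => simp
    | add f f' _ _ h h' => rw [add_mul]; exact add_mem h h'
    | smul c f _ h => rw [smul_mul_assoc]; exact A.smul_mem c h
  have hA1 : (1 : Module.End K U) ∈ A := Submodule.subset_span ⟨1, map_one ρU⟩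
  have hSA : S ∈ A := Submodule.sum_mem _ fun a _ =>
    Submodule.subset_span ⟨⟨_, mul_mem a.2 (hα1P0 _ (inv_mem a.2))⟩, rfl⟩
  have hApow : ∀ f ∈ A, ∀ k : ℕ, f ^ k ∈ A := fun f hf k => by
    induction k with
    | zero => simpa using hA1
    | succ k ih => rw [pow_succ]; exact hAmul _ ih _ hf
  have hconj : ∀ a b : Q, ρU a * ρU b * ρU a⁻¹ = χ ⁅a, b⁆ • ρU b := fun a b => by
    calc ρU a * ρU b * ρU a⁻¹ = ρU (⁅a, b⁆ * b) := by
          rw [← map_mul, ← map_mul]; congr 1; simp only [commutatorElement_def]; group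
      _ = _ := by rw [map_mul, hρUc, smul_mul_assoc, one_mul]
  have hE : ∀ a ∈ P0, (∑ b : P0, ρU (b : Q) * ρU a * ρU (b : Q)⁻¹) =
      if a ∈ R then (Nat.card P0 : K) • ρU a else 0 := by
    intro a ha
    simp only [hconj, ← Finset.sum_smul]
    split_ifs with h
    · congr 1
      rw [Finset.sum_congr rfl fun (b : P0) _ => (show χ ⁅(b : Q), a⁆ = 1 by
        have := hswap a b
        rwa [h b, one_mul] at this), Finset.sum_const, Finset.card_univ, nsmul_one, Nat.card_eq_fintype_card]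
    · obtain ⟨s, hs, hsne⟩ := hnondeg a ha h
      rw [Cfsg.Agent.PrimeFPF.sum_hom_eq_zero (fun b : P0 => χ ⁅(b : Q), a⁆)
        (fun b b' => hmulL b b' a) (a := ⟨s, hs⟩) hsne, zero_smul]
  have hP0K : (Nat.card P0 : K) ≠ 0 := fun h => hQK (by
    obtain ⟨k, hk⟩ := Subgroup.card_subgroup_dvd_card P0
    rw [hk, Nat.cast_mul, h, zero_mul])
  set R0 := R.subgroupOf P0 with hR0
  haveI := Fintype.ofFinite R0
  have hR0K : (Nat.card R0 : K) ≠ 0 := fun h => hP0K (by
    obtain ⟨k, hk⟩ := Subgroup.card_subgroup_dvd_card R0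
    rw [hk, Nat.cast_mul, h, zero_mul])
  have hRn : R.Normal := ⟨fun y hy g => by
    rw [show g * y * g⁻¹ = ⁅g, y⁆ * y by simp only [commutatorElement_def]; group]
    exact mul_mem (hZR (hcl g y)) hy⟩
  -- `A` is faithful on invariant subspaces
  have hfaith : ∀ f ∈ A, ∀ Y : Submodule K U, Y ≠ ⊥ → (∀ a : P0, ∀ v ∈ Y, ρU (a : Q) v ∈ Y) →
      (∀ v ∈ Y, f v = 0) → f = 0 := by
    intro f hf Y hY hYinv hfY
    have hrec : ((Nat.card P0 : K) * (Nat.card R0 : K)) • f =
        ∑ b : P0, (∑ c : P0, ρU (c : Q) * (f * ρU (b : Q)⁻¹) * ρU (c : Q)⁻¹) * ρU (b : Q) := by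
      clear hfY
      induction hf using Submodule.span_induction with
      | mem g hg =>
        obtain ⟨a, rfl⟩ := hg
        have h1 : ∀ b : P0, (∑ c : P0, ρU (c : Q) * (ρU (a : Q) * ρU (b : Q)⁻¹) * ρU (c : Q)⁻¹) * ρU (b : Q) =
            if (a : Q) * (b : Q)⁻¹ ∈ R then (Nat.card P0 : K) • ρU (a : Q) else 0 := fun b => by
          rw [← map_mul ρU (a : Q), hE _ (mul_mem a.2 (inv_mem b.2))]
          split_ifs
          · rw [smul_mul_assoc, ← map_mul, inv_mul_cancel_right]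
          · rw [zero_mul]
        rw [Finset.sum_congr rfl fun b _ => h1 b, ← Finset.sum_filter, Finset.sum_const, ← Nat.cast_smul_eq_nsmul K,
          smul_smul, mul_comm]
        congr 2
        rw [Nat.card_eq_fintype_card, Fintype.card_subtype]
        congr 1
        refine (Finset.card_nbij' (fun b => a * b⁻¹) (fun c => c⁻¹ * a) ?_ ?_ ?_ ?_).symm
        · intro b hb
          simp only [Finset.coe_filter, Finset.mem_univ, true_and, Set.mem_setOf_eq] at hb ⊢
          exact Subgroup.mem_subgroupOf.mpr hb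
        · intro c hc
          simp only [Finset.coe_filter, Finset.mem_univ, true_and, Set.mem_setOf_eq] at hc ⊢
          show (a : Q) * ((c⁻¹ * a : P0) : Q)⁻¹ ∈ R
          rw [Subgroup.coe_mul, Subgroup.coe_inv, mul_inv_rev, inv_inv, ← mul_assoc, mul_inv_cancel, one_mul]
          exact Subgroup.mem_subgroupOf.mp hc
        · intro b _; simp
        · intro c _; simp
      | zero => simp
      | add g g' _ _ h h' =>
        simp only [add_mul, mul_add, Finset.sum_add_distrib, smul_add, h, h']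
      | smul c g _ h =>
        simp only [smul_mul_assoc, mul_smul_comm, ← Finset.smul_sum] at h ⊢
        rw [smul_comm, h]
    refine (smul_eq_zero.mp (hrec.trans (Finset.sum_eq_zero fun b _ => ?_))).resolve_left (mul_ne_zero hP0K hR0K)
    -- a scalar vanishing on `Y`
    obtain ⟨s, hs⟩ : ∃ s : K, (∑ c : P0, ρU (c : Q) * (f * ρU (b : Q)⁻¹) * ρU (c : Q)⁻¹) = s • 1 := by
      have hfb : f * ρU (b : Q)⁻¹ ∈ A := hAmul _ hf _ (Submodule.subset_span ⟨b⁻¹, rfl⟩)
      generalize f * ρU (b : Q)⁻¹ = g at hfb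
      induction hfb using Submodule.span_induction with
      | mem g hg =>
        obtain ⟨a, rfl⟩ := hg
        rw [hE _ a.2]
        split_ifs with haR
        · obtain ⟨c, hc⟩ := hscal' a a.2 haR
          exact ⟨_, by rw [hc, smul_smul]⟩
        · exact ⟨0, by rw [zero_smul]⟩
      | zero => exact ⟨0, by simp⟩
      | add g g' _ _ h h' =>
        obtain ⟨s, hs⟩ := h; obtain ⟨s', hs'⟩ := h'
        exact ⟨s + s', by simp only [mul_add, add_mul, Finset.sum_add_distrib, hs, hs', add_smul]⟩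
      | smul c g _ h =>
        obtain ⟨s, hs⟩ := h
        exact ⟨c * s, by simp only [mul_smul_comm, smul_mul_assoc, ← Finset.smul_sum, hs, smul_smul]⟩
    obtain ⟨v, hv, hv0⟩ := Submodule.exists_mem_ne_zero_of_ne_bot hY
    have h1 : (∑ c : P0, ρU (c : Q) * (f * ρU (b : Q)⁻¹) * ρU (c : Q)⁻¹) v = 0 := by
      rw [LinearMap.sum_apply]
      refine Finset.sum_eq_zero fun c _ => ?_
      rw [Module.End.mul_apply, Module.End.mul_apply, Module.End.mul_apply]
      rw [← Subgroup.coe_inv, ← Subgroup.coe_inv, hfY _ (hYinv b⁻¹ _ (hYinv c⁻¹ v hv)), map_zero]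
    rw [hs, LinearMap.smul_apply, Module.End.one_apply] at h1
    rw [hs, (smul_eq_zero.mp h1).resolve_right hv0, zero_smul, zero_mul]
  have hsemi : ∀ i, ¬ 2 ^ t ∣ i → ∀ a ∈ P0, a⁻¹ * (α1 ^ i) a ∈ R → a ∈ R := by
    intro i hi a ha haR
    have hi' : ¬ 2 ^ (t - 1 + 1) ∣ i := by rwa [Nat.sub_add_cancel (by omega)]
    obtain ⟨c, hc⟩ := exists_pow_eq_pow Nat.prime_two (g := α1) (by rw [Nat.sub_add_cancel (by omega), hα1N]) hi'
    have hk : ∀ k, a⁻¹ * ((α1 ^ i) ^ k) a ∈ R := by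
      intro k
      induction k with
      | zero => simp
      | succ k ih =>
        rw [pow_succ', MulAut.mul_apply, show a⁻¹ * (α1 ^ i) (((α1 ^ i) ^ k) a) =
          (a⁻¹ * (α1 ^ i) a) * (α1 ^ i) (a⁻¹ * ((α1 ^ i) ^ k) a) by rw [map_mul, map_inv]; group]
        exact mul_mem haR (pow_apply_mem α1 hRJ i ih)
    have h1 := hk c
    rw [← hc, ← hJpow] at h1
    refine hRhalf a ?_
    rw [show a * a = (a * J a) * ((a⁻¹ * J a)⁻¹) by group]
    exact mul_mem (hZR ha) (inv_mem h1)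
  have hCS : C = S * TU := by
    simp only [C, S, Finset.sum_mul]
    refine Finset.sum_congr rfl fun a _ => ?_
    rw [mul_assoc, hTUα, ← mul_assoc, ← map_mul]
  have hCρ : ∀ b : P0, Commute C (ρU (b : Q)) := by
    intro b
    refine (?_ : ρU (b : Q) * C = C * ρU (b : Q)).symm
    simp only [C, Finset.mul_sum, Finset.sum_mul]
    refine Fintype.sum_equiv (Equiv.mulLeft b) _ _ fun a => ?_
    show _ = ρU ((b : Q) * (a : Q)) * TU * ρU ((b : Q) * (a : Q))⁻¹ * ρU (b : Q)
    rw [mul_assoc _ (ρU ((b : Q) * (a : Q))⁻¹), ← map_mul ρU ((b : Q) * (a : Q))⁻¹, mul_inv_rev, inv_mul_cancel_right,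
      map_mul ρU (b : Q)]
    simp only [mul_assoc]
  let α0 : MulAut P0 := MulEquiv.ofBijective ((α1.toMonoidHom.comp P0.subtype).codRestrict P0 fun a => hα1P0 a a.2)
    (Finite.injective_iff_bijective.mp fun a b h => Subtype.ext (α1.injective (congrArg Subtype.val h)))
  have hα0 : ∀ (k : ℕ) (a : P0), (((α0 ^ k) a : P0) : Q) = (α1 ^ k) a := by
    intro k a
    induction k with
    | zero => rfl
    | succ k ih => rw [pow_succ', MulAut.mul_apply, pow_succ', MulAut.mul_apply, ← ih]; rfl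
  have hCT : TU * C = C * TU := by
    simp only [C, Finset.mul_sum, Finset.sum_mul]
    refine Fintype.sum_equiv α0.toEquiv _ _ fun a => ?_
    show _ = ρU (α1 (a : Q)) * TU * ρU (α1 (a : Q))⁻¹ * TU
    rw [← map_inv, mul_assoc _ (ρU (α1 (a : Q)⁻¹)), ← hTUα (a : Q)⁻¹, ← mul_assoc, ← mul_assoc, hTUα (a : Q)]
    simp only [mul_assoc]
  have hTUu : IsUnit TU := IsUnit.of_pow_eq_one hTUN (pow_pos (by norm_num) t).ne'
  have hS0 : S ≠ 0 := by
    intro hS
    have hmem : ∀ a : P0, (a : Q) * α1 (a : Q)⁻¹ ∈ R ↔ (a : Q) ∈ R := by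
      intro a
      refine ⟨fun h => ?_, fun ha => mul_mem ha (hRJ _ (inv_mem ha))⟩
      refine hsemi 1 (fun hd => ?_) a a.2 ?_
      · have := Nat.le_of_dvd one_pos hd
        have := Nat.one_lt_two_pow (show t ≠ 0 by omega)
        omega
      · rw [pow_one]
        have := inv_mem h
        rw [mul_inv_rev, ← map_inv, inv_inv] at this
        exact hRn.mem_comm this
    have h0 : ∑ b : P0, ρU (b : Q) * S * ρU (b : Q)⁻¹ = 0 := by simp [hS]
    simp only [S, Finset.mul_sum, Finset.sum_mul] at h0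
    rw [Finset.sum_comm, Finset.sum_congr rfl fun (a : P0) _ => hE _ (mul_mem a.2 (hα1P0 _ (inv_mem a.2)))] at h0
    have hR1 : ∀ a : P0, (if (a : Q) * α1 (a : Q)⁻¹ ∈ R then (Nat.card P0 : K) • ρU ((a : Q) * α1 (a : Q)⁻¹) else 0) =
        if (a : Q) ∈ R then (Nat.card P0 : K) • (1 : Module.End K U) else 0 := by
      intro a
      by_cases ha : (a : Q) ∈ R
      · rw [if_pos ha, if_pos ((hmem a).mpr ha)]
        congr 1
        obtain ⟨c, hc⟩ := hscal' a a.2 ha
        have h1 : ρU (α1 (a : Q)) = ρU (a : Q) := by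
          refine hTUu.mul_right_cancel ?_
          rw [← hTUα, hc, mul_smul_comm, mul_one, smul_mul_assoc, one_mul]
        have h2 : ρU (α1 (a : Q)⁻¹) = ρU (a : Q)⁻¹ := by
          calc ρU (α1 (a : Q)⁻¹) = ρU (α1 (a : Q)⁻¹) * (ρU (a : Q) * ρU (a : Q)⁻¹) := by
                rw [← map_mul ρU (a : Q), mul_inv_cancel, map_one, mul_one]
            _ = ρU (α1 (a : Q)⁻¹) * ρU (α1 (a : Q)) * ρU (a : Q)⁻¹ := by rw [h1, mul_assoc]
            _ = _ := by rw [← map_mul ρU, ← map_mul ρU, ← map_mul α1, inv_mul_cancel, map_one, one_mul]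
        rw [map_mul, h2, ← map_mul, mul_inv_cancel, map_one]
      · rw [if_neg ha, if_neg fun h => ha ((hmem a).mp h)]
    rw [Finset.sum_congr rfl fun a _ => hR1 a, ← Finset.sum_filter, Finset.sum_const,
      ← Nat.cast_smul_eq_nsmul K, smul_smul, smul_eq_zero] at h0
    refine h0.elim (fun h => ?_) (fun h => one_ne_zero h)
    refine mul_ne_zero ?_ hP0K h
    rwa [show (Finset.univ.filter fun a : P0 => (a : Q) ∈ R).card = Nat.card R0 by
      rw [Nat.card_eq_fintype_card, Fintype.card_subtype]; congr]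
  -- minimal invariant subspaces
  have hminimal : ∀ Y : Submodule K U, Y ≠ ⊥ → (∀ a : P0, ∀ v ∈ Y, ρU (a : Q) v ∈ Y) → (∀ v ∈ Y, TU v ∈ Y) →
      (∀ v ∈ Y, C v ∈ Y) → ∃ (c : K) (d : ℕ), c ≠ 0 ∧ 1 ≤ d ∧ d + 1 = 2 ^ t ∧ R0.index = d ^ 2 ∧
        ∃ U3 : Submodule K U, U3 ≤ Y ∧ U3 ≠ ⊥ ∧ (∀ a : P0, ∀ v ∈ U3, ρU (a : Q) v ∈ U3) ∧ (∀ v ∈ U3, TU v ∈ U3) ∧
          (∀ v ∈ U3, C v = c • v) ∧
          ∀ l : ℕ → K, (∀ v ∈ U3, ∑ k ∈ range d, l k • (TU ^ k) v = 0) → ∀ k < d, l k = 0 := by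
    intro Y hY hYP hYT hYC
    obtain ⟨U3, hU3le, hU30, hU3P, hU3T, hU3min⟩ : ∃ U3 : Submodule K U, U3 ≤ Y ∧ U3 ≠ ⊥ ∧
        (∀ a : P0, ∀ v ∈ U3, ρU (a : Q) v ∈ U3) ∧ (∀ v ∈ U3, TU v ∈ U3) ∧ ∀ V : Submodule K U, V ≤ U3 → V ≠ ⊥ →
          (∀ a : P0, ∀ v ∈ V, ρU (a : Q) v ∈ V) → (∀ v ∈ V, TU v ∈ V) → V = U3 := by
      have hex : ∃ d, ∃ V : Submodule K U, finrank K V = d ∧ V ≤ Y ∧ V ≠ ⊥ ∧ (∀ a : P0, ∀ v ∈ V, ρU (a : Q) v ∈ V) ∧
          ∀ v ∈ V, TU v ∈ V := ⟨_, Y, rfl, le_rfl, hY, hYP, hYT⟩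
      obtain ⟨V, hV, h1, h2, h3, h4⟩ := Nat.find_spec hex
      exact ⟨V, h1, h2, h3, h4, fun V' h5 h6 h7 h8 => Submodule.eq_of_le_of_finrank_le h5
        (hV ▸ Nat.find_le ⟨V', rfl, h5.trans h1, h6, h7, h8⟩)⟩
    haveI : Nontrivial U3 := Submodule.nontrivial_iff_ne_bot.mpr hU30
    have hU3C : ∀ v ∈ U3, C v ∈ U3 := fun v hv => by
      simp only [C, LinearMap.sum_apply, Module.End.mul_apply]
      exact Submodule.sum_mem _ fun a _ => hU3P a _ (hU3T _ (hU3P a⁻¹ v hv))
    have hcomm3 : ∀ f : Module.End K U, (∀ v ∈ U3, f v ∈ U3) → (∀ a : P0, Commute f (ρU (a : Q))) →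
        TU * f = f * TU → ∀ u : U, u ∈ U3 → u ≠ 0 → ∀ c : K, f u = c • u → ∀ v ∈ U3, f v = c • v := by
      intro f hf hfP hfT u hu hu0 c huc
      have h := hU3min (U3 ⊓ Module.End.eigenspace f c) inf_le_left
        ((Submodule.ne_bot_iff _).mpr ⟨u, ⟨hu, Module.End.mem_eigenspace_iff.mpr huc⟩, hu0⟩)
        (fun a v hv => ⟨hU3P a v hv.1, Module.End.mem_eigenspace_iff.mpr (by
          rw [← Module.End.mul_apply, (hfP a).eq, Module.End.mul_apply, Module.End.mem_eigenspace_iff.mp hv.2, map_smul])⟩)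
        (fun v hv => ⟨hU3T v hv.1, Module.End.mem_eigenspace_iff.mpr (by
          rw [← Module.End.mul_apply, ← hfT, Module.End.mul_apply, Module.End.mem_eigenspace_iff.mp hv.2, map_smul])⟩)
      exact fun v hv => Module.End.mem_eigenspace_iff.mp (h.ge hv).2
    obtain ⟨c, hc⟩ := Module.End.exists_eigenvalue (C.restrict hU3C)
    obtain ⟨u, hu⟩ := hc.exists_hasEigenvector
    have hCc : ∀ v ∈ U3, C v = c • v := hcomm3 C hU3C hCρ hCT u u.2 (fun h => hu.2 (Subtype.ext h)) c
      (congrArg Subtype.val hu.apply_eq_smul)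
    have hc0 : c ≠ 0 := by
      rintro rfl
      refine hS0 (hfaith S hSA U3 hU30 hU3P fun v hv => ?_)
      obtain ⟨v', hv'⟩ : ∃ v' ∈ U3, TU v' = v := by
        obtain ⟨v', hv'⟩ := (LinearMap.surjective_of_injective (f := TU.restrict hU3T) fun a b h => Subtype.ext
          (((Module.End.isUnit_iff TU).mp hTUu).injective (congrArg Subtype.val h))) ⟨v, hv⟩
        exact ⟨v', v'.2, congrArg Subtype.val hv'⟩
      rw [← hv'.2, ← Module.End.mul_apply, ← hCS, hCc v' hv'.1, zero_smul]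
    have hirr : ∀ V : Submodule K U, V ≤ U3 → (∀ a : P0, ∀ v ∈ V, ρU (a : Q) v ∈ V) → V = ⊥ ∨ V = U3 := by
      intro V hVle hV
      refine or_iff_not_imp_left.mpr fun hV0 => hU3min V hVle hV0 hV ?_
      have hSV : ∀ v ∈ V, S v ∈ V := fun v hv => by
        simp only [S, LinearMap.sum_apply]
        exact Submodule.sum_mem _ fun a _ => hV ⟨_, mul_mem a.2 (hα1P0 _ (inv_mem a.2))⟩ v hv
      have hsurj : Function.Surjective (S.restrict hSV) := by
        refine LinearMap.surjective_of_injective fun u v h => Subtype.ext ?_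
        obtain ⟨u', hu'⟩ := ((Module.End.isUnit_iff TU).mp hTUu).surjective (u : U)
        obtain ⟨v', hv'⟩ := ((Module.End.isUnit_iff TU).mp hTUu).surjective (v : U)
        have hu3 : u' ∈ U3 := by
          obtain ⟨u'', hu''⟩ := (LinearMap.surjective_of_injective (f := TU.restrict hU3T) fun a b h => Subtype.ext
            (((Module.End.isUnit_iff TU).mp hTUu).injective (congrArg Subtype.val h))) ⟨u, hVle u.2⟩
          rw [((Module.End.isUnit_iff TU).mp hTUu).injective (hu'.trans (congrArg Subtype.val hu'').symm)]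
          exact u''.2
        have hv3 : v' ∈ U3 := by
          obtain ⟨v'', hv''⟩ := (LinearMap.surjective_of_injective (f := TU.restrict hU3T) fun a b h => Subtype.ext
            (((Module.End.isUnit_iff TU).mp hTUu).injective (congrArg Subtype.val h))) ⟨v, hVle v.2⟩
          rw [((Module.End.isUnit_iff TU).mp hTUu).injective (hv'.trans (congrArg Subtype.val hv'').symm)]
          exact v''.2
        have h' : S (u : U) = S (v : U) := congrArg Subtype.val h
        rw [← hu', ← hv', ← Module.End.mul_apply, ← Module.End.mul_apply, ← hCS, hCc u' hu3, hCc v' hv3] at h'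
        rw [← hu', ← hv', smul_right_injective U hc0 h']
      intro v hv
      obtain ⟨u, hu⟩ := hsurj ⟨v, hv⟩
      have hu' : S (u : U) = v := congrArg Subtype.val hu
      have : TU v = c • (u : U) := by
        obtain ⟨u', hu''⟩ := (LinearMap.surjective_of_injective (f := TU.restrict hU3T) fun a b h => Subtype.ext
          (((Module.End.isUnit_iff TU).mp hTUu).injective (congrArg Subtype.val h))) ⟨u, hVle u.2⟩
        have h3 : TU (u' : U) = u := congrArg Subtype.val hu''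
        have h4 : v = c • (u' : U) := by rw [← hu', ← h3, ← Module.End.mul_apply, ← hCS, hCc _ u'.2]
        rw [h4, map_smul, h3]
      rw [this]
      exact V.smul_mem c u.2
    -- the count
    let ρ3 : P0 →* Module.End K U3 :=
      { toFun := fun y => (ρU (y : Q)).restrict (hU3P y)
        map_one' := LinearMap.ext fun v => Subtype.ext (by simp)
        map_mul' := fun y z => LinearMap.ext fun v => Subtype.ext (by simp) }
    let T3 : Module.End K U3 := TU.restrict hU3T
    have hρ3k : ∀ a : P0, ρ3 a = 1 → a ∈ R0 := by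
      intro a ha
      rw [hR0, Subgroup.mem_subgroupOf]
      by_contra haR
      obtain ⟨s, hs, hsne⟩ := hnondeg a a.2 haR
      obtain ⟨v, hv, hv0⟩ := Submodule.exists_mem_ne_zero_of_ne_bot hU30
      have h1 := congrArg (fun f : Module.End K U => f v) (hconj s a)
      have ha' : ∀ u ∈ U3, ρU (a : Q) u = u := fun u hu =>
        congrArg Subtype.val (LinearMap.congr_fun ha ⟨u, hu⟩)
      simp only [Module.End.mul_apply, LinearMap.smul_apply] at h1
      rw [ha' _ (hU3P ⟨s⁻¹, inv_mem hs⟩ v hv), ← Module.End.mul_apply, ← map_mul, mul_inv_cancel, map_one,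
        Module.End.one_apply, ha' v hv] at h1
      exact hsne (smul_left_injective K hv0 (h1.symm.trans (one_smul K v).symm))
    let P3 := ρ3.toHomUnits.range
    let f3 : P0 →* P3 := ρ3.toHomUnits.rangeRestrict
    have hf3s : Function.Surjective f3 := ρ3.toHomUnits.rangeRestrict_surjective
    have hf3k : ∀ a, f3 a = 1 ↔ ρ3 a = 1 := fun a => by
      constructor
      · intro h; exact congrArg (fun y : P3 => ((y : (Module.End K U3)ˣ) : Module.End K U3)) h
      · intro h; exact Subtype.ext (Units.ext h)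
    let ρ' : P3 →* Module.End K U3 := (Units.coeHom _).comp P3.subtype
    have hρ'f : ∀ a, ρ' (f3 a) = ρ3 a := fun a => rfl
    haveI : Finite P3 := Finite.of_surjective f3 hf3s
    have hT3N : T3 ^ 2 ^ t = 1 := LinearMap.ext fun v => Subtype.ext (by
      rw [show T3 ^ 2 ^ t = _ from Module.End.pow_restrict (2 ^ t) hU3T]
      exact LinearMap.congr_fun hTUN (v : U))
    have hT3α : ∀ a, T3 * ρ3 a = ρ3 (α0 a) * T3 := fun a => LinearMap.ext fun v =>
      Subtype.ext (LinearMap.congr_fun (hTUα a) (v : U))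
    have hT3u : IsUnit T3 := IsUnit.of_pow_eq_one hT3N (pow_pos (by norm_num) t).ne'
    have hker : f3.ker.map α0.toMonoidHom = f3.ker := Subgroup.eq_of_le_of_card_ge (by
      rintro _ ⟨a, ha, rfl⟩
      rw [SetLike.mem_coe, MonoidHom.mem_ker, hf3k] at ha
      rw [MonoidHom.mem_ker, hf3k]
      refine hT3u.mul_right_cancel ?_
      show ρ3 (α0 a) * T3 = 1 * T3
      rw [← hT3α, ha, mul_one, one_mul])
      (le_of_eq (Subgroup.card_map_of_injective (f := α0.toMonoidHom) α0.injective).symm)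
    let e3 : P0 ⧸ f3.ker ≃* P3 := QuotientGroup.quotientKerEquivOfSurjective f3 hf3s
    let σ3 : MulAut P3 := (e3.symm.trans (QuotientGroup.congr f3.ker f3.ker α0 hker)).trans e3
    have hσ3 : ∀ a, σ3 (f3 a) = f3 (α0 a) := fun a => by
      show e3 ((QuotientGroup.congr f3.ker f3.ker α0 hker) (e3.symm (f3 a))) = _
      rw [show e3.symm (f3 a) = (a : P0 ⧸ f3.ker) from e3.symm_apply_eq.mpr rfl]
      rfl
    have hσ3i : ∀ (k : ℕ) (a : P0), (σ3 ^ k) (f3 a) = f3 ((α0 ^ k) a) := by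
      intro k a
      induction k with
      | zero => rfl
      | succ k ih => rw [pow_succ', MulAut.mul_apply, ih, hσ3, pow_succ', MulAut.mul_apply]
    haveI hR0n : R0.Normal := Subgroup.Normal.subgroupOf hRn P0
    let R3 : Subgroup P3 := R0.map f3
    haveI : R3.Normal := hR0n.map f3 hf3s
    have hR3 : ∀ a, f3 a ∈ R3 ↔ a ∈ R0 := fun a => by
      refine ⟨?_, fun h => ⟨a, h, rfl⟩⟩
      rintro ⟨b, hb, hab⟩
      have : b⁻¹ * a ∈ R0 := hρ3k _ ((hf3k _).mp (by rw [map_mul, map_inv, hab, inv_mul_cancel]))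
      simpa using mul_mem hb this
    have hP3card : Nat.card P3 ∣ Nat.card P0 := Subgroup.card_range_dvd ρ3.toHomUnits
    obtain ⟨h2', hdN, hind⟩ := plane_count (t := t) ρ' (fun x y h => Subtype.ext (Units.ext h)) R3 σ3 T3 (by omega)
      (fun h => hP0K (by obtain ⟨k, hk⟩ := hP3card; rw [hk, Nat.cast_mul, h, zero_mul]))
      ((hQodd.of_dvd_nat (Subgroup.card_subgroup_dvd_card P0)).of_dvd_nat hP3card)
      hT3N
      (fun y => by obtain ⟨a, rfl⟩ := hf3s y; rw [hρ'f, hσ3, hρ'f, hT3α])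
      (LinearMap.ext fun v => Subtype.ext (by
        simp only [LinearMap.sum_apply, LinearMap.zero_apply, Submodule.coe_sum, Submodule.coe_zero]
        refine Eq.trans (Finset.sum_congr rfl fun k _ => ?_)
          (show ∑ k ∈ range (2 ^ t), (TU ^ k) (v : U) = 0 by
            rw [← LinearMap.sum_apply, hTUsum, LinearMap.zero_apply])
        rw [show T3 ^ k = _ from Module.End.pow_restrict k hU3T]; rfl))
      (MulEquiv.ext fun y => by
        obtain ⟨a, rfl⟩ := hf3s y
        rw [hσ3i, MulAut.one_apply]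
        exact congrArg f3 (Subtype.ext (by rw [hα0, hα1N]; rfl)))
      (Subgroup.eq_of_le_of_card_ge (by
          rintro _ ⟨_, ⟨a, ha, rfl⟩, rfl⟩
          show σ3 (f3 a) ∈ R3
          rw [hσ3, hR3]
          exact hRJ _ ha)
        (le_of_eq (Subgroup.card_map_of_injective (f := σ3.toMonoidHom) σ3.injective).symm))
      (by
        rintro _ ⟨a, ha, rfl⟩
        obtain ⟨c, hc⟩ := hscal' a a.2 ha
        exact ⟨c, LinearMap.ext fun v => Subtype.ext (LinearMap.congr_fun hc (v : U))⟩)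
      (fun x y => by
        obtain ⟨a, rfl⟩ := hf3s x; obtain ⟨b, rfl⟩ := hf3s y
        rw [← map_inv, ← map_inv, ← map_mul, ← map_mul, ← map_mul, hR3]
        exact hZR (hcl a b))
      (fun x y g => by
        obtain ⟨a, rfl⟩ := hf3s x; obtain ⟨b, rfl⟩ := hf3s y; obtain ⟨c, rfl⟩ := hf3s g
        simp only [← map_inv, ← map_mul]
        exact congrArg f3 (Subtype.ext (hZc _ (hcl a b) c)))
      (fun x hx => by
        obtain ⟨a, rfl⟩ := hf3s x
        obtain ⟨s, hs, hsne⟩ := hnondeg a a.2 (fun h => hx ((hR3 a).mpr h))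
        refine ⟨f3 ⟨s, hs⟩, fun h => hsne ?_⟩
        simp only [← map_inv, ← map_mul, hρ'f] at h
        obtain ⟨v, hv, hv0⟩ := Submodule.exists_mem_ne_zero_of_ne_bot hU30
        have h1 : ρU ⁅s, (a : Q)⁆ v = v := congrArg Subtype.val (LinearMap.congr_fun h ⟨v, hv⟩)
        rw [hρUc, LinearMap.smul_apply, Module.End.one_apply] at h1
        exact smul_left_injective K hv0 (h1.trans (one_smul K v).symm))
      (fun k hk hkN x hx => by
        obtain ⟨a, rfl⟩ := hf3s x
        rw [hσ3i, ← map_inv, ← map_mul, hR3, hR0, Subgroup.mem_subgroupOf, Subgroup.coe_mul, Subgroup.coe_inv, hα0] at hx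
        exact (hR3 a).mpr (hsemi k (fun hd => absurd (Nat.le_of_dvd hk hd) (by omega)) a a.2 hx))
      (fun b hb => by
        obtain ⟨c', hc'⟩ := Module.End.exists_eigenvalue b
        refine ⟨c', ?_⟩
        set E := Module.End.eigenspace b c'
        have hE' := hirr (E.map U3.subtype) (Submodule.map_subtype_le U3 E) (by
          rintro a _ ⟨v, hv, rfl⟩
          refine ⟨ρ3 a v, ?_, rfl⟩
          rw [SetLike.mem_coe, Module.End.mem_eigenspace_iff] at hv ⊢
          have := (hb (f3 a)).eq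
          rw [hρ'f] at this
          rw [← Module.End.mul_apply, this, Module.End.mul_apply, hv, map_smul])
        rcases hE' with h | h
        · exact absurd (Submodule.map_injective_of_injective U3.injective_subtype (h.trans (Submodule.map_bot _).symm)) hc'
        · refine LinearMap.ext fun v => ?_
          obtain ⟨v', hv', h'⟩ := (h.ge v.2 : (v : U) ∈ E.map U3.subtype)
          rw [← (Subtype.ext h' : v' = v), Module.End.mem_eigenspace_iff.mp hv']
          rfl)
      (fun h => htriv fun a ha => by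
        have := (hR3 ⟨a, ha⟩).mp (h ▸ Subgroup.mem_top _)
        exact this)
    refine ⟨c, finrank K U3, hc0, Module.finrank_pos, hdN, ?_, U3, hU3le, hU30, hU3P, hU3T, hCc, fun l hl => ?_⟩
    · rw [h2']
      exact (Subgroup.index_map_eq R0 hf3s fun a ha => hρ3k a ((hf3k a).mp ha)).symm
    · refine hind l (LinearMap.ext fun v => Subtype.ext ?_)
      simp only [LinearMap.sum_apply, LinearMap.smul_apply, Submodule.coe_sum, Submodule.coe_smul,
        LinearMap.zero_apply, Submodule.coe_zero]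
      refine Eq.trans (Finset.sum_congr rfl fun k _ => ?_) (hl v v.2)
      rw [show T3 ^ k = _ from Module.End.pow_restrict k hU3T]; rfl
  have hCP : ∀ (Y : Submodule K U) (c : K), (∀ v, v ∈ Y ↔ C v = c • v) →
      (∀ a : P0, ∀ v ∈ Y, ρU (a : Q) v ∈ Y) ∧ (∀ v ∈ Y, TU v ∈ Y) ∧ (∀ v ∈ Y, C v ∈ Y) := by
    intro Y c hY
    refine ⟨fun a v hv => (hY _).mpr ?_, fun v hv => (hY _).mpr ?_, fun v hv => (hY _).mpr ?_⟩
    · rw [← Module.End.mul_apply, (hCρ a).eq, Module.End.mul_apply, (hY v).mp hv, map_smul]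
    · rw [← Module.End.mul_apply, ← hCT, Module.End.mul_apply, (hY v).mp hv, map_smul]
    · rw [(hY v).mp hv, map_smul, (hY v).mp hv]
  obtain ⟨c, d, hc0, hd1, hdN, hdidx, U3, -, hU30, hU3P, hU3T, hU3C, hind⟩ := hminimal ⊤ top_ne_bot
    (fun _ _ _ => trivial) (fun _ _ => trivial) (fun _ _ => trivial)
  -- the plane
  obtain ⟨e, he⟩ := (hQ.to_subgroup P0).index R0
  obtain ⟨a, ha⟩ : ∃ a, d = q ^ a := by
    obtain ⟨a, -, ha⟩ := (Nat.dvd_prime_pow hq).mp (show d ∣ q ^ e by rw [← he, hdidx]; exact dvd_pow_self d two_ne_zero)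
    exact ⟨a, ha⟩
  have ha0 : 0 < a := by
    rcases Nat.eq_zero_or_pos a with h | h
    · exfalso
      rw [ha, h, pow_zero, one_pow] at hdidx
      exact htriv fun x hx => (Subgroup.index_eq_one.mp hdidx).ge (Subgroup.mem_top ⟨x, hx⟩)
    · exact h
  have ha1 : a = 1 := prime_pow_eq_prime_of_succ hq hq2 (by rw [← ha, hdN]) ha0
  rw [ha1, pow_one] at ha
  subst ha
  have hd2 : 2 ≤ d := hq.two_le
  have ht2 : 2 ≤ t := by
    by_contra h
    have : 2 ^ t ≤ 2 ^ 1 := Nat.pow_le_pow_right (by norm_num) (by omega)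
    omega
  refine Or.inr ⟨j, by omega, hdN, hPj, P0 ⊔ R, le_sup_right, ?_, ?_⟩
  · rw [Subgroup.relIndex_sup_right (H := P0) (K := R)]
    exact hdidx
  -- `C` is a scalar
  obtain ⟨S', hS'A, hS'S⟩ : ∃ X ∈ A, X * C = TU := by
    have hSinj : Function.Injective S := by
      rw [← LinearMap.ker_eq_bot]
      by_contra hne
      set Y := LinearMap.ker C with hY
      have hY0 : Y ≠ ⊥ := by
        obtain ⟨v, hv, hv0⟩ := Submodule.exists_mem_ne_zero_of_ne_bot hne
        obtain ⟨v', rfl⟩ := ((Module.End.isUnit_iff TU).mp hTUu).surjective v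
        refine (Submodule.ne_bot_iff _).mpr ⟨v', LinearMap.mem_ker.mpr ?_, fun h => hv0 (by rw [h, map_zero])⟩
        rw [hCS, Module.End.mul_apply]; exact LinearMap.mem_ker.mp hv
      have hYP := hCP Y 0 fun v => by rw [hY, LinearMap.mem_ker, zero_smul]
      obtain ⟨c', d', hc'0, -, -, -, U3', hle', hne', -, -, hC', -⟩ := hminimal Y hY0 hYP.1 hYP.2.1 hYP.2.2
      obtain ⟨v, hv, hv0⟩ := Submodule.exists_mem_ne_zero_of_ne_bot hne'
      have h1 := hC' v hv
      rw [LinearMap.mem_ker.mp (hle' hv)] at h1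
      exact hv0 ((smul_eq_zero.mp h1.symm).resolve_left hc'0)
    have hL : Function.Injective (LinearMap.mulLeft K S) := fun f g h => LinearMap.ext fun v =>
      hSinj (LinearMap.congr_fun h v)
    have hmap : A.map (LinearMap.mulLeft K S) = A := by
      refine Submodule.eq_of_le_of_finrank_eq ?_ (Submodule.equivMapOfInjective _ hL A).finrank_eq.symm
      rintro _ ⟨f, hf, rfl⟩
      exact hAmul _ hSA _ hf
    obtain ⟨X, hX, hX1⟩ : (1 : Module.End K U) ∈ A.map (LinearMap.mulLeft K S) := hmap.symm ▸ hA1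
    have hX2 : X * S = 1 := mul_eq_one_comm.mp (hX1 : S * X = 1)
    exact ⟨X, hX, by rw [hCS, ← mul_assoc, hX2, one_mul]⟩
  have hXC : Commute S' C := by
    have hA' : ∀ f ∈ A, Commute f C := fun f hf => by
      induction hf using Submodule.span_induction with
      | mem f hf => obtain ⟨b, rfl⟩ := hf; exact (hCρ b).symm
      | zero => exact Commute.zero_left _
      | add f g _ _ h h' => exact h.add_left h'
      | smul r f _ h => exact h.smul_left r
    exact hA' _ hS'A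
  have hTk : ∀ (k : ℕ) (c' : K) (v : U), C v = c' • v → (TU ^ k) v = c' ^ k • (S' ^ k) v := by
    intro k c' v hv
    rw [← hS'S, hXC.mul_pow, Module.End.mul_apply]
    have : (C ^ k) v = c' ^ k • v := by
      induction k with
      | zero => simp
      | succ k ih => rw [pow_succ, Module.End.mul_apply, hv, map_smul, ih, smul_smul, mul_comm, pow_succ]
    rw [this, map_smul]
  -- the two polynomial identities
  have hpoly : ∀ c' : K, (∃ Y : Submodule K U, Y ≠ ⊥ ∧ (∀ a : P0, ∀ v ∈ Y, ρU (a : Q) v ∈ Y) ∧ ∀ v ∈ Y, C v = c' • v) →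
      ∑ k ∈ range (2 ^ t), c' ^ k • S' ^ k = 0 := by
    rintro c' ⟨Y, hY0, hYP, hYC⟩
    refine hfaith _ (Submodule.sum_mem _ fun k _ => A.smul_mem _ (hApow _ hS'A k)) Y hY0 hYP fun v hv => ?_
    rw [LinearMap.sum_apply]
    refine Eq.trans (Finset.sum_congr rfl fun k _ => ?_) (by
      rw [← LinearMap.sum_apply, hTUsum, LinearMap.zero_apply] : ∑ k ∈ range (2 ^ t), (TU ^ k) v = 0)
    rw [LinearMap.smul_apply, hTk k c' v (hYC v hv)]
  have hindS : ∀ l : ℕ → K, ∑ k ∈ range d, l k • S' ^ k = 0 → ∀ k < d, l k = 0 := by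
    intro l hl k hk
    have h := hind (fun m => l m * (c⁻¹) ^ m) (fun v hv => ?_) k hk
    · exact (mul_eq_zero.mp h).resolve_right (pow_ne_zero _ (inv_ne_zero hc0))
    · refine Eq.trans (Finset.sum_congr rfl fun m _ => ?_) (show ∑ m ∈ range d, (l m • S' ^ m) v = 0 by
        rw [← LinearMap.sum_apply, hl, LinearMap.zero_apply])
      rw [hTk m c v (hU3C v hv), smul_smul, mul_assoc, ← mul_pow, inv_mul_cancel₀ hc0, one_pow, mul_one]
      rfl
  have heig : ∀ c' : K, Module.End.HasEigenvalue C c' → c' = c := by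
    intro c' hc'
    have hY := hCP (Module.End.eigenspace C c') c' fun v => Module.End.mem_eigenspace_iff
    have h1 := hpoly c' ⟨_, hc', hY.1, fun v hv => Module.End.mem_eigenspace_iff.mp hv⟩
    have h2 := hpoly c ⟨U3, hU30, hU3P, hU3C⟩
    rw [show 2 ^ t = d + 1 by omega, Finset.sum_range_succ, ← eq_neg_iff_add_eq_zero] at h1 h2
    have h3 : ∑ k ∈ range d, (c ^ d * c' ^ k - c' ^ d * c ^ k) • S' ^ k = 0 := by
      have e1 : c ^ d • ∑ k ∈ range d, c' ^ k • S' ^ k = c' ^ d • ∑ k ∈ range d, c ^ k • S' ^ k := by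
        rw [h1, h2, smul_neg, smul_neg, smul_smul, smul_smul, mul_comm]
      rw [Finset.smul_sum, Finset.smul_sum] at e1
      rw [Finset.sum_congr rfl fun k _ => sub_smul (c ^ d * c' ^ k) (c' ^ d * c ^ k) (S' ^ k), Finset.sum_sub_distrib,
        sub_eq_zero]
      simpa only [smul_smul] using e1
    have k0 := hindS _ h3 0 (by omega)
    have k1 := hindS _ h3 1 (by omega)
    simp only [pow_zero, mul_one, sub_eq_zero] at k0
    simp only [pow_one, ← k0, ← mul_sub, mul_eq_zero, sub_eq_zero] at k1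
    exact k1.resolve_left (pow_ne_zero _ hc0)
  set M := C - c • (1 : Module.End K U) with hM
  have hMmem : ∀ v, M v = 0 ↔ C v = c • v := fun v => by
    rw [hM, LinearMap.sub_apply, LinearMap.smul_apply, Module.End.one_apply, sub_eq_zero]
  have hkerM : ∀ u, M (M u) = 0 → M u = 0 := by
    intro u hu
    by_contra hne
    set Y := LinearMap.ker M ⊓ Submodule.map M (LinearMap.ker (M * M)) with hYdef
    have hY0 : Y ≠ ⊥ := (Submodule.ne_bot_iff _).mpr ⟨M u, ⟨LinearMap.mem_ker.mpr hu, ⟨u, LinearMap.mem_ker.mpr hu, rfl⟩⟩, hne⟩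
    have hcommM : ∀ f : Module.End K U, Commute C f → ∀ v, M (f v) = f (M v) := fun f hf v => by
      simp only [hM, LinearMap.sub_apply, LinearMap.smul_apply, Module.End.one_apply, map_sub, map_smul]
      rw [← Module.End.mul_apply, hf.eq, Module.End.mul_apply]
    have hYinv : ∀ f : Module.End K U, Commute C f → ∀ v ∈ Y, f v ∈ Y := fun f hf v hv => by
      refine ⟨LinearMap.mem_ker.mpr (by rw [hcommM f hf, LinearMap.mem_ker.mp hv.1, map_zero]), ?_⟩
      obtain ⟨u', hu', rfl⟩ := hv.2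
      refine ⟨f u', LinearMap.mem_ker.mpr ?_, hcommM f hf u'⟩
      rw [Module.End.mul_apply, hcommM f hf, hcommM f hf, ← Module.End.mul_apply M M, LinearMap.mem_ker.mp hu', map_zero]
    obtain ⟨c', d', -, hd'1, hd'N, -, U3', hle', hne', hP', -, hC', hind'⟩ := hminimal Y hY0 (fun a => hYinv _ (hCρ a))
      (hYinv _ hCT.symm) (hYinv _ (Commute.refl C))
    have hd' : d' = d := by omega
    subst hd'
    -- the derivative annihilates `Y`
    have hder : ∀ v ∈ Y, ∑ k ∈ range (2 ^ t), (k : K) • (TU ^ k) v = 0 := by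
      intro v hv
      obtain ⟨u', hu', rfl⟩ := hv.2
      have hMv : C (M u') = c • M u' := (hMmem _).mp (LinearMap.mem_ker.mp hv.1)
      have hCk : ∀ k : ℕ, c • (C ^ k) u' = c ^ (k + 1) • u' + ((k : K) * c ^ k) • M u' := by
        intro k
        induction k with
        | zero => simp
        | succ k ih =>
          rw [pow_succ', Module.End.mul_apply, ← map_smul, ih, map_add, map_smul, map_smul, hMv,
            show C u' = c • u' + M u' by
              simp only [hM, LinearMap.sub_apply, LinearMap.smul_apply, Module.End.one_apply]; abel,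
            smul_add, smul_smul, smul_smul, Nat.cast_succ, add_mul, one_mul, add_smul]
          rw [mul_assoc, ← pow_succ, ← pow_succ]
          abel
      have h1 : ∑ k ∈ range (2 ^ t), (c ^ (k + 1) • (S' ^ k) u' + (k : K) • (TU ^ k) (M u')) = 0 := by
        have h0 : c • ∑ k ∈ range (2 ^ t), (TU ^ k) u' = 0 := by
          rw [← LinearMap.sum_apply, hTUsum, LinearMap.zero_apply, smul_zero]
        rw [Finset.smul_sum] at h0
        refine Eq.trans (Finset.sum_congr rfl fun k _ => ?_) h0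
        rw [show (TU ^ k) u' = (S' ^ k) ((C ^ k) u') by rw [← hS'S, hXC.mul_pow, Module.End.mul_apply], ← map_smul (S' ^ k) c,
          hCk k, map_add, map_smul, map_smul, hTk k c _ hMv, smul_smul]
      rw [Finset.sum_add_distrib] at h1
      have h2 := congrArg (fun f : Module.End K U => c • f u') (hpoly c ⟨U3, hU30, hU3P, hU3C⟩)
      simp only [LinearMap.sum_apply, LinearMap.smul_apply, Finset.smul_sum, smul_smul, ← pow_succ', LinearMap.zero_apply,
        smul_zero] at h2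
      rw [h2, zero_add] at h1
      exact h1
    have hl := hind' (fun k => (k : K) - (d' : K)) (fun v hv => ?_) 0 (by omega)
    · simp only [Nat.cast_zero, zero_sub, neg_eq_zero] at hl
      exact hqK hl
    · have h1 := hder v (hle' hv)
      have h2 : ∑ k ∈ range (2 ^ t), (TU ^ k) v = 0 := by rw [← LinearMap.sum_apply, hTUsum, LinearMap.zero_apply]
      rw [show 2 ^ t = d' + 1 by omega, Finset.sum_range_succ] at h1 h2
      simp only [sub_smul, Finset.sum_sub_distrib, ← Finset.smul_sum]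
      rw [eq_neg_of_add_eq_zero_left h1, eq_neg_of_add_eq_zero_left h2, smul_neg, sub_self]
  have hCscal : ∀ v, C v = c • v := by
    intro v
    have htop := Module.End.iSup_maxGenEigenspace_eq_top C
    have hle : ∀ c', Module.End.maxGenEigenspace C c' ≤ Module.End.eigenspace C c := by
      intro c' u hu
      obtain ⟨k, hk⟩ := Module.End.mem_maxGenEigenspace _ _ _ |>.mp hu
      by_cases hu0 : u = 0
      · rw [hu0]; exact zero_mem _
      have hcc : c' = c := by
        refine heig c' ?_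
        by_contra hne
        refine hu0 ?_
        have hinj' : Function.Injective (C - c' • (1 : Module.End K U)) := by
          rw [← LinearMap.ker_eq_bot]
          by_contra hb
          refine hne ?_
          rw [Module.End.hasEigenvalue_iff]
          intro hbot
          refine hb ((Submodule.eq_bot_iff _).mpr fun x hx => ?_)
          rw [LinearMap.mem_ker, LinearMap.sub_apply, LinearMap.smul_apply, Module.End.one_apply, sub_eq_zero] at hx
          exact (Submodule.eq_bot_iff _).mp hbot x (Module.End.mem_eigenspace_iff.mpr hx)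
        have : Function.Injective ((C - c' • (1 : Module.End K U)) ^ k) := by
          rw [Module.End.coe_pow]; exact hinj'.iterate k
        exact this (hk.trans (map_zero _).symm)
      subst hcc
      rw [Module.End.mem_eigenspace_iff, ← hMmem]
      clear hu hu0
      induction k with
      | zero => rw [show u = 0 by simpa using hk, map_zero]
      | succ k ih =>
        rcases Nat.eq_zero_or_pos k with rfl | hk0
        · simpa [hM] using hk
        · refine ih ?_
          obtain ⟨m, rfl⟩ : ∃ m, k = m + 1 := ⟨k - 1, by omega⟩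
          rw [pow_succ', pow_succ', Module.End.mul_apply, Module.End.mul_apply] at hk
          rw [pow_succ', Module.End.mul_apply]
          exact hkerM _ hk
    have := (iSup_le hle) (htop.symm ▸ Submodule.mem_top : v ∈ ⨆ c', Module.End.maxGenEigenspace C c')
    exact Module.End.mem_eigenspace_iff.mp this
  -- trivial outside the plane
  have hTA : TU ∈ A := by
    rw [← hS'S, show C = c • (1 : Module.End K U) from LinearMap.ext hCscal, mul_smul_comm, mul_one]
    exact A.smul_mem c hS'A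
  have hsupn : (P0 ⊔ R).Normal := ⟨fun y hy g => by
    rw [show g * y * g⁻¹ = ⁅g, y⁆ * y by simp only [commutatorElement_def]; group]
    exact mul_mem (Subgroup.mem_sup_right (hZR (hcl g y))) hy⟩
  have hann : ∀ y, y⁻¹ * J y ∈ Z → y⁻¹ * α1 y ∈ R := by
    intro y hy
    have hcomm : ∀ f ∈ A, Commute f (ρU y) := fun f hf => by
      induction hf using Submodule.span_induction with
      | mem f hf =>
        obtain ⟨b, rfl⟩ := hf
        show ρU (b : Q) * ρU y = ρU y * ρU (b : Q)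
        rw [← map_mul, show (b : Q) * y = ⁅(b : Q), y⁆ * (y * b) by simp only [commutatorElement_def]; group,
          map_mul, hρUc, horth b b.2 y hy, one_smul, one_mul, map_mul]
      | zero => exact Commute.zero_left _
      | add f g _ _ h h' => exact h.add_left h'
      | smul r f _ h => exact h.smul_left r
    have h1 : ρU (α1 y) = ρU y := hTUu.mul_right_cancel ((hTUα y).symm.trans (hcomm TU hTA).eq)
    have h2 : ρU (y⁻¹ * α1 y) = 1 := by rw [map_mul, h1, ← map_mul, inv_mul_cancel, map_one]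
    intro b
    have h3 := hconj (y⁻¹ * α1 y) b
    rw [h2, one_mul, show ρU (y⁻¹ * α1 y)⁻¹ = 1 by
      rw [← mul_one (ρU (y⁻¹ * α1 y)⁻¹), ← h2, ← map_mul, inv_mul_cancel, map_one, h2], mul_one] at h3
    have h5 := congrArg (fun f : Module.End K U => f ((ρU b⁻¹) ⟨w, hw⟩)) h3
    simp only [LinearMap.smul_apply, ← Module.End.mul_apply, ← map_mul, mul_inv_cancel, map_one, Module.End.one_apply] at h5
    exact smul_left_injective K (fun h => hw0 (congrArg Subtype.val h)) (h5.symm.trans (one_smul K _).symm)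
  intro y
  have hsupα : ∀ g ∈ P0 ⊔ R, α1 g ∈ P0 ⊔ R := by
    have : (P0 ⊔ R).map α1.toMonoidHom ≤ P0 ⊔ R := by
      rw [Subgroup.map_sup]
      refine sup_le_sup ?_ ?_ <;> rintro _ ⟨g, hg, rfl⟩
      · exact hα1P0 g hg
      · exact hRJ g hg
    exact fun g hg => this ⟨g, hg, rfl⟩
  have hy2 : (y * y)⁻¹ * α1 (y * y) ∈ P0 ⊔ R := by
    set p := (y * y * ((y * (J y)⁻¹) * (y * J y))⁻¹) * (y * (J y)⁻¹) with hp
    have hpP : p ∈ P0 ⊔ R := mul_mem (Subgroup.mem_sup_right (hZR (hsq y))) (Subgroup.mem_sup_left (hdiffP0 y))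
    have hyy : y * y = p * (y * J y) := by rw [hp]; group
    have e : (y * y)⁻¹ * α1 (y * y) = (y * J y)⁻¹ * (p⁻¹ * α1 p) * (y * J y)⁻¹⁻¹ * ((y * J y)⁻¹ * α1 (y * J y)) := by
      rw [hyy, map_mul]; group
    rw [e]
    exact mul_mem (hsupn.conj_mem _ (mul_mem (inv_mem hpP) (hsupα p hpP)) _)
      (Subgroup.mem_sup_right (hann _ (hfixed y)))
  haveI := hsupn
  have hcQ : ∀ a b : Q, (a : Q ⧸ (P0 ⊔ R)) * (b : Q ⧸ (P0 ⊔ R)) = (b : Q ⧸ (P0 ⊔ R)) * a := fun a b => by
    rw [← QuotientGroup.mk_mul, ← QuotientGroup.mk_mul, QuotientGroup.eq,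
      show (a * b)⁻¹ * (b * a) = ⁅b⁻¹, a⁻¹⁆ by simp only [commutatorElement_def]; group]
    exact Subgroup.mem_sup_right (hZR (hcl _ _))
  set u : Q ⧸ (P0 ⊔ R) := ((y⁻¹ * α1 y : Q) : Q ⧸ (P0 ⊔ R)) with hu
  have h1 : u * u = 1 := by
    rw [← (QuotientGroup.eq_one_iff _).mpr hy2, hu, map_mul]
    simp only [QuotientGroup.mk_mul, QuotientGroup.mk_inv, mul_inv_rev]
    have h := hcQ (α1 y) y⁻¹
    rw [QuotientGroup.mk_inv] at h
    calc (y : Q ⧸ (P0 ⊔ R))⁻¹ * (α1 y : Q ⧸ (P0 ⊔ R)) * ((y : Q ⧸ (P0 ⊔ R))⁻¹ * (α1 y : Q ⧸ (P0 ⊔ R)))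
        = (y : Q ⧸ (P0 ⊔ R))⁻¹ * ((α1 y : Q ⧸ (P0 ⊔ R)) * (y : Q ⧸ (P0 ⊔ R))⁻¹) * (α1 y : Q ⧸ (P0 ⊔ R)) := by
          simp only [mul_assoc]
      _ = _ := by rw [h]; simp only [mul_assoc]
  obtain ⟨k, hk⟩ := hQ (y⁻¹ * α1 y)
  have h2' : u ^ d ^ k = 1 := by rw [hu, ← QuotientGroup.mk_pow, hk]; rfl
  obtain ⟨l, hl⟩ := hqodd.pow (n := k)
  rw [hl, pow_succ, pow_mul, pow_two, h1, one_pow, one_mul] at h2'
  exact (QuotientGroup.eq_one_iff _).mp h2'

end Cfsg.Agent.FPFPower
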