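/-
An operator of order dividing `2^n` with vanishing norm, compatible with a `q`-group and with an `s`-group acting
on it: the elements of the `s`-group inverted by the involution act trivially on the image of the `q`-group.
-/
import Mathlib
import Cfsg.Agent.FPFPower.Plane
import Cfsg.Agent.FPFPower.Bireflect
import Cfsg.Agent.PrimeFPF.Group
import Cfsg.Agent.PGroup.Critical

set_option autoImplicit false
set_option maxHeartbeats 1000000

namespace Cfsg.Agent.FPFPower

open Module Finset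
open scoped commutatorElement TensorProduct

universe u

/-- An element inverted by an involutory automorphism of a group of odd order is a commutator with it. -/
theorem exists_root {S : Type*} [Group S] [Finite S] (hodd : Odd (Nat.card S)) (S0 : Subgroup S) (J : MulAut S)
    {g : S} (hg : g ∈ S0) (hJ : J g = g⁻¹) : ∃ y ∈ S0, g = y⁻¹ * J y := by
  obtain ⟨l, hl⟩ := hodd
  refine ⟨g ^ l, pow_mem hg l, ?_⟩
  rw [map_pow, hJ, inv_pow, ← mul_inv_rev, ← pow_add]
  have h : g ^ (l + l) * g = 1 := by rw [← pow_succ, show l + l + 1 = Nat.card S by omega, pow_card_eq_one']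
  exact (eq_inv_of_mul_eq_one_right h)

/-- The action on an elementary abelian group with a small plane. -/
theorem abelian_fixed {q s t : ℕ} [Fact q.Prime] [Fact s.Prime] (hq2 : q ≠ 2) (hs2 : s ≠ 2) (hqs : q ≠ s) (ht : 2 ≤ t)
    (ht3 : t = 2 → s ≠ 3) {M : Type*} [CommGroup M] [Finite M] [Module (ZMod q) (Additive M)]
    {S : Type u} [Group S] [Finite S] (hS : IsPGroup s S) (β : MulAut S) (hβ : β ^ 2 ^ t = 1) (φ : S →* MulAut M)
    (α : MulAut M) (hα : α ^ 2 ^ t = 1) (hαφ : ∀ x a, α (φ x a) = φ (β x) (α a)) (P : Subgroup M)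
    (hP : Nat.card P = q ^ 2) (hαP : ∀ a, a⁻¹ * α a ∈ P) :
    ∀ x a, φ ((β ^ 2 ^ (t - 1)) x) a = φ x a := by
  classical
  have hq : q.Prime := Fact.out
  have hs : s.Prime := Fact.out
  haveI : Finite (Additive M) := Finite.of_equiv M Additive.ofMul
  let lin : MulAut M → Module.End (ZMod q) (Additive M) := fun f =>
    (MonoidHom.toAdditive f.toMonoidHom).toZModLinearMap q
  have hlin : ∀ f a, lin f (Additive.ofMul a) = Additive.ofMul (f a) := fun f a => rfl
  have ext' : ∀ F G : Module.End (ZMod q) (Additive M), (∀ a : M, F (Additive.ofMul a) = G (Additive.ofMul a)) → F = G :=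
    fun F G h => LinearMap.ext fun v => h (Additive.toMul v)
  let ρ : S →* Module.End (ZMod q) (Additive M) :=
    { toFun := fun x => lin (φ x)
      map_one' := ext' _ _ fun a => by rw [hlin, map_one]; rfl
      map_mul' := fun x y => ext' _ _ fun a => by rw [hlin, map_mul]; rfl }
  set T := lin α with hTdef
  have hTi : ∀ (i : ℕ) a, (T ^ i) (Additive.ofMul a) = Additive.ofMul ((α ^ i) a) := by
    intro i
    induction i with
    | zero => intro a; rfl
    | succ i ih => intro a; rw [pow_succ', Module.End.mul_apply, ih, hTdef, hlin, pow_succ', MulAut.mul_apply]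
  have hT1 : T ^ 2 ^ t = 1 := ext' _ _ fun a => by rw [hTi, hα]; rfl
  have hTβ : ∀ x, T * ρ x = ρ (β x) * T := fun x => ext' _ _ fun a => by
    show lin α (lin (φ x) (Additive.ofMul a)) = lin (φ (β x)) (lin α (Additive.ofMul a))
    rw [hlin, hlin, hlin, hlin, hαφ]
  -- the plane
  let PM : Submodule (ZMod q) (Additive M) := AddSubgroup.toZModSubmodule q (Subgroup.toAddSubgroup P)
  have hPM : finrank (ZMod q) PM = 2 := by
    have h1 := Module.natCard_eq_pow_finrank (K := ZMod q) (V := PM)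
    rw [show Nat.card PM = q ^ 2 from hP, Nat.card_zmod] at h1
    exact (Nat.pow_right_injective hq.two_le h1).symm
  have hTPM : ∀ v, (T - 1) v ∈ PM := by
    intro v
    obtain ⟨a, rfl⟩ := Additive.ofMul.surjective v
    rw [LinearMap.sub_apply, Module.End.one_apply, hTdef, hlin, sub_eq_neg_add]
    exact hαP a
  -- over the algebraic closure
  let Kb := AlgebraicClosure (ZMod q)
  let B := Module.End.baseChangeHom (ZMod q) Kb (Additive M)
  let Pb : Submodule Kb (Kb ⊗[ZMod q] Additive M) := LinearMap.range (PM.subtype.baseChange Kb)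
  have hPb : finrank Kb Pb ≤ 2 := by
    refine (LinearMap.finrank_range_le _).trans ?_
    rw [Module.finrank_baseChange, hPM]
  have hTPb : ∀ v, B T v - v ∈ Pb := by
    intro v
    let f : Additive M →ₗ[ZMod q] PM := LinearMap.codRestrict PM (T - 1) hTPM
    refine ⟨f.baseChange Kb v, ?_⟩
    rw [← LinearMap.comp_apply, ← LinearMap.baseChange_comp]
    show B (T - 1) v = _
    rw [map_sub, map_one, LinearMap.sub_apply, Module.End.one_apply]
  haveI : CharP Kb q := charP_of_injective_algebraMap (algebraMap (ZMod q) Kb).injective q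
  have hne : ∀ r : ℕ, r.Prime → r ≠ q → (r : Kb) ≠ 0 := fun r hr hrq h =>
    hrq ((Nat.prime_dvd_prime_iff_eq hq hr).mp ((CharP.cast_eq_zero_iff Kb q r).mp h)).symm
  intro x a
  have h := bireflect (K := Kb) (t := t) hs2 (by exact_mod_cast hne 2 Nat.prime_two (Ne.symm hq2)) (hne s hs (Ne.symm hqs))
    ht ht3 _ S (Kb ⊗[ZMod q] Additive M) rfl hS (B.toRingHom.toMonoidHom.comp ρ) β hβ (B T)
    (by rw [← map_pow, hT1, map_one])
    (fun y => by
      show B T * B (ρ y) = B (ρ (β y)) * B T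
      rw [← map_mul, ← map_mul, hTβ])
    Pb hPb hTPb x
  have h1 := LinearMap.congr_fun (Cfsg.Agent.PrimeFPF.baseChange_inj h) (Additive.ofMul a)
  change lin (φ ((β ^ 2 ^ (t - 1)) x)) (Additive.ofMul a) = lin (φ x) (Additive.ofMul a) at h1
  rw [hlin, hlin] at h1
  exact Additive.ofMul.injective h1

/-- The action on an elementary abelian quotient with a small plane. -/
theorem quotient_fixed {q s t : ℕ} [Fact q.Prime] [Fact s.Prime] {H : Type*} [Group H] [Finite H]
    (hq2 : q ≠ 2) (hs2 : s ≠ 2) (hqs : q ≠ s) (ht : 2 ≤ t) (ht3 : t = 2 → s ≠ 3) (R : Subgroup H) [R.Normal]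
    (hab : ∀ a b : H, ⁅a, b⁆ ∈ R) (hexp : ∀ a : H, a ^ q = 1) {S : Type u} [Group S] [Finite S] (hS : IsPGroup s S)
    (β : MulAut S) (hβ : β ^ 2 ^ t = 1) (φ : S →* MulAut H) (hφR : ∀ x, ∀ a ∈ R, φ x a ∈ R) (α : MulAut H)
    (hα : α ^ 2 ^ t = 1) (hαR : ∀ a ∈ R, α a ∈ R) (hαφ : ∀ x a, α (φ x a) = φ (β x) (α a)) (P : Subgroup H)
    (hP : R.relIndex P = q ^ 2) (hαP : ∀ a, a⁻¹ * α a ∈ P) :
    ∀ x a, (φ x a)⁻¹ * φ ((β ^ 2 ^ (t - 1)) x) a ∈ R := by
  classical
  letI : CommGroup (H ⧸ R) := { (inferInstance : Group (H ⧸ R)) with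
    mul_comm := fun u v => by
      induction u using QuotientGroup.induction_on with
      | H a =>
        induction v using QuotientGroup.induction_on with
        | H b =>
          rw [← QuotientGroup.mk_mul, ← QuotientGroup.mk_mul, QuotientGroup.eq,
            show (a * b)⁻¹ * (b * a) = ⁅b⁻¹, a⁻¹⁆ by simp only [commutatorElement_def]; group]
          exact hab _ _ }
  have hu : ∀ u : H ⧸ R, u ^ q = 1 := fun u => by
    induction u using QuotientGroup.induction_on with
    | H a => rw [← QuotientGroup.mk_pow, hexp]; rfl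
  haveI := @AddCommGroup.zmodModule q (Additive (H ⧸ R)) _ fun u => congrArg Additive.ofMul (hu (Additive.toMul u))
  have hmap : ∀ f : MulAut H, (∀ a ∈ R, f a ∈ R) → R.map f.toMonoidHom = R := fun f hf =>
    Subgroup.eq_of_le_of_card_ge (by rintro _ ⟨y, hy, rfl⟩; exact hf y hy)
      (by rw [Subgroup.card_map_of_injective f.injective])
  let αq : MulAut (H ⧸ R) := QuotientGroup.congr R R α (hmap α hαR)
  let φq : S →* MulAut (H ⧸ R) :=
    { toFun := fun x => QuotientGroup.congr R R (φ x) (hmap _ (hφR x))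
      map_one' := MulEquiv.ext fun u => by
        induction u using QuotientGroup.induction_on with
        | H a => show ((φ 1 a : H) : H ⧸ R) = _; rw [map_one]; rfl
      map_mul' := fun x y => MulEquiv.ext fun u => by
        induction u using QuotientGroup.induction_on with
        | H a => show ((φ (x * y) a : H) : H ⧸ R) = _; rw [map_mul]; rfl }
  have hαq : ∀ (i : ℕ) (a : H), (αq ^ i) (a : H ⧸ R) = (((α ^ i) a : H) : H ⧸ R) := by
    intro i a
    induction i with
    | zero => rfl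
    | succ i ih => rw [pow_succ', MulAut.mul_apply, ih, pow_succ', MulAut.mul_apply]; rfl
  intro x a
  have h := abelian_fixed (q := q) (s := s) (t := t) hq2 hs2 hqs ht ht3 hS β hβ φq αq
    (MulEquiv.ext fun u => by
      induction u using QuotientGroup.induction_on with
      | H b => rw [hαq, hα]; rfl)
    (fun y u => by
      induction u using QuotientGroup.induction_on with
      | H b => show ((α (φ y b) : H) : H ⧸ R) = _; rw [hαφ]; rfl)
    (P.map (QuotientGroup.mk' R))
    (by rw [← hP]; conv_rhs => rw [← QuotientGroup.ker_mk' R, Subgroup.relIndex_ker])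
    (fun u => by
      induction u using QuotientGroup.induction_on with
      | H b => exact ⟨b⁻¹ * α b, hαP b, rfl⟩)
    x (a : H ⧸ R)
  exact QuotientGroup.eq.mp h.symm

/-- The class two, exponent `q`, faithful case over an algebraically closed field. -/
theorem fixed_classTwo {K W : Type*} [Field K] [IsAlgClosed K] [AddCommGroup W] [Module K W] [FiniteDimensional K W]
    {q s n : ℕ} [Fact q.Prime] [Fact s.Prime] {H : Type*} [Group H] [Finite H] (hq2 : q ≠ 2) (hs2 : s ≠ 2)
    (hqs : q ≠ s) (hn : 1 ≤ n) (hqK : (q : K) ≠ 0) (hH : IsPGroup q H)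
    (hcl : ∀ a b : H, ⁅a, b⁆ ∈ Subgroup.center H) (hexp : ∀ a : H, a ^ q = 1) (ρ : H →* Module.End K W)
    (hinj : Function.Injective ρ) (α : MulAut H) (hα : α ^ 2 ^ n = 1) (T : Module.End K W) (hT : T ^ 2 ^ n = 1)
    (hTα : ∀ a, T * ρ a = ρ (α a) * T) (hsum : ∑ k ∈ range (2 ^ n), T ^ k = 0)
    {S : Type u} [Group S] [Finite S] (hS : IsPGroup s S) (β : MulAut S) (hβ : β ^ 2 ^ n = 1) (φ : S →* MulAut H)
    (hαφ : ∀ x a, α (φ x a) = φ (β x) (α a)) :
    ∀ x, φ (x⁻¹ * (β ^ 2 ^ (n - 1)) x) = 1 := by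
  classical
  have hq : q.Prime := Fact.out
  have hs : s.Prime := Fact.out
  have hSodd : Odd (Nat.card S) := by
    obtain ⟨k, hk⟩ := IsPGroup.iff_card.mp hS
    rw [hk]; exact (hs.odd_of_ne_two hs2).pow
  have hQK : (Nat.card H : K) ≠ 0 := by
    obtain ⟨k, hk⟩ := IsPGroup.iff_card.mp hH
    rw [hk, Nat.cast_pow]; exact pow_ne_zero _ hqK
  set Z := Subgroup.center H with hZdef
  set J := α ^ 2 ^ (n - 1) with hJdef
  set Jb := β ^ 2 ^ (n - 1) with hJbdef
  have hJZ : ∀ z ∈ Z, J z = z := center_fixed hn hQK ρ hinj α hα T hT hTα hsum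
  have hJ2 : ∀ y, J (J y) = y := fun y => by
    rw [hJdef, ← MulAut.mul_apply, ← pow_add, ← two_mul, ← pow_succ', Nat.sub_add_cancel hn, hα, MulAut.one_apply]
  have hJb2 : ∀ y, Jb (Jb y) = y := fun y => by
    rw [hJbdef, ← MulAut.mul_apply, ← pow_add, ← two_mul, ← pow_succ', Nat.sub_add_cancel hn, hβ, MulAut.one_apply]
  have hαφi : ∀ (i : ℕ) x a, (α ^ i) (φ x a) = φ ((β ^ i) x) ((α ^ i) a) := by
    intro i
    induction i with
    | zero => intro x a; rfl
    | succ i ih => intro x a; rw [pow_succ', MulAut.mul_apply, ih, hαφ, pow_succ']; rfl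
  have hφZ : ∀ x, ∀ z ∈ Z, φ x z ∈ Z := fun x z hz =>
    (Subgroup.characteristic_iff_le_comap.mp (inferInstance : Z.Characteristic) (φ x)) hz
  have hαZ : ∀ z ∈ Z, α z ∈ Z := fun z hz =>
    (Subgroup.characteristic_iff_le_comap.mp (inferInstance : Z.Characteristic) α) hz
  -- the kernel of the action on the center
  let S0 : Subgroup S :=
    { carrier := {x | ∀ z ∈ Z, φ x z = z}
      one_mem' := fun z _ => by rw [map_one]; rfl
      mul_mem' := fun {x y} hx hy z hz => by rw [map_mul, MulAut.mul_apply, hy z hz, hx z hz]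
      inv_mem' := fun {x} hx z hz => by
        rw [map_inv]; refine (φ x).injective ?_
        rw [MulAut.apply_inv_self, hx z hz] }
  have hgS0 : ∀ x, x⁻¹ * Jb x ∈ S0 := fun x z hz => by
    rw [map_mul, MulAut.mul_apply]
    have h1 := hαφi (2 ^ (n - 1)) x z
    rw [← hJdef, hJZ _ (hφZ x z hz), hJZ z hz] at h1
    rw [← h1, ← MulAut.mul_apply, ← map_mul, inv_mul_cancel, map_one]; rfl
  have hS0β : ∀ x ∈ S0, β x ∈ S0 := fun x hx z hz => by
    have hz' : α.symm z ∈ Z := (Subgroup.characteristic_iff_le_comap.mp (inferInstance : Z.Characteristic) α.symm) hz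
    have h1 := hαφ x (α.symm z)
    rw [hx _ hz', MulEquiv.apply_symm_apply] at h1
    exact h1.symm
  -- the radicals
  have main : ∀ y ∈ S0, ∀ (χ : H → K) (w : W) (hw : w ∈ wt ρ Z χ) (hw0 : w ≠ 0), ∀ a,
      (φ y a)⁻¹ * φ (Jb y) a ∈ radical ρ χ hcl hw hw0 := by
    intro y hy χ w hw hw0
    set R := radical ρ χ hcl hw hw0 with hR
    have hZR : Z ≤ R := fun z hz b => by
      rw [commutatorElement_eq_one_iff_mul_comm.mpr (Subgroup.mem_center_iff.mp hz b).symm, char_one hw hw0]
    haveI hRn : R.Normal := ⟨fun r hr g => by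
      rw [show g * r * g⁻¹ = ⁅g, r⁆ * r by simp only [commutatorElement_def]; group]
      exact mul_mem (hZR (hcl g r)) hr⟩
    have hφR : ∀ x ∈ S0, ∀ r ∈ R, φ x r ∈ R := by
      intro x hx r hr b
      obtain ⟨b', rfl⟩ := (φ x).surjective b
      rw [show ⁅φ x r, φ x b'⁆ = φ x ⁅r, b'⁆ from (map_commutatorElement (φ x).toMonoidHom r b').symm,
        hx _ (hcl r b')]
      exact hr b'
    rcases plane (q := q) hq2 hn hH hqK hcl ρ hinj α hα T hT hTα hsum χ hw hw0 with hA | ⟨j, hj, hqj, hχj, P, hRP, hPi, hPy⟩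
    · intro a
      rw [← hJdef] at hA
      have h1 := hαφi (2 ^ (n - 1)) y a
      rw [← hJdef, ← hJbdef] at h1
      have e1 : φ (Jb y) (J a) * (φ (Jb y) a)⁻¹ ∈ R := by
        rw [← map_inv, ← map_mul]
        refine hφR _ (by rw [hJbdef]; exact pow_apply_mem β hS0β _ hy) _ ?_
        exact hRn.mem_comm (hA a)
      rw [← h1] at e1
      have e2 : (φ y a)⁻¹ * J (φ y a) ∈ R := hA _
      have e4 : (φ (Jb y) a)⁻¹ * J (φ y a) ∈ R := hRn.mem_comm e1
      have := mul_mem e2 (inv_mem e4)
      rwa [mul_inv_rev, inv_inv, ← mul_assoc, mul_inv_cancel_right] at this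
    · let β1 : MulAut S0 := MulEquiv.ofBijective
        (((β ^ 2 ^ j : MulAut S).toMonoidHom.comp S0.subtype).codRestrict S0 fun z => pow_apply_mem β hS0β _ z.2)
        (Finite.injective_iff_bijective.mp fun a b h => Subtype.ext ((β ^ 2 ^ j).injective (congrArg Subtype.val h)))
      have hβ1 : ∀ (k : ℕ) (z : S0), (((β1 ^ k) z : S0) : S) = (β ^ (2 ^ j * k)) z := by
        intro k z
        induction k with
        | zero => rfl
        | succ k ih => rw [pow_succ', MulAut.mul_apply, Nat.mul_succ, add_comm, pow_add, MulAut.mul_apply, ← ih]; rfl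
      have hjn : 2 ^ j * 2 ^ (n - j) = 2 ^ n := by rw [← pow_add, Nat.add_sub_cancel' (by omega)]
      have hαR : ∀ r ∈ R, (α ^ 2 ^ j) r ∈ R := by
        intro r hr b
        obtain ⟨b', rfl⟩ := (α ^ 2 ^ j).surjective b
        rw [show ⁅(α ^ 2 ^ j) r, (α ^ 2 ^ j) b'⁆ = (α ^ 2 ^ j) ⁅r, b'⁆ from
          (map_commutatorElement (α ^ 2 ^ j).toMonoidHom r b').symm, hχj _ (hcl r b')]
        exact hr b'
      intro a
      have h := quotient_fixed (q := q) (s := s) (t := n - j) hq2 hs2 hqs (by omega)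
        (fun ht hs3 => by
          rw [ht] at hqj
          exact hqs (by omega))
        R (fun a b => hZR (hcl a b)) hexp (hS.to_subgroup S0) β1
        (MulEquiv.ext fun z => Subtype.ext (by rw [hβ1, hjn, hβ]; rfl)) (φ.comp S0.subtype) (fun x => hφR x x.2)
        (α ^ 2 ^ j) (by rw [← pow_mul, hjn, hα]) hαR
        (fun x b => by
          show (α ^ 2 ^ j) (φ x b) = φ (β1 x : S) ((α ^ 2 ^ j) b)
          rw [hαφi]; rfl)
        P hPi hPy ⟨y, hy⟩ a
      simp only [MonoidHom.comp_apply, Subgroup.coe_subtype] at h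
      rwa [hβ1, ← pow_add, show j + (n - j - 1) = n - 1 by omega, ← hJbdef] at h
  -- conclusion
  intro x
  set g := x⁻¹ * Jb x with hg
  obtain ⟨y, hy, hgy⟩ := exists_root hSodd S0 Jb (hgS0 x) (by rw [map_mul, map_inv, hJb2]; group)
  have hmod : ∀ a, a⁻¹ * φ g a ∈ Z := by
    intro a
    obtain ⟨a', rfl⟩ : ∃ a', φ y⁻¹ (φ y a') = a := ⟨a, by
      rw [← MulAut.mul_apply, ← map_mul, inv_mul_cancel, map_one]; rfl⟩
    have e : φ g (φ y⁻¹ (φ y a')) = φ y⁻¹ (φ (Jb y) a') := by
      rw [hg, ← MulAut.mul_apply, ← map_mul, hgy, ← MulAut.mul_apply, ← map_mul, ← MulAut.mul_apply, ← map_mul,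
        show y⁻¹ * Jb y * y⁻¹ * y = y⁻¹ * Jb y by group]
    rw [e, ← map_inv, ← map_mul]
    refine hφZ _ _ (Subgroup.mem_center_iff.mpr fun b => ?_)
    set c := (φ y a')⁻¹ * φ (Jb y) a' with hc
    refine (commutatorElement_eq_one_iff_mul_comm.mp ?_).symm
    refine hinj (LinearMap.ext fun v => ?_)
    rw [map_one]
    by_contra hne
    obtain ⟨χ, w, -, hw0, hw, hχ⟩ := exists_weight ρ Z ⊤ (fun _ _ _ _ => trivial)
      (fun p hp r _ u _ => by
        rw [← Module.End.mul_apply, ← Module.End.mul_apply, ← map_mul, ← map_mul, Subgroup.mem_center_iff.mp hp r])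
      (hcl c b) pow_card_eq_one' hQK ⟨v, trivial, hne⟩
    exact hχ (main y hy χ w hw hw0 a' b)
  have hgZ : ∀ z ∈ Z, φ g z = z := hgS0 x
  refine MulEquiv.ext fun a => ?_
  set z := a⁻¹ * φ g a with hz
  have hk : ∀ k : ℕ, (φ g ^ k) a = a * z ^ k := by
    intro k
    induction k with
    | zero => simp
    | succ k ih =>
      rw [pow_succ', MulAut.mul_apply, ih, map_mul, map_pow, hgZ z (hmod a), pow_succ', ← mul_assoc]
      congr 1
      rw [hz]; group
  have h1 := hk (Nat.card S)
  rw [← map_pow, pow_card_eq_one', map_one, MulAut.one_apply, left_eq_mul] at h1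
  obtain ⟨k, hk'⟩ := IsPGroup.iff_card.mp hS
  rw [hk'] at h1
  have h2 : z = 1 := by
    rw [← orderOf_eq_one_iff, ← Nat.dvd_one,
      ← (Nat.Coprime.pow_left k ((Nat.coprime_primes hs hq).mpr (Ne.symm hqs)) : Nat.gcd (s ^ k) q = 1)]
    exact Nat.dvd_gcd (orderOf_dvd_of_pow_eq_one h1) (orderOf_dvd_of_pow_eq_one (hexp z))
  rw [hz, inv_mul_eq_one] at h2
  exact h2.symm

/-- The general case. -/
theorem fixed_image {k V : Type*} [Field k] [AddCommGroup V] [Module k V] [FiniteDimensional k V]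
    {q s n : ℕ} [Fact q.Prime] [Fact s.Prime] {Q : Type*} [Group Q] [Finite Q] (hq2 : q ≠ 2) (hs2 : s ≠ 2)
    (hqs : q ≠ s) (hn : 1 ≤ n) (hqk : (q : k) ≠ 0) (hQ : IsPGroup q Q) (ρ : Q →* Module.End k V) (α : MulAut Q)
    (hα : α ^ 2 ^ n = 1) (T : Module.End k V) (hT : T ^ 2 ^ n = 1) (hTα : ∀ a, T * ρ a = ρ (α a) * T)
    (hsum : ∑ i ∈ range (2 ^ n), T ^ i = 0) {S : Type u} [Group S] [Finite S] (hS : IsPGroup s S) (β : MulAut S)
    (hβ : β ^ 2 ^ n = 1) (φ : S →* MulAut Q) (hαφ : ∀ x a, α (φ x a) = φ (β x) (α a))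
    (hφker : ∀ x a, ρ a = 1 → ρ (φ x a) = 1) :
    ∀ x a, ρ (φ (x⁻¹ * (β ^ 2 ^ (n - 1)) x) a) = ρ a := by
  classical
  have hq : q.Prime := Fact.out
  have hs : s.Prime := Fact.out
  have hTu : IsUnit T := IsUnit.of_pow_eq_one hT (pow_pos two_pos n).ne'
  set N := ρ.ker with hN
  have hkerα : ∀ a ∈ N, α a ∈ N := fun a ha => by
    rw [hN, MonoidHom.mem_ker] at ha ⊢
    refine hTu.mul_right_cancel ?_
    rw [← hTα, ha, mul_one, one_mul]
  have hker : ∀ f : MulAut Q, (∀ a ∈ N, f a ∈ N) → N.map f.toMonoidHom = N := fun f hf =>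
    Subgroup.eq_of_le_of_card_ge (by rintro _ ⟨y, hy, rfl⟩; exact hf y hy)
      (by rw [Subgroup.card_map_of_injective f.injective])
  have hφN : ∀ x, ∀ a ∈ N, φ x a ∈ N := fun x a ha => by
    rw [hN, MonoidHom.mem_ker] at ha ⊢; exact hφker x a ha
  let αq : MulAut (Q ⧸ N) := QuotientGroup.congr N N α (hker α hkerα)
  let φq : S →* MulAut (Q ⧸ N) :=
    { toFun := fun x => QuotientGroup.congr N N (φ x) (hker _ (hφN x))
      map_one' := MulEquiv.ext fun u => by
        induction u using QuotientGroup.induction_on with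
        | H a => show ((φ 1 a : Q) : Q ⧸ N) = _; rw [map_one]; rfl
      map_mul' := fun x y => MulEquiv.ext fun u => by
        induction u using QuotientGroup.induction_on with
        | H a => show ((φ (x * y) a : Q) : Q ⧸ N) = _; rw [map_mul]; rfl }
  have hαq : ∀ (i : ℕ) (a : Q), (αq ^ i) (a : Q ⧸ N) = (((α ^ i) a : Q) : Q ⧸ N) := by
    intro i a
    induction i with
    | zero => rfl
    | succ i ih => rw [pow_succ', MulAut.mul_apply, ih, pow_succ', MulAut.mul_apply]; rfl
  have hQq : IsPGroup q (Q ⧸ N) := hQ.to_quotient N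
  obtain ⟨D, hDchar, hDcl, hDexp, hDcrit⟩ := Cfsg.Agent.PGroup.exists_characteristic_exponent_prime hq2 hQq
  have hDf : ∀ f : MulAut (Q ⧸ N), ∀ d ∈ D, f d ∈ D := fun f d hd =>
    (Subgroup.characteristic_iff_le_comap.mp hDchar f) hd
  let res : MulAut (Q ⧸ N) → MulAut D := fun f =>
    MulEquiv.ofBijective ((f.toMonoidHom.comp D.subtype).codRestrict D fun d => hDf f d d.2)
      (Finite.injective_iff_bijective.mp fun a b h => Subtype.ext (f.injective (congrArg Subtype.val h)))
  have hres : ∀ f d, ((res f d : D) : Q ⧸ N) = f d := fun f d => rfl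
  let φD : S →* MulAut D :=
    { toFun := fun x => res (φq x)
      map_one' := MulEquiv.ext fun d => Subtype.ext (by rw [hres, map_one]; rfl)
      map_mul' := fun x y => MulEquiv.ext fun d => Subtype.ext (by rw [hres, map_mul]; rfl) }
  let L := AlgebraicClosure k
  let B := Module.End.baseChangeHom k L V
  let ρq : Q ⧸ N →* Module.End k V := QuotientGroup.lift N ρ le_rfl
  have hρq : ∀ a : Q, ρq (a : Q ⧸ N) = ρ a := fun a => rfl
  have hinj : Function.Injective ρq := by
    intro u v
    induction u using QuotientGroup.induction_on with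
    | H a =>
      induction v using QuotientGroup.induction_on with
      | H b =>
        intro h
        rw [hρq, hρq] at h
        rw [QuotientGroup.eq, hN, MonoidHom.mem_ker, map_mul, ← h, ← map_mul, inv_mul_cancel, map_one]
  let ρD : D →* Module.End L (TensorProduct k L V) := B.toRingHom.toMonoidHom.comp (ρq.comp D.subtype)
  have hρDinj : Function.Injective ρD := fun a b h => Subtype.ext (hinj (Cfsg.Agent.PrimeFPF.baseChange_inj h))
  have hresi : ∀ (i : ℕ) d, ((((res αq) ^ i) d : D) : Q ⧸ N) = (αq ^ i) (d : Q ⧸ N) := by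
    intro i d
    induction i with
    | zero => rfl
    | succ i ih => rw [pow_succ', MulAut.mul_apply, hres, ih, pow_succ', MulAut.mul_apply]
  have hαq1 : αq ^ 2 ^ n = 1 := MulEquiv.ext fun u => by
    induction u using QuotientGroup.induction_on with
    | H a => rw [hαq, hα]; rfl
  intro x a
  have h := fixed_classTwo (K := L) (q := q) (s := s) (n := n) hq2 hs2 hqs hn
    (fun h0 => hqk ((algebraMap k L).injective (by simpa using h0))) (hQq.to_subgroup D)
    (fun p r => hDcl (Subgroup.commutator_mem_commutator (Subgroup.mem_top p) (Subgroup.mem_top r)))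
    (fun d => Subtype.ext (hDexp d d.2)) ρD hρDinj (res αq)
    (MulEquiv.ext fun d => Subtype.ext (by rw [hresi, hαq1]; rfl)) (B T) (by rw [← map_pow, hT, map_one])
    (fun d => by
      show B T * B (ρq d) = B (ρq (res αq d : D)) * B T
      rw [← map_mul, ← map_mul, hres]
      congr 1
      obtain ⟨b, hb⟩ := QuotientGroup.mk_surjective (d : Q ⧸ N)
      rw [← hb]
      exact hTα b)
    (by rw [Finset.sum_congr rfl fun i _ => (map_pow B T i).symm, ← map_sum, hsum, map_zero])
    hS β hβ φD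
    (fun y d => Subtype.ext (by
      show αq (φq y d) = φq (β y) (αq d)
      obtain ⟨b, hb⟩ := QuotientGroup.mk_surjective (d : Q ⧸ N)
      rw [← hb]
      show ((α (φ y b) : Q) : Q ⧸ N) = ((φ (β y) (α b) : Q) : Q ⧸ N)
      rw [hαφ]))
    x
  set g := x⁻¹ * (β ^ 2 ^ (n - 1)) x with hg
  have h2 : φq g = 1 := hDcrit _ (by
      obtain ⟨m, hm⟩ := IsPGroup.iff_card.mp hS
      have : orderOf (φq g) ∣ s ^ m := hm ▸ orderOf_dvd_of_pow_eq_one (by rw [← map_pow, pow_card_eq_one', map_one])
      exact Nat.Coprime.coprime_dvd_left this (Nat.Coprime.pow_left m ((Nat.coprime_primes hs hq).mpr (Ne.symm hqs))))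
    fun d hd => congrArg Subtype.val (MulEquiv.congr_fun h ⟨d, hd⟩)
  have h3 := congrArg ρq (MulEquiv.congr_fun h2 (a : Q ⧸ N))
  exact h3

end Cfsg.Agent.FPFPower
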