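/-
An automorphism of order dividing `2^n` whose norm kills an elementary abelian normal subgroup: the elements of an
invariant `s`-group inverted by the involution centralize an invariant `q`-group modulo the kernel of the action.
-/
import Mathlib
import Cfsg.Agent.FPFPower.Involution
import Cfsg.Agent.Lib.HHExponent

set_option autoImplicit false
set_option maxHeartbeats 400000

namespace Cfsg.Agent.FPFPower

open Finset Cfsg.Agent.HH

/-- The restriction of an automorphism to an invariant subgroup of a finite group. -/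
theorem exists_restrict {X : Type*} [Group X] [Finite X] (σ : MulAut X) (H : Subgroup X) (hH : ∀ y ∈ H, σ y ∈ H) :
    ∃ τ : MulAut H, ∀ (i : ℕ) (y : H), (((τ ^ i) y : H) : X) = (σ ^ i) y := by
  let τ : MulAut H := MulEquiv.ofBijective ((σ.toMonoidHom.comp H.subtype).codRestrict H fun z => hH z z.2)
    (Finite.injective_iff_bijective.mp fun a b h => Subtype.ext (σ.injective (congrArg Subtype.val h)))
  refine ⟨τ, fun i y => ?_⟩
  induction i with
  | zero => rfl
  | succ i ih => rw [pow_succ', MulAut.mul_apply, pow_succ', MulAut.mul_apply, ← ih]; rfl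

theorem centralizes_of_norm {X : Type*} [Group X] [Finite X] {ℓ q s n : ℕ} [Fact ℓ.Prime] [Fact q.Prime] [Fact s.Prime]
    (hq2 : q ≠ 2) (hs2 : s ≠ 2) (hqs : q ≠ s) (hql : q ≠ ℓ) (hn : 1 ≤ n) {V : Subgroup X} [V.Normal]
    (hV : IsModuleSubgroup ℓ V) (σ : MulAut X) (hσ : σ ^ 2 ^ n = 1) (hVσ : ∀ v ∈ V, σ v ∈ V)
    (hnorm : ∀ v ∈ V, ((List.range (2 ^ n)).map fun i => (σ ^ i) v).prod = 1)
    (Q S : Subgroup X) (hQ : IsPGroup q Q) (hS : IsPGroup s S) (hQσ : ∀ y ∈ Q, σ y ∈ Q) (hSσ : ∀ y ∈ S, σ y ∈ S)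
    (hSQ : S ≤ Subgroup.normalizer (Q : Set X)) {x a v : X} (hx : x ∈ S) (ha : a ∈ Q) (hv : v ∈ V) :
    (x⁻¹ * (σ ^ 2 ^ (n - 1)) x * a * (x⁻¹ * (σ ^ 2 ^ (n - 1)) x)⁻¹) * v *
      (x⁻¹ * (σ ^ 2 ^ (n - 1)) x * a * (x⁻¹ * (σ ^ 2 ^ (n - 1)) x)⁻¹)⁻¹ = a * v * a⁻¹ := by
  classical
  obtain ⟨ρV, hρV⟩ := exists_conjRep hV
  obtain ⟨α, hα⟩ := exists_restrict σ Q hQσ
  obtain ⟨β, hβ⟩ := exists_restrict σ S hSσ
  let ρ : Q →* Module.End (ZMod ℓ) (HH.Mod hV) := ρV.comp ((QuotientGroup.mk' V).comp Q.subtype)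
  have hρ : ∀ (y : Q) (m : HH.Mod hV), (ρ y m).val = (y : X) * m.val * (y : X)⁻¹ := fun y m => hρV y m
  let φ : S →* MulAut Q := (Subgroup.normalizerMonoidHom Q).comp (Subgroup.inclusion hSQ)
  have hφ : ∀ (y : S) (b : Q), ((φ y b : Q) : X) = y * b * (y : X)⁻¹ := fun y b => rfl
  let f : HH.Mod hV →+ HH.Mod hV :=
    { toFun := fun m => HH.Mod.mk hV (σ m.val) (hVσ _ m.val_mem)
      map_zero' := HH.Mod.ext (map_one σ)
      map_add' := fun a b => HH.Mod.ext (show σ (a.val * b.val) = σ a.val * σ b.val from map_mul σ _ _) }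
  let T : Module.End (ZMod ℓ) (HH.Mod hV) := f.toZModLinearMap ℓ
  have hTi : ∀ (i : ℕ) (m : HH.Mod hV), ((T ^ i) m).val = (σ ^ i) m.val := by
    intro i m
    induction i with
    | zero => rfl
    | succ i ih => rw [pow_succ', Module.End.mul_apply, pow_succ', MulAut.mul_apply, ← ih]; rfl
  have hqk : (q : ZMod ℓ) ≠ 0 := fun h =>
    hql ((Nat.prime_dvd_prime_iff_eq Fact.out Fact.out).mp ((ZMod.natCast_eq_zero_iff _ _).mp h)).symm
  have h := fixed_image (k := ZMod ℓ) (q := q) (s := s) (n := n) hq2 hs2 hqs hn hqk hQ ρ α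
    (MulEquiv.ext fun y => Subtype.ext (by rw [hα, hσ]; rfl)) T
    (LinearMap.ext fun m => HH.Mod.ext (by rw [hTi, hσ]; rfl))
    (fun y => LinearMap.ext fun m => HH.Mod.ext (by
      show σ (ρ y m).val = (ρ (α y) (T m)).val
      rw [hρ, hρ, map_mul, map_mul, map_inv]
      have h1 := hα 1 y
      rw [pow_one, pow_one] at h1
      rw [h1]; rfl))
    (LinearMap.ext fun m => HH.Mod.ext (by
      rw [LinearMap.sum_apply, HH.Mod.val_sum]
      simp only [hTi]
      exact hnorm _ m.val_mem))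
    hS β (MulEquiv.ext fun y => Subtype.ext (by rw [hβ, hσ]; rfl)) φ
    (fun y b => Subtype.ext (by
      have h1 := hα 1 (φ y b)
      have h2 := hα 1 b
      have h3 := hβ 1 y
      rw [pow_one, pow_one] at h1 h2 h3
      rw [h1, hφ, hφ, h2, h3, map_mul, map_mul, map_inv]))
    (fun y b hb => LinearMap.ext fun m => HH.Mod.ext (by
      have hm : (y : X)⁻¹ * m.val * y ∈ V := by
        simpa using (inferInstance : V.Normal).conj_mem _ m.val_mem (y : X)⁻¹
      have h1 := congrArg HH.Mod.val (LinearMap.congr_fun hb (HH.Mod.mk hV _ hm))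
      rw [hρ, HH.Mod.val_mk, Module.End.one_apply, HH.Mod.val_mk] at h1
      rw [hρ, hφ, Module.End.one_apply]
      calc (y : X) * b * (y : X)⁻¹ * m.val * ((y : X) * b * (y : X)⁻¹)⁻¹
          = y * (b * ((y : X)⁻¹ * m.val * y) * (b : X)⁻¹) * (y : X)⁻¹ := by group
        _ = m.val := by rw [h1]; group))
    ⟨x, hx⟩ ⟨a, ha⟩
  have h1 := congrArg HH.Mod.val (LinearMap.congr_fun h (HH.Mod.mk hV v hv))
  rw [hρ, hρ, hφ, HH.Mod.val_mk] at h1
  simp only [Subgroup.coe_mul, Subgroup.coe_inv, hβ] at h1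
  exact h1

end Cfsg.Agent.FPFPower
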