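/-
A solvable group with a fixed-point-free automorphism of order dividing `2^n`, `n ≥ 2`: the Fitting height is at
most `2n - 2`.
-/
import Mathlib
import Cfsg.Agent.FPFPower.ModuleStage
import Cfsg.Agent.FPFPower.Fitting
import Cfsg.Agent.Lib.FixedPointFreeFour

set_option autoImplicit false
set_option maxHeartbeats 400000

namespace Cfsg.Agent.FPFPower

open Cfsg.Agent.HH
open scoped commutatorElement

universe u

/-- The automorphism induced on the quotient by an invariant normal subgroup. -/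
theorem exists_quotient_aut {G : Type*} [Group G] [Finite G] (σ : MulAut G) (N : Subgroup G) [N.Normal]
    (hN : ∀ y ∈ N, σ y ∈ N) :
    ∃ τ : MulAut (G ⧸ N), ∀ (i : ℕ) (g : G), (τ ^ i) (g : G ⧸ N) = (((σ ^ i) g : G) : G ⧸ N) := by
  have hmap : N.map σ.toMonoidHom = N := Subgroup.eq_of_le_of_card_ge
    (by rintro _ ⟨y, hy, rfl⟩; exact hN y hy) (by rw [Subgroup.card_map_of_injective σ.injective])
  refine ⟨QuotientGroup.congr N N σ hmap, fun i g => ?_⟩
  induction i with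
  | zero => rfl
  | succ i ih => rw [pow_succ', MulAut.mul_apply, ih, pow_succ', MulAut.mul_apply]; rfl

theorem quotient_aut_pow {G : Type*} [Group G] {N : Subgroup G} [N.Normal] {σ : MulAut G} {τ : MulAut (G ⧸ N)}
    (hτ : ∀ (i : ℕ) (g : G), (τ ^ i) (g : G ⧸ N) = (((σ ^ i) g : G) : G ⧸ N)) {m : ℕ} (hσ : σ ^ m = 1) :
    τ ^ m = 1 := by
  refine MulEquiv.ext fun u => ?_
  induction u using QuotientGroup.induction_on with
  | H g => rw [hτ, hσ]; rfl

theorem quotient_aut_fpf {G : Type*} [Group G] [Finite G] {N : Subgroup G} [N.Normal] {σ : MulAut G}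
    {τ : MulAut (G ⧸ N)} (hτ : ∀ (i : ℕ) (g : G), (τ ^ i) (g : G ⧸ N) = (((σ ^ i) g : G) : G ⧸ N)) {n : ℕ}
    (hσ : σ ^ 2 ^ n = 1) (hfpf : ∀ g, σ g = g → g = 1) (hN : ∀ y ∈ N, σ y ∈ N) : ∀ x, τ x = x → x = 1 := by
  refine fpf_quotient σ hσ hfpf N hN (fun hd => ?_) τ fun g => by simpa using hτ 1 g
  exact not_dvd_card σ hσ hfpf (hd.trans (Subgroup.card_subgroup_dvd_card N))

theorem mem_normalizer_of_conj_mem {G : Type*} [Group G] [Finite G] {P : Subgroup G} {g : G}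
    (h : ∀ y ∈ P, g * y * g⁻¹ ∈ P) : g ∈ Subgroup.normalizer (P : Set G) := by
  have hmap : P.map (MulAut.conj g).toMonoidHom = P := Subgroup.eq_of_le_of_card_ge
    (by rintro _ ⟨y, hy, rfl⟩; exact h y hy) (by rw [Subgroup.card_map_of_injective (MulAut.conj g).injective])
  rw [Subgroup.mem_normalizer_iff]
  refine fun y => ⟨h y, fun hy => ?_⟩
  obtain ⟨z, hz, hzy⟩ := hmap.ge hy
  have : z = y := mul_left_cancel (mul_right_cancel (hzy : g * z * g⁻¹ = g * y * g⁻¹))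
  exact this ▸ hz

/-- Invariant Sylow subgroups are unique. -/
theorem invariant_sylow_unique {G : Type*} [Group G] [Finite G] {n q : ℕ} [Fact q.Prime] (σ : MulAut G)
    (hσ : σ ^ 2 ^ n = 1) (hfpf : ∀ g, σ g = g → g = 1) (P₁ P₂ : Sylow q G)
    (h₁ : ∀ y ∈ (P₁ : Subgroup G), σ y ∈ (P₁ : Subgroup G)) (h₂ : ∀ y ∈ (P₂ : Subgroup G), σ y ∈ (P₂ : Subgroup G)) :
    (P₁ : Subgroup G) = P₂ := by
  classical
  obtain ⟨x, rfl⟩ := MulAction.exists_smul_eq G P₁ P₂
  have hmem : ∀ y, y ∈ ((x • P₁ : Sylow q G) : Subgroup G) ↔ x⁻¹ * y * x ∈ (P₁ : Subgroup G) := fun y => by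
    rw [Sylow.coe_subgroup_smul, Subgroup.mem_pointwise_smul_iff_inv_smul_mem]
    simp [MulAut.smul_def]
  have hN : ∀ g ∈ Subgroup.normalizer ((P₁ : Subgroup G) : Set G), σ g ∈ Subgroup.normalizer ((P₁ : Subgroup G) : Set G) := by
    intro g hg
    refine mem_normalizer_of_conj_mem fun y hy => ?_
    rw [show σ g * y * (σ g)⁻¹ = σ (g * σ.symm y * g⁻¹) by
      rw [map_mul, map_mul, map_inv, MulEquiv.apply_symm_apply]]
    exact h₁ _ ((Subgroup.mem_normalizer_iff.mp hg _).mp (symm_mem σ h₁ hy))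
  have hx : x⁻¹ * σ x ∈ Subgroup.normalizer ((P₁ : Subgroup G) : Set G) := by
    refine mem_normalizer_of_conj_mem fun y hy => ?_
    have h3 := h₂ (x * σ.symm y * x⁻¹) ((hmem _).mpr (by
      rw [show x⁻¹ * (x * σ.symm y * x⁻¹) * x = σ.symm y by group]; exact symm_mem σ h₁ hy))
    rw [map_mul, map_mul, map_inv, MulEquiv.apply_symm_apply, hmem] at h3
    rwa [show x⁻¹ * σ x * y * (x⁻¹ * σ x)⁻¹ = x⁻¹ * (σ x * y * (σ x)⁻¹) * x by group]
  obtain ⟨r, hr, hfix⟩ := exists_fixed_in_coset (p := 2) (k := n) σ hσ _ hN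
    (fun hd => not_dvd_card σ hσ hfpf (hd.trans (Subgroup.card_subgroup_dvd_card _))) hx
  have hxr : x = r⁻¹ := eq_inv_of_mul_eq_one_left (hfpf _ hfix)
  ext y
  rw [hmem, hxr, inv_inv]
  exact Subgroup.mem_normalizer_iff.mp hr y

/-- The norm of a fixed-point-free automorphism kills an abelian subgroup. -/
theorem norm_eq_one {G : Type*} [Group G] [Finite G] (σ : MulAut G) {m : ℕ} (hσ : σ ^ m = 1) (hfpf : ∀ g, σ g = g → g = 1)
    (V : Subgroup G) (hV : ∀ a ∈ V, ∀ b ∈ V, a * b = b * a) (hVσ : ∀ v ∈ V, σ v ∈ V) {v : G} (hv : v ∈ V) :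
    ((List.range m).map fun i => (σ ^ i) v).prod = 1 := by
  set p : ℕ → G := fun k => ((List.range k).map fun i => (σ ^ i) v).prod with hp
  have hpV : ∀ k, p k ∈ V := fun k => list_prod_mem fun y hy => by
    obtain ⟨i, -, rfl⟩ := List.mem_map.mp hy
    exact pow_apply_mem σ hVσ i hv
  have h1 : v * σ (p m) = p (m + 1) := by
    simp only [hp, List.range_succ_eq_map, List.map_cons, List.prod_cons, List.map_map, map_list_prod]
    congr 2
    exact List.map_congr_left fun i _ => by simp [pow_succ']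
  have h2 : p (m + 1) = p m * v := by
    simp only [hp, List.range_succ, List.map_append, List.prod_append, List.map_singleton, List.prod_singleton, hσ]
    rfl
  refine hfpf _ ?_
  have h3 := h1.trans h2
  rw [hV _ (hpV m) v hv] at h3
  exact mul_left_cancel h3

/-- The first stage. -/
theorem stage {G : Type*} [Group G] [Finite G] [Group.IsSolvable G] {n : ℕ} (hn : 1 ≤ n) (σ : MulAut G)
    (hσ : σ ^ 2 ^ n = 1) (hfpf : ∀ g, σ g = g → g = 1) (F : Subgroup G) [F.Normal] (hF : F = Cfsg.fittingSubgroup G)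
    (τ : MulAut (G ⧸ F)) (hτ : ∀ (i : ℕ) (g : G), (τ ^ i) (g : G ⧸ F) = (((σ ^ i) g : G) : G ⧸ F))
    {q s : ℕ} [Fact q.Prime] [Fact s.Prime] (hqs : q ≠ s) (S : Sylow s (G ⧸ F))
    (hS : ∀ y ∈ (S : Subgroup (G ⧸ F)), τ y ∈ (S : Subgroup (G ⧸ F)))
    {x : G ⧸ F} (hx : x ∈ (S : Subgroup (G ⧸ F))) {a : G ⧸ F} (ha : a ∈ Cfsg.pCore q (G ⧸ F)) :
    Commute (x⁻¹ * (τ ^ 2 ^ (n - 1)) x) a := by
  classical
  have h2G := not_dvd_card σ hσ hfpf
  have hne2 : ∀ r : ℕ, r.Prime → (∃ H : Subgroup G, r ∣ Nat.card H) → r ≠ 2 := by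
    rintro r hr ⟨H, hH⟩ rfl
    exact h2G (hH.trans (Subgroup.card_subgroup_dvd_card H))
  have hFσ : ∀ y ∈ F, σ y ∈ F := by subst hF; exact char_invariant σ
  let π := QuotientGroup.mk' F
  have hτ1 : ∀ g : G, τ (π g) = π (σ g) := fun g => by
    have := hτ 1 g
    rwa [pow_one, pow_one] at this
  -- trivial cases
  rcases eq_or_ne x 1 with rfl | hx1
  · rw [map_one, inv_one, one_mul]; exact Commute.one_left a
  rcases eq_or_ne a 1 with rfl | ha1
  · exact Commute.one_right _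
  have hdvd : ∀ {r : ℕ}, r.Prime → ∀ {H : Subgroup (G ⧸ F)}, IsPGroup r H → ∀ {y}, y ∈ H → y ≠ 1 → r ≠ 2 := by
    intro r hr H hH y hy hy1
    rintro rfl
    obtain ⟨k, hk⟩ := hH ⟨y, hy⟩
    obtain ⟨i, -, hi⟩ := (Nat.dvd_prime_pow hr).mp (orderOf_dvd_of_pow_eq_one (show y ^ 2 ^ k = 1 from congrArg Subtype.val hk))
    have hi0 : i ≠ 0 := fun h => hy1 (orderOf_eq_one_iff.mp (by rw [hi, h, pow_zero]))
    refine h2G ((dvd_pow_self 2 hi0).trans (hi ▸ (orderOf_dvd_natCard y).trans ?_))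
    exact Subgroup.card_quotient_dvd_card F
  have hq2 : q ≠ 2 := hdvd Fact.out Cfsg.Agent.Cores.pCore_isPGroup ha ha1
  have hs2 : s ≠ 2 := hdvd Fact.out S.isPGroup' hx hx1
  -- the Sylow subgroup of the preimage
  set K := (Cfsg.pCore q (G ⧸ F)).comap π with hK
  haveI hKn : K.Normal := (inferInstance : (Cfsg.pCore q (G ⧸ F)).Normal).comap π
  have hKσ : ∀ y ∈ K, σ y ∈ K := fun y hy => by
    rw [hK, Subgroup.mem_comap, ← hτ1]
    exact char_invariant τ _ hy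
  obtain ⟨σK, hσK⟩ := exists_restrict σ K hKσ
  have hσK1 : σK ^ 2 ^ n = 1 := MulEquiv.ext fun y => Subtype.ext (by rw [hσK, hσ]; rfl)
  obtain ⟨Q, hQ⟩ := exists_invariant_sylow (q := q) σK hσK1 fun h => h2G (h.trans (Subgroup.card_subgroup_dvd_card K))
  set Q' := (Q : Subgroup K).map K.subtype with hQ'
  have hQ'σ : ∀ y ∈ Q', σ y ∈ Q' := by
    rintro _ ⟨y, hy, rfl⟩
    refine ⟨σK y, hQ y hy, ?_⟩
    have := hσK 1 y
    rwa [pow_one, pow_one] at this
  let πK : K →* Cfsg.pCore q (G ⧸ F) := (π.comp K.subtype).codRestrict _ fun y => y.2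
  have hπK : Function.Surjective πK := by
    rintro ⟨u, hu⟩
    obtain ⟨g, rfl⟩ := QuotientGroup.mk'_surjective F u
    exact ⟨⟨g, hu⟩, rfl⟩
  have hQtop : (Q : Subgroup K).map πK = ⊤ := by
    have h := (Q.mapSurjective hπK).is_maximal' (Q := ⊤)
      (IsPGroup.of_equiv Cfsg.Agent.Cores.pCore_isPGroup Subgroup.topEquiv.symm) le_top
    exact h.symm
  have hcov : ∀ u ∈ Cfsg.pCore q (G ⧸ F), ∃ b ∈ Q', π b = u := by
    intro u hu
    obtain ⟨y, hy, hyu⟩ := hQtop.ge (Subgroup.mem_top (⟨u, hu⟩ : Cfsg.pCore q (G ⧸ F)))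
    exact ⟨y, ⟨y, hy, rfl⟩, congrArg Subtype.val hyu⟩
  set N := Subgroup.normalizer (Q' : Set G) with hN
  have hNσ : ∀ y ∈ N, σ y ∈ N := by
    intro g hg
    refine mem_normalizer_of_conj_mem fun y hy => ?_
    rw [show σ g * y * (σ g)⁻¹ = σ (g * σ.symm y * g⁻¹) by
      rw [map_mul, map_mul, map_inv, MulEquiv.apply_symm_apply]]
    exact hQ'σ _ ((Subgroup.mem_normalizer_iff.mp hg _).mp (symm_mem σ hQ'σ hy))
  let πN : N →* G ⧸ F := π.comp N.subtype
  have hπN : Function.Surjective πN := by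
    intro u
    obtain ⟨g, rfl⟩ := QuotientGroup.mk'_surjective F u
    have hg : g ∈ N ⊔ K := by rw [hN, hQ', Sylow.normalizer_sup_eq_top Q]; trivial
    obtain ⟨m, hm, k, hk, rfl⟩ := Subgroup.mem_sup_of_normal_right.mp hg
    obtain ⟨b, hb, hbk⟩ := hcov _ (Subgroup.mem_comap.mp hk)
    exact ⟨⟨m * b, mul_mem hm (Subgroup.le_normalizer hb)⟩, by
      show π (m * b) = π (m * k)
      rw [map_mul, map_mul, hbk]⟩
  obtain ⟨σN, hσN⟩ := exists_restrict σ N hNσ
  have hσN1 : σN ^ 2 ^ n = 1 := MulEquiv.ext fun y => Subtype.ext (by rw [hσN, hσ]; rfl)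
  obtain ⟨T, hT⟩ := exists_invariant_sylow (q := s) σN hσN1 fun h => h2G (h.trans (Subgroup.card_subgroup_dvd_card N))
  have hσN' : ∀ y : N, ((σN y : N) : G) = σ y := fun y => by
    have := hσN 1 y
    rwa [pow_one, pow_one] at this
  have hTS : ((T.mapSurjective hπN : Sylow s (G ⧸ F)) : Subgroup (G ⧸ F)) = S := by
    refine invariant_sylow_unique τ (quotient_aut_pow hτ hσ) (quotient_aut_fpf hτ hσ hfpf hFσ) _ _ ?_ hS
    rintro _ ⟨y, hy, rfl⟩
    exact ⟨σN y, hT y hy, by show π (σN y : G) = τ (π (y : G)); rw [hσN', hτ1]⟩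
  obtain ⟨y, hy, hyx⟩ : ∃ y ∈ (T : Subgroup N), πN y = x := hTS.ge hx
  obtain ⟨b, hb, hba⟩ := hcov a ha
  set S' := (T : Subgroup N).map N.subtype with hS'
  have hS'σ : ∀ z ∈ S', σ z ∈ S' := by
    rintro _ ⟨z, hz, rfl⟩
    exact ⟨σN z, hT z hz, hσN' z⟩
  have hS'N : S' ≤ N := Subgroup.map_subtype_le _
  set g := (y : G)⁻¹ * (σ ^ 2 ^ (n - 1)) (y : G) with hg
  have hgN : g ∈ N := mul_mem (inv_mem y.2) (pow_apply_mem σ hNσ _ y.2)
  set c := g * b * g⁻¹ * b⁻¹ with hc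
  have hcQ : c ∈ Q' := mul_mem ((Subgroup.mem_normalizer_iff.mp hgN b).mp hb) (inv_mem hb)
  -- `c` centralizes the cores for the other primes
  have hcent : ∀ ℓ : Nat.Primes, (ℓ : ℕ) ≠ q → ∀ m ∈ Cfsg.pCore (ℓ : ℕ) G, c * m = m * c := by
    intro ℓ hℓq
    haveI := Fact.mk ℓ.2
    set O := Cfsg.pCore (ℓ : ℕ) G with hO
    have hOp : IsPGroup (ℓ : ℕ) O := Cfsg.Agent.Cores.pCore_isPGroup
    set Φ := (frattini ↥O).map O.subtype with hΦ
    haveI : Φ.Normal := Cfsg.Agent.Cores.normal_map_subtype_of_characteristic _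
    have hOσ : ∀ m ∈ O, σ m ∈ O := char_invariant σ
    obtain ⟨σO, hσO⟩ := exists_restrict σ O hOσ
    have hΦσ : ∀ m ∈ Φ, σ m ∈ Φ := by
      rintro _ ⟨m, hm, rfl⟩
      refine ⟨σO m, char_invariant σO m hm, ?_⟩
      have := hσO 1 m
      rwa [pow_one, pow_one] at this
    obtain ⟨σ₁, hσ₁⟩ := exists_quotient_aut σ Φ hΦσ
    let π₁ := QuotientGroup.mk' Φ
    set V := O.map π₁ with hV
    haveI : V.Normal := Subgroup.Normal.map inferInstance _ (QuotientGroup.mk'_surjective Φ)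
    have hVmod : IsModuleSubgroup (ℓ : ℕ) V := by
      refine ⟨⟨⟨?_⟩⟩, ?_⟩
      · rintro ⟨_, m, hm, rfl⟩ ⟨_, m', hm', rfl⟩
        refine Subtype.ext ?_
        show π₁ m * π₁ m' = π₁ m' * π₁ m
        rw [← commutatorElement_eq_one_iff_mul_comm, ← map_commutatorElement]
        exact (QuotientGroup.eq_one_iff _).mpr ⟨⁅(⟨m, hm⟩ : O), ⟨m', hm'⟩⁆,
          Cfsg.Agent.PGroup.commutatorElement_mem_frattini hOp _ _, rfl⟩
      · rintro _ ⟨m, hm, rfl⟩
        rw [← map_pow]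
        exact (QuotientGroup.eq_one_iff _).mpr ⟨(⟨m, hm⟩ : O) ^ (ℓ : ℕ), Cfsg.Agent.PGroup.pow_mem_frattini hOp _, rfl⟩
    have hσ₁1 : ∀ m : G, σ₁ (π₁ m) = π₁ (σ m) := fun m => by
      have := hσ₁ 1 m
      rwa [pow_one, pow_one] at this
    have hVσ : ∀ v ∈ V, σ₁ v ∈ V := by
      rintro _ ⟨m, hm, rfl⟩
      exact ⟨σ m, hOσ m hm, (hσ₁1 m).symm⟩
    have hmapσ : ∀ H : Subgroup G, (∀ z ∈ H, σ z ∈ H) → ∀ z ∈ H.map π₁, σ₁ z ∈ H.map π₁ := by
      rintro H hH _ ⟨z, hz, rfl⟩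
      exact ⟨σ z, hH z hz, (hσ₁1 z).symm⟩
    have key : ∀ m ∈ O, π₁ (c * m * c⁻¹) = π₁ m := by
      intro m hm
      have hm' : b⁻¹ * m * b ∈ O := by
        simpa using (inferInstance : O.Normal).conj_mem m hm b⁻¹
      have h := centralizes_of_norm (q := q) (s := s) hq2 hs2 hqs (Ne.symm hℓq) hn hVmod σ₁ (quotient_aut_pow hσ₁ hσ)
        hVσ (fun v hv => norm_eq_one σ₁ (quotient_aut_pow hσ₁ hσ) (quotient_aut_fpf hσ₁ hσ hfpf hΦσ) V
          (fun p hp r hr => congrArg Subtype.val (hVmod.comm.is_comm.comm ⟨p, hp⟩ ⟨r, hr⟩)) hVσ hv)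
        (Q'.map π₁) (S'.map π₁) ((Q.isPGroup'.map _).map _) ((T.isPGroup'.map _).map _) (hmapσ _ hQ'σ) (hmapσ _ hS'σ)
        ((Subgroup.map_mono hS'N).trans (Subgroup.le_normalizer_map π₁))
        ⟨y, ⟨y, hy, rfl⟩, rfl⟩ ⟨b, hb, rfl⟩ ⟨_, hm', rfl⟩
      rw [show (σ₁ ^ 2 ^ (n - 1)) (π₁ (y : G)) = π₁ ((σ ^ 2 ^ (n - 1)) (y : G)) from hσ₁ _ _] at h
      simp only [← map_inv, ← map_mul] at h
      rw [show b * (b⁻¹ * m * b) * b⁻¹ = m by group] at h
      rw [hc, hg, ← h]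
      congr 1
      group
    have hcop : (orderOf c).Coprime (ℓ : ℕ) := by
      obtain ⟨k, hk⟩ := (Q.isPGroup'.map K.subtype) ⟨c, hcQ⟩
      obtain ⟨i, -, hi⟩ := (Nat.dvd_prime_pow (Fact.out : q.Prime)).mp
        (orderOf_dvd_of_pow_eq_one (show c ^ q ^ k = 1 from congrArg Subtype.val hk))
      rw [hi]
      exact Nat.Coprime.pow_left i ((Nat.coprime_primes Fact.out ℓ.2).mpr (Ne.symm hℓq))
    refine Cfsg.Agent.PGroup.commute_of_coprime_of_frattini hOp hcop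
      (mem_normalizer_of_conj_mem fun m hm => (inferInstance : O.Normal).conj_mem m hm c) fun m hm => ?_
    exact QuotientGroup.eq.mp (key m hm).symm
  -- the part of the Sylow subgroup with this property is subnormal
  let P : Subgroup G := Q' ⊓ ⨅ (ℓ : Nat.Primes) (_ : (ℓ : ℕ) ≠ q), Subgroup.centralizer (Cfsg.pCore (ℓ : ℕ) G : Set G)
  have hPK : P ≤ K := inf_le_left.trans (Subgroup.map_subtype_le _)
  have hKP : K ≤ Subgroup.normalizer (P : Set G) := by
    have hQP : Q' ≤ Subgroup.normalizer (P : Set G) := fun k hk => mem_normalizer_of_conj_mem fun z hz => by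
      refine Subgroup.mem_inf.mpr ⟨Q'.mul_mem (Q'.mul_mem hk hz.1) (Q'.inv_mem hk), ?_⟩
      refine Subgroup.mem_iInf.mpr fun ℓ => Subgroup.mem_iInf.mpr fun hℓ => ?_
      have hz2 := (Subgroup.mem_iInf.mp ((Subgroup.mem_iInf.mp hz.2) ℓ)) hℓ
      exact (inferInstance : (Subgroup.centralizer (Cfsg.pCore (ℓ : ℕ) G : Set G)).Normal).conj_mem _ hz2 k
    have hOQ : Cfsg.pCore q G ≤ Q' := by
      have hle : Cfsg.pCore q G ≤ K := Subgroup.map_le_iff_le_comap.mp
        (Cfsg.Agent.Cores.le_pCore (Subgroup.Normal.map inferInstance π (QuotientGroup.mk'_surjective F))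
          (Cfsg.Agent.Cores.pCore_isPGroup.map π))
      rw [hQ', ← Subgroup.map_subgroupOf_eq_of_le hle]
      exact Subgroup.map_mono
        ((Cfsg.Agent.Cores.pCore_isPGroup.comap_subtype).le_sylow_of_normal Q)
    intro k hk
    obtain ⟨a', ha', hak⟩ := hcov _ (Subgroup.mem_comap.mp hk)
    have hf : a'⁻¹ * k ∈ F := QuotientGroup.eq.mp hak
    have hFP : F ≤ Subgroup.normalizer (P : Set G) := by
      rw [hF, Cfsg.Agent.Cores.fittingSubgroup_eq_iSup_pCore]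
      refine iSup_le fun ℓ => ?_
      by_cases hℓ : (ℓ : ℕ) = q
      · rw [hℓ]; exact hOQ.trans hQP
      · intro f hf
        refine mem_normalizer_of_conj_mem fun z hz => ?_
        have hz2 := Subgroup.mem_centralizer_iff.mp ((Subgroup.mem_iInf.mp ((Subgroup.mem_iInf.mp hz.2) ℓ)) hℓ) f hf
        rw [hz2, mul_inv_cancel_right]
        exact hz
    simpa using mul_mem (hQP ha') (hFP hf)
  have hcP : c ∈ P := ⟨hcQ, by
    exact Subgroup.mem_iInf.mpr fun ℓ => Subgroup.mem_iInf.mpr fun hℓ => Subgroup.mem_centralizer_iff.mpr fun m hm => (hcent ℓ hℓ m hm).symm⟩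
  have hPsub : P.IsSubnormal := by
    refine Subgroup.IsSubnormal.step P K hPK ?_ ((Subgroup.normal_subgroupOf_iff_le_normalizer hPK).mpr hKP)
    exact Subgroup.Normal.isSubnormal hKn
  have hcF : c ∈ F := hF.ge <| Cfsg.Agent.Cores.pCore_le_fittingSubgroup (p := q)
    (Cfsg.Agent.Cores.le_pCore_of_isSubnormal hPsub ((Q.isPGroup'.map K.subtype).to_le inf_le_left) hcP)
  have h1 : π c = 1 := (QuotientGroup.eq_one_iff c).mpr hcF
  have h2 : π g = x⁻¹ * (τ ^ 2 ^ (n - 1)) x := by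
    rw [hg, map_mul, map_inv, ← hyx]
    show (π (y : G))⁻¹ * π ((σ ^ 2 ^ (n - 1)) (y : G)) = (π (y : G))⁻¹ * (τ ^ 2 ^ (n - 1)) (π (y : G))
    exact congrArg _ (hτ _ _).symm
  rw [hc, map_mul, map_mul, map_mul, map_inv, map_inv, h2, hba, mul_inv_eq_one, mul_inv_eq_iff_eq_mul] at h1
  exact h1

/-- An element of `s`-power order centralizing, modulo a stability series, all the other cores. -/
theorem eq_one_of_commute_cores {Y : Type*} [Group Y] [Finite Y] [Group.IsSolvable Y] {s : ℕ} [Fact s.Prime]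
    (hO : Cfsg.pCore s Y = ⊥) (u : Y) {k : ℕ} (hu : u ^ s ^ k = 1)
    (h : ∀ r : ℕ, r.Prime → r ≠ s → ∀ w ∈ Cfsg.pCore r Y, Commute u (w⁻¹ * (u * w * u⁻¹))) : u = 1 := by
  have hs : s.Prime := Fact.out
  have hcomm : ∀ r : Nat.Primes, ∀ w ∈ Cfsg.pCore (r : ℕ) Y, Commute u w := by
    intro r w hw
    by_cases hrs : (r : ℕ) = s
    · rw [hrs, hO, Subgroup.mem_bot] at hw
      rw [hw]; exact Commute.one_right u
    haveI := Fact.mk r.2
    set W := Cfsg.pCore (r : ℕ) Y with hW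
    have hWn : u ∈ Subgroup.normalizer (W : Set Y) :=
      mem_normalizer_of_conj_mem fun w hw => (inferInstance : W.Normal).conj_mem w hw _
    set α := W.normalizerMonoidHom ⟨u, hWn⟩ with hα
    have hα' : ∀ w : W, ((α w : W) : Y) = u * w * u⁻¹ := fun w => rfl
    have hcop : (orderOf α).Coprime (r : ℕ) := by
      refine Nat.Coprime.coprime_dvd_left ((orderOf_dvd_of_pow_eq_one ?_) : orderOf α ∣ s ^ k)
        (Nat.Coprime.pow_left k ((Nat.coprime_primes hs r.2).mpr (Ne.symm hrs)))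
      rw [hα, ← map_pow, show (⟨u, hWn⟩ : Subgroup.normalizer (W : Set Y)) ^ s ^ k = 1 from Subtype.ext hu, map_one]
    have hαw := Cfsg.Agent.PGroup.apply_eq_of_fixed_commutator Cfsg.Agent.Cores.pCore_isPGroup α hcop
      (x := (⟨w, hw⟩ : W)) (Subtype.ext (by
        rw [hα', Subgroup.coe_mul, Subgroup.coe_inv, hα', (h r r.2 hrs w hw).eq, mul_inv_cancel_right]))
    have h4 := congrArg Subtype.val hαw
    rw [hα', mul_inv_eq_iff_eq_mul] at h4
    exact h4
  have hle : Cfsg.fittingSubgroup Y ≤ Subgroup.centralizer {u} := by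
    rw [Cfsg.Agent.Cores.fittingSubgroup_eq_iSup_pCore]
    exact iSup_le fun r w hw => Subgroup.mem_centralizer_singleton_iff.mpr (hcomm r w hw).symm
  have hmem : u ∈ Cfsg.fittingSubgroup Y := Cfsg.Agent.Cores.centralizer_fittingSubgroup_le
    (Subgroup.mem_centralizer_iff.mpr fun v hv => Subgroup.mem_centralizer_singleton_iff.mp (hle hv))
  have hp : Cfsg.fittingSubgroup Y ≤ Cfsg.pPrimeCore s Y := by
    rw [Cfsg.Agent.Cores.fittingSubgroup_eq_iSup_pCore]
    refine iSup_le fun r => ?_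
    haveI := Fact.mk r.2
    by_cases hrs : (r : ℕ) = s
    · rw [hrs, hO]; exact bot_le
    · refine Cfsg.Agent.Cores.le_pPrimeCore inferInstance ?_
      obtain ⟨k, hk⟩ := IsPGroup.iff_card.mp (Cfsg.Agent.Cores.pCore_isPGroup (p := (r : ℕ)) (G := Y))
      rw [hk]
      exact Nat.Coprime.pow_left k ((Nat.coprime_primes r.2 hs).mpr hrs)
  refine orderOf_eq_one_iff.mp (Nat.dvd_one.mp ?_)
  rw [← Nat.Coprime.pow_right k (Cfsg.Agent.Cores.orderOf_coprime_of_mem_pPrimeCore (hp hmem))]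
  exact Nat.dvd_gcd dvd_rfl (orderOf_dvd_of_pow_eq_one hu)

/-- Both stages. -/
theorem two_stage {G : Type*} [Group G] [Finite G] [Group.IsSolvable G] {n : ℕ} (hn : 1 ≤ n) (σ : MulAut G)
    (hσ : σ ^ 2 ^ n = 1) (hfpf : ∀ g, σ g = g → g = 1) (g : G) :
    ((g⁻¹ * (σ ^ 2 ^ (n - 1)) g : G) : G ⧸ Cfsg.fittingSubgroup G) ∈
      Cfsg.fittingSubgroup (G ⧸ Cfsg.fittingSubgroup G) := by
  classical
  set F := Cfsg.fittingSubgroup G with hF
  have hFσ : ∀ y ∈ F, σ y ∈ F := char_invariant σ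
  obtain ⟨τ, hτ⟩ := exists_quotient_aut σ F hFσ
  have hτp := quotient_aut_pow hτ hσ
  have hτf := quotient_aut_fpf hτ hσ hfpf hFσ
  set F2 := Cfsg.fittingSubgroup (G ⧸ F) with hF2
  have hF2τ : ∀ y ∈ F2, τ y ∈ F2 := char_invariant τ
  obtain ⟨τ2, hτ2⟩ := exists_quotient_aut τ F2 hF2τ
  set J := τ ^ 2 ^ (n - 1) with hJ
  let E : Subgroup (G ⧸ F) :=
    { carrier := {u | u⁻¹ * J u ∈ F2}
      one_mem' := by simp
      mul_mem' := fun {a b} (ha : a⁻¹ * J a ∈ F2) (hb : b⁻¹ * J b ∈ F2) => by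
        show (a * b)⁻¹ * J (a * b) ∈ F2
        rw [map_mul, show (a * b)⁻¹ * (J a * J b) = b⁻¹ * (a⁻¹ * J a) * b⁻¹⁻¹ * (b⁻¹ * J b) by group]
        exact mul_mem ((inferInstance : F2.Normal).conj_mem _ ha _) hb
      inv_mem' := fun {a} (ha : a⁻¹ * J a ∈ F2) => by
        show a⁻¹⁻¹ * J a⁻¹ ∈ F2
        rw [map_inv, show a⁻¹⁻¹ * (J a)⁻¹ = a * (a⁻¹ * J a)⁻¹ * a⁻¹ by group]
        exact (inferInstance : F2.Normal).conj_mem _ (inv_mem ha) _ }
  suffices hE : E = ⊤ by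
    have := hE.ge (Subgroup.mem_top (g : G ⧸ F))
    rw [QuotientGroup.mk_mul, QuotientGroup.mk_inv, ← hτ]
    exact this
  refine Cfsg.Agent.Cores.eq_top_of_forall_sylow_le E fun s hs => ?_
  haveI := Fact.mk hs
  obtain ⟨S, hS⟩ := exists_invariant_sylow (q := s) τ hτp (not_dvd_card τ hτp hτf)
  refine ⟨S, fun x hx => ?_⟩
  show x⁻¹ * J x ∈ F2
  set u := x⁻¹ * J x with hu
  have hcomm1 : ∀ q : Nat.Primes, (q : ℕ) ≠ s → ∀ a ∈ Cfsg.pCore (q : ℕ) (G ⧸ F), Commute u a := by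
    intro q hqs a ha
    haveI := Fact.mk q.2
    exact stage hn σ hσ hfpf F rfl τ hτ hqs S hS hx ha
  -- modulo the core for `s`
  set O := Cfsg.pCore s (G ⧸ F) with hO
  let π := QuotientGroup.mk' O
  have huS : u ∈ (S : Subgroup (G ⧸ F)) := mul_mem (inv_mem hx) (pow_apply_mem τ hS _ hx)
  suffices hu1 : π u = 1 from Cfsg.Agent.Cores.pCore_le_fittingSubgroup (p := s) ((QuotientGroup.eq_one_iff u).mp hu1)
  have hF2cent : ∀ f ∈ F2, Commute (π u) (π f) := by
    have hle : F2 ≤ (Subgroup.centralizer {π u}).comap π := by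
      rw [hF2, Cfsg.Agent.Cores.fittingSubgroup_eq_iSup_pCore]
      refine iSup_le fun q f hf => Subgroup.mem_centralizer_singleton_iff.mpr ?_
      by_cases hqs : (q : ℕ) = s
      · rw [hqs] at hf
        rw [show π f = 1 from (QuotientGroup.eq_one_iff f).mpr hf, one_mul, mul_one]
      · exact (((hcomm1 q hqs f hf).map π).symm).eq
    exact fun f hf => (Subgroup.mem_centralizer_singleton_iff.mp (hle hf)).symm
  obtain ⟨k, hk⟩ := S.isPGroup' ⟨u, huS⟩
  refine eq_one_of_commute_cores (s := s) Cfsg.Agent.Cores.pCore_quotient_pCore_eq_bot (π u) (k := k)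
    (by rw [← map_pow, show u ^ s ^ k = 1 from congrArg Subtype.val hk, map_one]) fun r hr hrs w hw => ?_
  haveI := Fact.mk hr
  obtain ⟨y, rfl⟩ := QuotientGroup.mk'_surjective O w
  let π2 := QuotientGroup.mk' F2
  have hO2 : O ≤ π2.ker := by
    rw [QuotientGroup.ker_mk']; exact Cfsg.Agent.Cores.pCore_le_fittingSubgroup
  let d : (G ⧸ F) ⧸ O →* (G ⧸ F) ⧸ F2 := QuotientGroup.lift O π2 hO2
  have hdsurj : Function.Surjective d := fun z => by
    obtain ⟨z, rfl⟩ := QuotientGroup.mk'_surjective F2 z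
    exact ⟨π z, rfl⟩
  have hr' : π2 y ∈ Cfsg.pCore r ((G ⧸ F) ⧸ F2) :=
    Cfsg.Agent.Cores.le_pCore (Subgroup.Normal.map inferInstance d hdsurj) (Cfsg.Agent.Cores.pCore_isPGroup.map d)
      ⟨π y, hw, rfl⟩
  have hS2 : ∀ z ∈ ((S.mapSurjective (QuotientGroup.mk'_surjective F2) : Sylow s _) : Subgroup ((G ⧸ F) ⧸ F2)),
      τ2 z ∈ ((S.mapSurjective (QuotientGroup.mk'_surjective F2) : Sylow s _) : Subgroup ((G ⧸ F) ⧸ F2)) := by
    rintro _ ⟨z, hz, rfl⟩
    refine ⟨τ z, hS z hz, ?_⟩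
    have := hτ2 1 z
    rw [pow_one, pow_one] at this
    exact this.symm
  have h := stage hn τ hτp hτf F2 rfl τ2 hτ2 hrs _ hS2 (x := π2 x) ⟨x, hx, rfl⟩ hr'
  rw [show (τ2 ^ 2 ^ (n - 1)) (π2 x) = π2 (J x) from hτ2 _ x, ← map_inv, ← map_mul] at h
  have hmem : y⁻¹ * (u * y * u⁻¹) ∈ F2 := by
    refine (QuotientGroup.eq_one_iff (N := F2) _).mp ?_
    show π2 (y⁻¹ * (u * y * u⁻¹)) = 1
    rw [map_mul, map_mul, map_mul, h.eq, map_inv, map_inv, mul_inv_cancel_right, inv_mul_cancel]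
  have h3 := hF2cent _ hmem
  rw [map_mul, map_mul, map_mul, map_inv, map_inv] at h3
  exact h3

/-- Prepending a nilpotent normal subgroup to a series. -/
theorem prepend {G : Type*} [Group G] {m : ℕ} {N : Subgroup G} [N.Normal] (hN : Group.IsNilpotent N)
    (h : ∃ F : Fin (m + 1) → Subgroup (G ⧸ N), F 0 = ⊥ ∧ F (Fin.last m) = ⊤ ∧ Monotone F ∧ (∀ i, (F i).Normal) ∧
      ∀ i : Fin m, ∃ k : ℕ, (F i.succ).lowerCentralSeries k ≤ F i.castSucc) :
    ∃ F : Fin (m + 1 + 1) → Subgroup G, F 0 = ⊥ ∧ F (Fin.last (m + 1)) = ⊤ ∧ Monotone F ∧ (∀ i, (F i).Normal) ∧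
      ∀ i : Fin (m + 1), ∃ k : ℕ, (F i.succ).lowerCentralSeries k ≤ F i.castSucc := by
  obtain ⟨F, hF0, hFn, hFm, hFN, hFk⟩ := h
  let f := QuotientGroup.mk' N
  refine ⟨Fin.cons ⊥ fun i => (F i).comap f, rfl, ?_, ?_, ?_, ?_⟩
  · rw [← Fin.succ_last, Fin.cons_succ, hFn, Subgroup.comap_top]
  · intro i j hij
    induction i using Fin.cases with
    | zero => simp
    | succ i =>
      induction j using Fin.cases with
      | zero => simp at hij
      | succ j => simp only [Fin.cons_succ]; exact Subgroup.comap_mono (hFm (Fin.succ_le_succ_iff.mp hij))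
  · intro i
    induction i using Fin.cases with
    | zero => simp
    | succ i => simp only [Fin.cons_succ]; exact (hFN i).comap f
  · intro i
    induction i using Fin.cases with
    | zero =>
      obtain ⟨k, hk⟩ := (Subgroup.isNilpotent_iff_lowerCentralSeries _).mp hN
      refine ⟨k, ?_⟩
      rw [Fin.cons_succ, Fin.castSucc_zero, Fin.cons_zero, hF0, MonoidHom.comap_bot, QuotientGroup.ker_mk']
      exact hk.le
    | succ i =>
      obtain ⟨k, hk⟩ := hFk i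
      refine ⟨k, ?_⟩
      rw [Fin.cons_succ, Fin.castSucc_succ, Fin.cons_succ]
      exact mem_lift_lowerCentralSeries f (QuotientGroup.mk'_surjective N) hk

/-- The height bound. -/
theorem gross_series : ∀ (m : ℕ) (G : Type u) [Group G] [Finite G] [Group.IsSolvable G] (σ : MulAut G),
    σ ^ 2 ^ (m + 2) = 1 → (∀ g, σ g = g → g = 1) →
      ∃ F : Fin (2 * m + 2 + 1) → Subgroup G, F 0 = ⊥ ∧ F (Fin.last (2 * m + 2)) = ⊤ ∧ Monotone F ∧
        (∀ i, (F i).Normal) ∧ ∀ i : Fin (2 * m + 2), ∃ k : ℕ, (F i.succ).lowerCentralSeries k ≤ F i.castSucc := by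
  intro m
  induction m with
  | zero =>
    intro G _ _ _ σ hσ hfpf
    have hnil := Cfsg.Agent.FPFFour.isNilpotent_commutator σ.toMonoidHom hfpf fun g => by
      calc σ (σ (σ (σ g))) = (σ ^ (2 ^ (0 + 2))) g := rfl
        _ = g := by rw [hσ]; rfl
    refine prepend (m := 1) (N := commutator G) hnil ⟨![⊥, ⊤], rfl, rfl, ?_, ?_, ?_⟩
    · intro i j hij
      fin_cases i <;> fin_cases j <;> simp_all
    · intro i
      fin_cases i <;> simp <;> infer_instance
    · intro i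
      fin_cases i
      refine ⟨1, ?_⟩
      show (⊤ : Subgroup (G ⧸ commutator G)).lowerCentralSeries 1 ≤ ⊥
      rw [Subgroup.lowerCentralSeries_succ, Subgroup.lowerCentralSeries_zero, Subgroup.commutator_le]
      intro a _ b _
      obtain ⟨a, rfl⟩ := QuotientGroup.mk'_surjective _ a
      obtain ⟨b, rfl⟩ := QuotientGroup.mk'_surjective _ b
      rw [← map_commutatorElement, Subgroup.mem_bot]
      exact (QuotientGroup.eq_one_iff _).mpr (Subgroup.commutator_mem_commutator trivial trivial)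
  | succ m ih =>
    intro G _ _ _ σ hσ hfpf
    set F := Cfsg.fittingSubgroup G with hF
    have hFσ : ∀ y ∈ F, σ y ∈ F := char_invariant σ
    obtain ⟨τ, hτ⟩ := exists_quotient_aut σ F hFσ
    set F2 := Cfsg.fittingSubgroup (G ⧸ F) with hF2
    obtain ⟨τ2, hτ2⟩ := exists_quotient_aut τ F2 (char_invariant τ)
    have h2 : τ2 ^ 2 ^ (m + 2) = 1 := by
      refine MulEquiv.ext fun u => ?_
      induction u using QuotientGroup.induction_on with
      | H u =>
        induction u using QuotientGroup.induction_on with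
        | H g =>
          rw [hτ2, hτ, MulAut.one_apply, eq_comm, QuotientGroup.eq, ← QuotientGroup.mk_inv, ← QuotientGroup.mk_mul]
          exact two_stage (n := m + 1 + 2) (by omega) σ hσ hfpf g
    have h := ih _ τ2 h2 (quotient_aut_fpf hτ2 (quotient_aut_pow hτ hσ) (quotient_aut_fpf hτ hσ hfpf hFσ) (char_invariant τ))
    exact prepend (m := 2 * m + 2 + 1) Cfsg.Agent.Cores.fittingSubgroup_isNilpotent
      (prepend Cfsg.Agent.Cores.fittingSubgroup_isNilpotent h)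

end Cfsg.Agent.FPFPower
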